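/-
The 27-dimensional representation of type E6 and its invariant cubic form.
-/
import Cfsg.Agent.Chev.E27Tab

set_option autoImplicit false
set_option maxRecDepth 100000

namespace Cfsg.Agent.Chev.E27

open Cfsg.Lie Matrix

noncomputable section

/-- the number of a point -/
def ix (a : I27) : ℕ := 9 * a.1.val + 3 * a.2.1.val + a.2.2.val

/-- the point with a given number -/
def pt (n : ℕ) : I27 := (Fin.ofNat 3 (n / 9), Fin.ofNat 3 (n / 3), Fin.ofNat 3 n)

theorem ix_lt (a : I27) : ix a < 27 := by revert a; decide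

@[simp] theorem pt_ix (a : I27) : pt (ix a) = a := by revert a; decide

theorem ix_pt_mod (n : ℕ) : ix (pt n) = n % 27 := by
  simp only [ix, pt, Fin.val_ofNat]; omega

theorem ix_pt {n : ℕ} (h : n < 27) : ix (pt n) = n := by rw [ix_pt_mod, Nat.mod_eq_of_lt h]

theorem ix_inj {a b : I27} : ix a = ix b ↔ a = b := ⟨fun h => by rw [← pt_ix a, h, pt_ix], congrArg ix⟩

theorem pt_eq_iff {n : ℕ} {a : I27} : pt n = a ↔ n % 27 = ix a := by rw [← ix_inj, ix_pt_mod]

/-- the column of the non-zero entry in row `a` of `e_r` -/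
def src (r : ℕ) (a : I27) : I27 := pt (srcN r (ix a))
/-- the non-zero entry in row `a` of `e_r` -/
def sg (r : ℕ) (a : I27) : ℤ := sgN r (ix a)
/-- the sign of the line through two points -/
def eps (a c : I27) : ℤ := epsN (ix a) (ix c)
/-- the third point on a line -/
def th (a c : I27) : I27 := pt (thN (ix a) (ix c))
/-- the root moving `a` to `c` -/
def rho (a c : I27) : ℕ := rhoN (ix a) (ix c)

theorem ix_src (r : ℕ) (a : I27) : ix (src r a) = srcN r (ix a) := ix_pt (Nat.mod_lt _ (by decide))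
theorem ix_th (a c : I27) : ix (th a c) = thN (ix a) (ix c) := ix_pt (Nat.mod_lt _ (by decide))
theorem rho_lt (a c : I27) : rho a c < 72 := Nat.mod_lt _ (by decide)

theorem row_spec {r : ℕ} (hr : r < 72) {a : I27} (h : sg r a ≠ 0) : sg r (src r a) = 0 ∧
    src (71 - r) (src r a) = a ∧ sg (71 - r) (src r a) = sg r a ∧
      ∀ i < 6, muN (ix a) i = muN (ix (src r a)) i + fA wtsE6 72 i r := by
  have := allLT_iff.1 (allLT_iff.1 row_chk r hr) _ (ix_lt a)
  simp only [bor_iff, band_iff, isZ_iff, frc_eq, Nat.beq_eq, decide_eq_true_eq, allLT_iff] at this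
  simpa only [← ix_inj, ix_src, sg] using this.resolve_left h

/-- the matrix of `e_r` -/
def eM (r : ℕ) : Matrix I27 I27 ℤ := Matrix.of fun a b => if b = src r a then sg r a else 0

theorem eM_mulVec {R : Type*} [CommRing R] (r : ℕ) (v : I27 → R) (a : I27) :
    (cst R (eM r) *ᵥ v) a = sg r a * v (src r a) := by
  simp [cst, eM, mulVec, dotProduct, apply_ite]

theorem eM_mul (r : ℕ) (M : Matrix I27 I27 ℤ) (a b : I27) : (eM r * M) a b = sg r a * M (src r a) b := by
  simp [eM, Matrix.mul_apply]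

theorem eM_symm {r : ℕ} (hr : r < 72) (a b : I27) : eM r a b = eM (71 - r) b a := by
  have key : ∀ r < 72, ∀ a b, eM r a b ≠ 0 → eM r a b = eM (71 - r) b a := fun r hr a b h => by
    simp only [eM, of_apply, ne_eq, ite_eq_right_iff, Classical.not_imp] at h
    obtain ⟨rfl, h⟩ := h
    obtain ⟨-, h1, h2, -⟩ := row_spec hr h
    simp [eM, h1, h2]
  by_cases h : eM r a b = 0
  · by_contra h1
    have := key (71 - r) (by omega) b a (fun e => h1 (h.trans e.symm))
    rw [show 71 - (71 - r) = r by omega] at this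
    exact h1 this.symm
  · exact key r hr a b h

theorem eM_single {R : Type*} [CommRing R] {r : ℕ} (hr : r < 72) (b : I27) (m : R) :
    cst R (eM r) *ᵥ Pi.single b m = Pi.single (src (71 - r) b) (sg (71 - r) b * m) := by
  ext a
  rw [mulVec_single, Pi.single_apply]
  simp only [cst, Pi.smul_apply, col_apply, map_apply, eM_symm hr a b]
  by_cases h : a = src (71 - r) b <;> simp [eM, h, mul_comm]

theorem eM_sq {r : ℕ} (hr : r < 72) : eM r * eM r = 0 := by
  ext a b
  rw [eM_mul]
  by_cases h : sg r a = 0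
  · simp [h]
  · simp [eM, (row_spec hr h).1]

/-- the representation -/
def rep : IntRep tabE6 I27 where
  μ a i := muN (ix a) i
  e := eM
  e2 _ := 0
  e3 _ := 0
  he2 r hr := by simpa using eM_sq hr
  he3 r hr := by simp
  he4 r hr := by simp
  wt r hr a b h i hi := by
    simp only [eM, of_apply, ne_eq, ite_eq_right_iff, Classical.not_imp] at h
    obtain ⟨rfl, h⟩ := h
    rw [← (chk1_spec (D := chevE6) chk1E6).2.2 i hi r hr]
    exact (row_spec hr h).2.2.2 i hi
  rel_neg r hr := by
    ext a b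
    have h1 := allLT_iff.1 neg_chk r hr
    rw [frc_eq] at h1
    have h2 := allLT_iff.1 h1 _ (ix_lt a)
    rw [frc_eq, frc_eq] at h2
    rw [← ix_src r a, ← ix_src (71 - r) a] at h2
    have h3 : ((sg r a * sg (71 - r) (src r a) : ℤ) : ℤ) * (if b = src (71 - r) (src r a) then 1 else 0) +
        ((-(sg (71 - r) a * sg r (src (71 - r) a)) : ℤ) : ℤ) * (if b = src r (src (71 - r) a) then 1 else 0) +
        ((-(sumLt 6 fun i => Int.mul (fA corsE6 72 i r) (muN (ix a) i)) : ℤ) : ℤ) *
          (if b = pt (ix a) then 1 else 0) = 0 := z3_spec h2 (fun n => if b = pt n then (1 : ℤ) else 0)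
    have h4 : ∑ i : Fin chevE6.rank, cor chevE6 r i * muN (ix a) i =
        sumLt 6 fun i => Int.mul (fA corsE6 72 i r) (muN (ix a) i) := by
      rw [sumLt_eq, ← Fin.sum_univ_eq_sum_range (fun i => Int.mul (fA corsE6 72 i r) (muN (ix a) i)) 6]
      exact Finset.sum_congr rfl fun i _ => by
        rw [← ((chk1_spec (D := chevE6) chk1E6).2.1 r hr).2 i i.2]; rfl
    rw [tabE6.neg_eq' hr, show chevE6.nroots - 1 - r = 71 - r from rfl, Matrix.sub_apply, eM_mul, eM_mul,
      diagonal_apply, h4]
    simp only [eM, of_apply, Int.cast_id, pt_ix, eq_comm (a := a)] at h3 ⊢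
    generalize (sumLt 6 fun i => Int.mul (fA corsE6 72 i r) (muN (ix a) i)) = m at h3 ⊢
    split_ifs at h3 ⊢ <;> linear_combination h3
  rel r hr s hs h := by
    ext a b
    have h1 := allLT_iff.1 (allLT_iff.1 rel_chk r hr) s hs
    rw [bor_iff, frc_eq, Nat.beq_eq] at h1
    have h2 := allLT_iff.1 (h1.resolve_left fun e => h (congrArg (· + 1) e)) _ (ix_lt a)
    rw [frc_eq, frc_eq] at h2
    rw [← ix_src r a, ← ix_src s a] at h2
    have h3 : ((sg r a * sg s (src r a) : ℤ) : ℤ) * (if b = src s (src r a) then 1 else 0) +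
        ((-(sg s a * sg r (src s a)) : ℤ) : ℤ) * (if b = src r (src s a) then 1 else 0) +
        ((-(tabE6.N r s * sg (tabE6.P r s) a) : ℤ) : ℤ) * (if b = src (tabE6.P r s) a then 1 else 0) = 0 :=
      z3_spec h2 (fun n => if b = pt n then (1 : ℤ) else 0)
    rw [Matrix.sub_apply, eM_mul, eM_mul, Matrix.smul_apply]
    simp only [eM, of_apply, Int.cast_id, smul_eq_mul] at h3 ⊢
    split_ifs at h3 ⊢ <;> linear_combination h3

end

end Cfsg.Agent.Chev.E27
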