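/-
The cubic form in 27 variables, its polarisations, and its invariance under the root elements.
-/
import Cfsg.Agent.Chev.E27Rep

set_option autoImplicit false
set_option maxRecDepth 100000

namespace Cfsg.Agent.Chev.E27

open Cfsg.Lie Matrix

noncomputable section

variable {R : Type*} [CommRing R]

theorem mod_eq_ix (n : ℕ) : Nat.mod n 27 = ix (pt n) := (ix_pt_mod n).symm

theorem not_beq {a b : ℕ} : (!Nat.beq a b) = true ↔ a ≠ b := by
  rw [Bool.not_eq_true', ne_eq, ← Nat.beq_eq, Bool.not_eq_true]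

/-- the trilinear form given by a list of monomials -/
def tau (L : List (ℤ × ℕ × ℕ × ℕ)) (x y z : I27 → R) : R :=
  (L.map fun l => (l.1 : R) * x (pt l.2.1) * y (pt l.2.2.1) * z (pt l.2.2.2)).sum

@[simp] theorem tau_nil (x y z : I27 → R) : tau [] x y z = 0 := rfl

theorem tau_cons (l : ℤ × ℕ × ℕ × ℕ) (L : List (ℤ × ℕ × ℕ × ℕ)) (x y z : I27 → R) :
    tau (l :: L) x y z = (l.1 : R) * x (pt l.2.1) * y (pt l.2.2.1) * z (pt l.2.2.2) + tau L x y z := rfl

theorem tau_append (L L' : List (ℤ × ℕ × ℕ × ℕ)) (x y z : I27 → R) :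
    tau (L ++ L') x y z = tau L x y z + tau L' x y z := by simp [tau]

theorem tau_filter {L : List (ℤ × ℕ × ℕ × ℕ)} {x y z : I27 → R} (P : ℤ × ℕ × ℕ × ℕ → Bool)
    (h : ∀ l ∈ L, ¬ P l = true → x (pt l.2.1) * y (pt l.2.2.1) * z (pt l.2.2.2) = 0) :
    tau L x y z = tau (L.filter P) x y z := by
  induction L with
  | nil => rfl
  | cons l L ih =>
    rw [List.filter_cons, tau_cons, ih fun k hk => h k (List.mem_cons_of_mem _ hk)]
    split_ifs with h1
    · rfl
    · linear_combination (l.1 : R) * h l List.mem_cons_self h1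

theorem tau_map {S : Type*} [CommRing S] (φ : R →+* S) (L : List (ℤ × ℕ × ℕ × ℕ)) (x y z : I27 → R) :
    φ (tau L x y z) = tau L (φ ∘ x) (φ ∘ y) (φ ∘ z) := by
  induction L with
  | nil => simp
  | cons l L ih => simp [tau_cons, ih]

theorem tau_sw (L : List (ℤ × ℕ × ℕ × ℕ)) (x y z : I27 → R) : tau (sw L) x y z = tau L x y z + tau L y x z := by
  rw [sw, tau_append]
  congr 1
  induction L with
  | nil => rfl
  | cons l L ih => rw [List.map_cons, tau_cons, tau_cons, ih]; ring

theorem tau_rot (L : List (ℤ × ℕ × ℕ × ℕ)) (x y z : I27 → R) :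
    tau (rot L) x y z = tau L x y z + tau L x z y + tau L z x y := by
  induction L with
  | nil => simp [rot]
  | cons l L ih =>
    rw [rot, List.flatMap_cons, tau_append, ← rot, ih]
    simp only [tau_cons, tau_nil]; ring

theorem tau_lin₁ (L : List (ℤ × ℕ × ℕ × ℕ)) (x x' y z : I27 → R) (t : R) :
    tau L (x + t • x') y z = tau L x y z + t * tau L x' y z := by
  induction L with
  | nil => simp
  | cons l L ih => simp only [tau_cons, ih, Pi.add_apply, Pi.smul_apply, smul_eq_mul]; ring

theorem tau_lin₂ (L : List (ℤ × ℕ × ℕ × ℕ)) (x y y' z : I27 → R) (t : R) :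
    tau L x (y + t • y') z = tau L x y z + t * tau L x y' z := by
  induction L with
  | nil => simp
  | cons l L ih => simp only [tau_cons, ih, Pi.add_apply, Pi.smul_apply, smul_eq_mul]; ring

theorem tau_lin₃ (L : List (ℤ × ℕ × ℕ × ℕ)) (x y z z' : I27 → R) (t : R) :
    tau L x y (z + t • z') = tau L x y z + t * tau L x y z' := by
  induction L with
  | nil => simp
  | cons l L ih => simp only [tau_cons, ih, Pi.add_apply, Pi.smul_apply, smul_eq_mul]; ring

/-- the cubic form -/
def cub (x : I27 → R) : R := tau linesN x x x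
/-- the form of bidegree `(2, 1)` -/
def dq (x z : I27 → R) : R := tau (rot linesN) x x z
/-- the symmetric trilinear form -/
def tri (x y z : I27 → R) : R := tau (sw (rot linesN)) x y z

theorem cubicT_eq (v : I27 → R) : cubicT v = cub v := by
  simp only [cubicT, det_fin_three, trace_fin_three, Matrix.mul_apply, Fin.sum_univ_three, mat3, of_apply,
    cub, linesN, tau_cons, tau_nil, pt, Fin.ofNat, Nat.reduceDiv, Nat.reduceMod, Fin.zero_eta, Fin.mk_one,
    Fin.reduceFinMk]
  push_cast
  ring

theorem cub_add (x y : I27 → R) (t : R) : cub (x + t • y) = cub x + t * dq x y + t ^ 2 * dq y x + t ^ 3 * cub y := by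
  simp only [cub, dq, tau_rot, tau_lin₁, tau_lin₂, tau_lin₃]; ring

theorem dq_add (x y z : I27 → R) : dq (x + y) z = dq x z + dq y z + tri x y z := by
  have := tau_lin₁ (R := R) (t := 1)
  have := tau_lin₂ (R := R) (t := 1)
  simp only [one_smul] at *
  simp only [dq, tri, tau_sw, *]; ring

theorem tri_swap₁ (x y z : I27 → R) : tri x y z = tri y x z := by
  simp only [tri, tau_sw]; ring

theorem tri_swap₂ (x y z : I27 → R) : tri x y z = tri x z y := by
  simp only [tri, tau_sw, tau_rot]; ring

theorem tri_self (x z : I27 → R) : tri x x z = 2 * dq x z := by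
  simp only [tri, tau_sw, dq]; ring

theorem dq_self (x : I27 → R) : dq x x = 3 * cub x := by
  simp only [dq, tau_rot, cub]; ring

theorem tri_add₁ (x x' y z : I27 → R) : tri (x + x') y z = tri x y z + tri x' y z := by
  simpa [tri] using tau_lin₁ _ x x' y z 1

theorem tri_add₃ (x y z z' : I27 → R) : tri x y (z + z') = tri x y z + tri x y z' := by
  simpa [tri] using tau_lin₃ _ x y z z' 1

theorem tri_zero₁ (y z : I27 → R) : tri 0 y z = 0 := by simpa using tri_add₁ 0 0 y z

theorem tri_zero₃ (x y : I27 → R) : tri x y 0 = 0 := by simpa using tri_add₃ x y 0 0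

theorem tri_single (a c : I27) (m n : R) (y : I27 → R) :
    tri (Pi.single a m) y (Pi.single c n) = m * n * eps a c * y (th a c) := by
  have h1 := of_decide_eq_true (allLT_iff.1 (allLT_iff.1 form_chk _ (ix_lt a)) _ (ix_lt c))
  rw [tri, tau_filter (fun l => band (Nat.beq (Nat.mod l.2.1 27) (ix a)) (Nat.beq (Nat.mod l.2.2.2 27) (ix c))), h1]
  · cases h : isZ (epsN (ix a) (ix c)) with
    | true => simp [eps, isZ_iff.1 h]
    | false => simp [tau_cons, eps, th]; ring
  · intro l _ h
    simp only [band_iff, Nat.beq_eq, not_and_or, mod_eq_ix, ix_inj] at h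
    rcases h with h | h <;> simp [h]

theorem tri_der {r : ℕ} (hr : r < 72) (x y z : I27 → R) :
    tri (cst R (eM r) *ᵥ x) y z + tri x (cst R (eM r) *ᵥ y) z + tri x y (cst R (eM r) *ᵥ z) = 0 := by
  induction x using Pi.single_induction with
  | zero => simp [tri_zero₁]
  | add x x' h h' => simp only [mulVec_add, tri_add₁]; linear_combination h + h'
  | single a m =>
    induction z using Pi.single_induction with
    | zero => simp [tri_zero₃]
    | add z z' h h' => simp only [mulVec_add, tri_add₃]; linear_combination h + h'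
    | single c n =>
      have h1 := allLT_iff.1 der_chk r hr
      rw [frc_eq] at h1
      have h2 := allLT_iff.1 h1 _ (ix_lt a)
      rw [frc_eq] at h2
      have h3 := allLT_iff.1 h2 _ (ix_lt c)
      rw [frc_eq, frc_eq, ← ix_src (71 - r) a, ← ix_src (71 - r) c, ← ix_th a c] at h3
      have h4 : ((sg (71 - r) a * eps (src (71 - r) a) c : ℤ) : R) * y (th (src (71 - r) a) c) +
          ((eps a c * sg r (th a c) : ℤ) : R) * y (src r (th a c)) +
          ((sg (71 - r) c * eps a (src (71 - r) c) : ℤ) : R) * y (th a (src (71 - r) c)) = 0 :=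
        z3_spec h3 fun n => y (pt n)
      simp only [eM_single hr, tri_single, eM_mulVec]
      push_cast at h4
      linear_combination m * n * h4

theorem X_eq {r : ℕ} (hr : r < 72) (t : R) : rep.X R r t = 1 + t • cst R (eM r) := by
  rw [rep.X_of_lt hr]; simp [rep, cst_zero]

theorem X_mulVec {r : ℕ} (hr : r < 72) (t : R) (v : I27 → R) :
    rep.X R r t *ᵥ v = v + t • (cst R (eM r) *ᵥ v) := by
  rw [X_eq hr, add_mulVec, one_mulVec, smul_mulVec]

theorem cub_X0 [IsDomain R] [CharZero R] {r : ℕ} (hr : r < 72) (t : R) (v : I27 → R) :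
    cub (rep.X R r t *ᵥ v) = cub v := by
  set w := cst R (eM r) *ᵥ v with hw
  have h0 : cst R (eM r) *ᵥ w = 0 := by rw [hw, mulVec_mulVec, ← cst_mul, eM_sq hr, cst_zero, zero_mulVec]
  have h1 := tri_der hr v v v
  have h2 := tri_der hr w v v
  have h3 := tri_der hr w w v
  rw [← hw, tri_swap₁ w, tri_swap₂ v w, tri_self] at h1
  rw [← hw, h0, tri_zero₁, tri_swap₂ w v, tri_self] at h2
  rw [← hw, h0, tri_zero₁, tri_swap₁ w 0, tri_zero₁, tri_self, dq_self] at h3
  have h4 : dq v w = 0 := mul_left_cancel₀ (a := 6) (by norm_num) (by linear_combination h1)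
  have h5 : dq w v = 0 := mul_left_cancel₀ (a := 4) (by norm_num) (by linear_combination h2)
  have h6 : cub w = 0 := mul_left_cancel₀ (a := 6) (by norm_num) (by linear_combination h3)
  rw [X_mulVec hr, cub_add, ← hw, h4, h5, h6]; ring

theorem cub_X {r : ℕ} (hr : r < 72) (t : R) (v : I27 → R) : cub (rep.X R r t *ᵥ v) = cub v := by
  let φ : MvPolynomial R ℤ →+* R := MvPolynomial.eval₂Hom (Int.castRingHom R) id
  have := congrArg φ (cub_X0 hr (MvPolynomial.X t : MvPolynomial R ℤ) fun a => MvPolynomial.X (v a))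
  have h1 : φ ∘ (fun a => MvPolynomial.X (v a)) = v := by ext a; simp [φ]
  have h2 : φ ∘ (rep.X _ r (MvPolynomial.X t) *ᵥ fun a => MvPolynomial.X (v a)) = rep.X R r t *ᵥ v := by
    ext a
    rw [Function.comp_apply, RingHom.map_mulVec, h1, rep.X_map]; simp [φ]
  rwa [cub, cub, tau_map, tau_map, h1, h2] at this

theorem dq_single (a : I27) (m : R) (z : I27 → R) : dq (Pi.single a m) z = 0 := by
  rw [dq, tau_filter fun _ => false]
  · simp
  · intro l hl _
    have := (band_iff.1 (List.all_eq_true.1 sing_chk l hl)).1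
    have h1 : pt l.2.1 ≠ pt l.2.2.1 := by simpa only [not_beq, mod_eq_ix, ne_eq, ix_inj] using this
    by_cases h : pt l.2.1 = a
    · simp [← h, h1.symm]
    · simp [h]

theorem dq_nbr {μ c : I27} (hc : eps μ c ≠ 0) {y : I27 → R} (hy : ∀ k, eps μ k = 0 → y k = 0) :
    dq y (Pi.single c 1) = 0 := by
  rw [dq, tau_filter fun _ => false]
  · simp
  · intro l hl _
    have := allLT_iff.1 (band_iff.1 (List.all_eq_true.1 sing_chk l hl)).2 _ (ix_lt μ)
    simp only [bor_iff, isZ_iff, mod_eq_ix] at this
    rcases this with h | h | h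
    · have : pt l.2.2.2 ≠ c := by rintro rfl; exact hc h
      simp [this]
    · simp [hy _ h]
    · simp [hy _ h]

end

end Cfsg.Agent.Chev.E27
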