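/-
The isometry group of the cubic form in 27 variables is generated by the root elements.
-/
import Cfsg.Agent.Chev.E27Form

set_option autoImplicit false
set_option maxRecDepth 100000

namespace Cfsg.Agent.Chev.E27

open Cfsg.Lie Matrix

noncomputable section

variable {F : Type*} [Field F]

/-- the root elements as invertible matrices -/
def xg (r : ℕ) (t : F) : GL I27 F :=
  ⟨rep.X F r t, rep.X F r (-t), by rw [rep.X_add, add_neg_cancel, rep.X_zero],
    by rw [rep.X_add, neg_add_cancel, rep.X_zero]⟩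

theorem mem_E_iff {g : GL I27 F} : g ∈ E6univ F ↔ ∀ v, cub (g.val *ᵥ v) = cub v := by
  simp only [← cubicT_eq]; rfl

theorem xg_mem {r : ℕ} (hr : r < 72) (t : F) : xg r t ∈ E6univ F := mem_E_iff.2 (cub_X hr t)

theorem eps_spec {a c : I27} (h : eps a c ≠ 0) :
    eps a c * eps a c = 1 ∧ eps a (th a c) = eps a c ∧ th a (th a c) = c := by
  have := allLT_iff.1 (allLT_iff.1 eps_chk _ (ix_lt a)) _ (ix_lt c)
  simp only [bor_iff, band_iff, isZ_iff, frc_eq, Nat.beq_eq, decide_eq_true_eq] at this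
  simpa only [← ix_inj, ix_th, eps] using this.resolve_left h

theorem cast_ne_zero {e : ℤ} (h : e * e = 1) : (e : F) ≠ 0 := fun h0 => by
  have : ((e * e : ℤ) : F) = 1 := by rw [h, Int.cast_one]
  simp [h0] at this

theorem rho_spec {a c : I27} (h : eps a c = 0) (hne : a ≠ c) : src (rho a c) c = a ∧
    sg (rho a c) c * sg (rho a c) c = 1 ∧ ∀ j, (sg (rho a c) j = 0 ∨ j = c ∨ eps a j ≠ 0) ∧
      (sg (71 - rho a c) j = 0 ∨ j = a ∨ (eps j a = 0 ∧ eps j c ≠ 0)) := by
  have := allLT_iff.1 (allLT_iff.1 rho_chk _ (ix_lt a)) _ (ix_lt c)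
  rw [isZ_iff.2 (show epsN (ix a) (ix c) = 0 from h)] at this
  simp only [bor_iff, band_iff, isZ_iff, frc_eq, Nat.beq_eq, decide_eq_true_eq, allLT_iff, Bool.not_eq_true',
    ← Bool.not_eq_true, ix_inj] at this
  obtain ⟨h1, h2, h3⟩ := this.resolve_left hne
  refine ⟨by rw [← ix_inj, ix_src]; exact h1, h2, fun j => ?_⟩
  simpa only [ix_inj, sg, rho, eps, ne_eq] using h3 _ (ix_lt j)

theorem eps_self (a : I27) : eps a a = 0 := by revert a; decide +kernel

/-- the image of a basis vector -/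
def col (g : GL I27 F) (μ : I27) : I27 → F := g.val *ᵥ Pi.single μ 1

theorem col_xg {r : ℕ} (hr : r < 72) (t : F) (g : GL I27 F) (μ k : I27) :
    col (xg r t * g) μ k = col g μ k + t * (sg r k * col g μ (src r k)) := by
  rw [col, Units.val_mul, ← mulVec_mulVec, ← col, ← eM_mulVec]
  exact congrFun (X_mulVec hr t _) k

/-- `g` is an isometry fixing the basis vectors in `S` -/
def Fix (S : List ℕ) (g : GL I27 F) : Prop := g ∈ E6univ F ∧ ∀ a, ix a ∈ S → col g a = Pi.single a 1

theorem Fix.xg_mul {S : List ℕ} {g : GL I27 F} (h : Fix S g) {r : ℕ} (hr : r < 72)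
    (hS : ∀ a, ix a ∈ S → sg (71 - r) a = 0) (t : F) : Fix S (xg r t * g) :=
  ⟨mul_mem (xg_mem hr t) h.1, fun a ha => by
    rw [col, Units.val_mul, ← mulVec_mulVec, ← col, h.2 a ha]
    refine (X_mulVec hr t _).trans ?_
    simp [eM_single hr, hS a ha]⟩

variable (hF : ∃ a : F, a ≠ 0 ∧ a ≠ 1)
include hF

theorem dq_pres {g : GL I27 F} (hg : g ∈ E6univ F) (x y : I27 → F) : dq (g.val *ᵥ x) (g.val *ᵥ y) = dq x y := by
  obtain ⟨a, h0, h1⟩ := hF
  have key : ∀ t : F, t * dq (g.val *ᵥ x) (g.val *ᵥ y) + t ^ 2 * dq (g.val *ᵥ y) (g.val *ᵥ x) =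
      t * dq x y + t ^ 2 * dq y x := fun t => by
    have := mem_E_iff.1 hg (x + t • y)
    rw [mulVec_add, mulVec_smul, cub_add, cub_add, mem_E_iff.1 hg, mem_E_iff.1 hg] at this
    linear_combination this
  exact mul_left_cancel₀ (mul_ne_zero h0 (sub_ne_zero.2 h1)) (by linear_combination a ^ 2 * key 1 - key a)

theorem tri_pres {g : GL I27 F} (hg : g ∈ E6univ F) (x y z : I27 → F) :
    tri (g.val *ᵥ x) (g.val *ᵥ y) (g.val *ᵥ z) = tri x y z := by
  have := dq_pres hF hg (x + y) z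
  rw [mulVec_add, dq_add, dq_add, dq_pres hF hg, dq_pres hF hg] at this
  linear_combination this

variable {S : List ℕ} {g : GL I27 F}

theorem Fix.forced (h : Fix S g) {l μ ν : I27} (hl : ix l ∈ S) (h1 : eps l μ = 0) (h2 : eps l ν ≠ 0) :
    col g μ ν = 0 := by
  obtain ⟨h3, h4, h5⟩ := eps_spec h2
  have := tri_pres hF h.1 (Pi.single l 1) (Pi.single μ 1) (g⁻¹.val *ᵥ Pi.single (th l ν) 1)
  rw [mulVec_mulVec, Units.mul_inv, one_mulVec, ← col, ← col, h.2 l hl, tri_single, tri_swap₂, tri_single, h1, h4,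
    h5] at this
  simpa [cast_ne_zero h3] using this

theorem Fix.exists_ne (h : Fix S g) {l μ : I27} (hl : ix l ∈ S) (h1 : eps l μ ≠ 0) :
    ∃ ν, eps l ν ≠ 0 ∧ col g μ ν ≠ 0 := by
  by_contra hn
  push Not at hn
  obtain ⟨h3, h4, h5⟩ := eps_spec h1
  have key : ∀ z, tri (Pi.single l 1) (col g μ) z = 0 := fun z => by
    induction z using Pi.single_induction with
    | zero => exact tri_zero₃ _ _
    | add z z' h h' => rw [tri_add₃, h, h', add_zero]
    | single c n =>
      rw [tri_single]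
      by_cases hc : eps l c = 0
      · simp [hc]
      · rw [hn _ ((eps_spec hc).2.1.trans_ne hc), mul_zero]
  have := tri_pres hF h.1 (Pi.single l 1) (Pi.single μ 1) (Pi.single (th l μ) 1)
  rw [← col, ← col, h.2 l hl, key, tri_single, h4, h5] at this
  simpa [cast_ne_zero h3] using this.symm

theorem Fix.third (h : Fix S g) {l k : I27} (hl : ix l ∈ S) (hk : ix k ∈ S) (h1 : eps l k ≠ 0) :
    col g (th l k) (th l k) = 1 := by
  have := tri_pres hF h.1 (Pi.single l 1) (Pi.single (th l k) 1) (Pi.single k 1)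
  rw [← col, ← col, ← col, h.2 l hl, h.2 k hk, tri_single, tri_single] at this
  simpa [cast_ne_zero (eps_spec h1).1] using this

theorem col_eq_single (hg : g ∈ E6univ F) {μ : I27} (h1 : col g μ μ = 1)
    (h2 : ∀ k, eps μ k = 0 → k ≠ μ → col g μ k = 0) : col g μ = Pi.single μ 1 := by
  ext a
  by_cases ha : a = μ
  · simp [ha, h1]
  rw [Pi.single_eq_of_ne ha]
  by_cases h3 : eps μ a = 0
  · exact h2 a h3 ha
  obtain ⟨h4, h5, h6⟩ := eps_spec h3
  have h7 := dq_pres hF hg (Pi.single μ 1) (g⁻¹.val *ᵥ Pi.single (th μ a) 1)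
  rw [mulVec_mulVec, Units.mul_inv, one_mulVec, ← col, dq_single, ← add_sub_cancel (Pi.single μ 1) (col g μ), dq_add,
    dq_single, dq_nbr (h5.trans_ne h3) (fun k hk => by
      by_cases h8 : k = μ
      · simp [h8, h1]
      · simp [h8, h2 k hk h8]), tri_single, h5, h6] at h7
  simpa [cast_ne_zero h4, ha] using h7

variable {G : Subgroup (GL I27 F)} (hG : ∀ r < 72, ∀ t, xg r t ∈ G) {μ : I27} (hμ : ix μ ∉ S)
  (ih : ∀ g, Fix (ix μ :: S) g → g ∈ G)
include hG hμ ih

theorem kill (K : Finset I27) : ∀ g, Fix S g → col g μ μ = 1 →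
    (∀ k ∉ K, eps μ k = 0 → k ≠ μ → col g μ k = 0) → g ∈ G := by
  induction K using Finset.induction_on with
  | empty =>
    intro g h h1 h2
    refine ih g ⟨h.1, fun a ha => ?_⟩
    rcases List.mem_cons.1 ha with e | e
    · rw [ix_inj.1 e]; exact col_eq_single hF h.1 h1 (h2 · (by simp))
    · exact h.2 a e
  | insert k K hk ihK =>
    intro g h h1 h2
    by_cases h3 : eps μ k = 0 → k ≠ μ → col g μ k = 0
    · refine ihK g h h1 fun j hj => ?_
      by_cases e : j = k
      · exact e ▸ h3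
      · exact h2 j (by simp [e, hj])
    push Not at h3
    obtain ⟨h3, h4, h5⟩ := h3
    obtain ⟨h6, h7, h8⟩ := rho_spec h3 h4.symm
    have h9 : ∀ a, ix a ∈ S → sg (71 - rho μ k) a = 0 := fun a ha => by
      rcases (h8 a).2 with e | rfl | e
      · exact e
      · exact absurd ha hμ
      · exact absurd (h.forced hF ha e.1 e.2) h5
    have h10 : ∀ j, eps μ j = 0 → j ≠ k → sg (rho μ k) j = 0 := fun j e1 e2 => by simpa [e1, e2] using (h8 j).1
    refine (mul_mem_cancel_left (hG _ (rho_lt μ k) (-(sg (rho μ k) k * col g μ k)))).1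
      (ihK _ (h.xg_mul (rho_lt μ k) h9 _) ?_ fun j hj e1 e2 => ?_)
    · simp [col_xg (rho_lt μ k), h10 μ (eps_self μ) h4.symm, h1]
    · rw [col_xg (rho_lt μ k)]
      by_cases e : j = k
      · subst e
        have : ((sg (rho μ j) j * sg (rho μ j) j : ℤ) : F) = 1 := by rw [h7, Int.cast_one]
        push_cast at this
        rw [h6, h1]
        linear_combination -col g μ j * this
      · simp [h10 j e1 e, h2 j (by simp [e, hj]) e1 e2]

omit hF hG hμ ih in
theorem allowed_spec {ν κ : I27} (h : allowed S (ix ν) (ix κ) = true) (hg : Fix S g) (t : F) :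
    Fix S (xg (rho ν κ) t * g) ∧ (sg (rho ν κ) κ : F) ≠ 0 ∧
      ∀ μ, col (xg (rho ν κ) t * g) μ κ = col g μ κ + t * (sg (rho ν κ) κ * col g μ ν) := by
  simp only [allowed, band_iff, isZ_iff, not_beq, ne_eq, ix_inj, List.all_eq_true] at h
  obtain ⟨h1, h2, -⟩ := rho_spec h.1 h.2.1
  exact ⟨hg.xg_mul (rho_lt _ _) (fun a ha => h.2.2 _ ha) t, cast_ne_zero h2,
    fun μ => by rw [col_xg (rho_lt _ _), h1]⟩

variable (hS : ∀ l ∈ S, ∃ a, l = ix a)
include hS

theorem good0_spec {ν : I27} (h : good0 S (ix μ) (ix ν) = true) (hg : Fix S g) (h1 : col g μ ν ≠ 0) : g ∈ G := by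
  rcases bor_iff.1 h with h | h
  · simp only [List.any_eq_true, band_iff, isZ_iff, Bool.not_eq_true', ← Bool.not_eq_true] at h
    obtain ⟨l, hl, h2, h3⟩ := h
    obtain ⟨l, rfl⟩ := hS l hl
    exact absurd (hg.forced hF hl h2 h3) h1
  · obtain ⟨h2, h3, h4⟩ := allowed_spec h hg ((1 - col g μ μ) / (sg (rho ν μ) μ * col g μ ν))
    refine (mul_mem_cancel_left (hG _ (rho_lt ν μ) _)).1 (kill hF hG hμ ih Finset.univ _ h2 ?_ (by simp))
    rw [h4, div_mul_cancel₀ _ (mul_ne_zero h3 h1), add_sub_cancel]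

theorem good1_spec {ν : I27} (h : good1 S (ix μ) (ix ν) = true) (hg : Fix S g) (h1 : col g μ ν ≠ 0) : g ∈ G := by
  rcases bor_iff.1 h with h | h
  · exact good0_spec hF hG hμ ih hS h hg h1
  · obtain ⟨κ, hκ, h⟩ := anyLT_iff.1 h
    rw [← ix_pt hκ, band_iff] at h
    by_cases h2 : col g μ (pt κ) = 0
    · obtain ⟨h3, h4, h5⟩ := allowed_spec h.1 hg 1
      refine (mul_mem_cancel_left (hG _ (rho_lt ν (pt κ)) _)).1 (good0_spec hF hG hμ ih hS h.2 h3 ?_)
      simp [h5, h2, h4, h1]
    · exact good0_spec hF hG hμ ih hS h.2 hg h2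

omit hμ in
theorem step_spec (h : stepOK S (ix μ) = true) (hg : Fix S g) : g ∈ G := by
  simp only [stepOK, band_iff, bor_iff, List.all_eq_true, List.any_eq_true, not_beq, isZ_iff, Bool.not_eq_true',
    ← Bool.not_eq_true, Nat.beq_eq, allLT_iff] at h
  have hμ : ix μ ∉ S := fun e => h.2.1 _ e rfl
  rcases h.2.2 with ⟨l, hl, k, hk, h1, h2⟩ | ⟨l, hl, h1, h2⟩ | h1
  · obtain ⟨l, rfl⟩ := hS l hl
    obtain ⟨k, rfl⟩ := hS k hk
    rw [← ix_th, ix_inj] at h2
    exact kill hF hG hμ ih Finset.univ _ hg (h2 ▸ hg.third hF hl hk h1) (by simp)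
  · obtain ⟨l, rfl⟩ := hS l hl
    obtain ⟨ν, h3, h4⟩ := hg.exists_ne hF hl h1
    exact good1_spec hF hG hμ ih hS ((h2 _ (ix_lt ν)).resolve_left h3) hg h4
  · have : col g μ ≠ 0 := fun e => by
      have h2 := congrArg (g⁻¹.val *ᵥ ·) e
      simp only [col, mulVec_mulVec, Units.inv_mul, one_mulVec, mulVec_zero] at h2
      simpa using congrFun h2 μ
    obtain ⟨ν, hν⟩ := Function.ne_iff.1 this
    exact good1_spec hF hG hμ ih hS (h1 _ (ix_lt ν)) hg hν

omit hF hG hμ ih hS in
theorem chain_lt (h : chainOK S = true) : ∀ l ∈ S, ∃ a, l = ix a := by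
  induction S with
  | nil => simp
  | cons m S ih =>
    obtain ⟨h1, h2⟩ := band_iff.1 h
    have hm : m < 27 := by simpa using (band_iff.1 h1).1
    exact List.forall_mem_cons.2 ⟨⟨_, (ix_pt hm).symm⟩, ih h2⟩

omit hμ ih hS in
theorem chain_spec (h : chainOK S = true) (hS : ∀ g, Fix S g → g ∈ G) : ∀ g, Fix [] g → g ∈ G := by
  induction S with
  | nil => exact hS
  | cons m S ih =>
    obtain ⟨h1, h2⟩ := band_iff.1 h
    obtain ⟨m, rfl⟩ := chain_lt h m List.mem_cons_self
    exact ih h2 fun g hg => step_spec hF hG hS (chain_lt h2) h1 hg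

omit hμ ih hS in
theorem E6univ_le : E6univ F ≤ G := fun g hg => chain_spec hF hG chain_chk (fun g hg => by
  have : g = 1 := by
    ext a b
    have := congrFun (hg.2 b (by revert b; decide)) a
    simpa [col, one_apply, Pi.single_apply] using this
  exact this ▸ one_mem G) g ⟨hg, by simp⟩

omit hF hG hμ ih hS

/-- the relations in the 27-dimensional representation -/
def drel (F : Type*) [Field F] : DRel chevE6 F (GL I27 F) where
  y := xg
  y_add r _ t u := Units.ext (rep.X_add r t u)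
  comm r hr s hs _ h2 t u := Units.ext (by
    have : ∀ w : List (ℕ × F), ((w.map fun p => xg p.1 p.2).prod).val = rep.W F w := fun w => by
      induction w with
      | nil => rfl
      | cons p w ih => rw [List.map_cons, List.prod_cons, Units.val_mul, ih, IntRep.W_cons]; rfl
    simp only [Units.val_mul, this]
    exact rep.comm_formula hr hs (fun e => h2 ((tabE6.eq_neg_iff hr).2 e)) t u)

theorem drel_word (w : List (ℕ × F)) : ((drel F).word w).val = rep.W F w := by
  induction w with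
  | nil => rfl
  | cons p w ih => rw [IntRep.W_cons, ← ih]; rfl

theorem exists_hom (hF : ∃ a : F, a ≠ 0 ∧ a ≠ 1) :
    ∃ φ : chevE6.SteinbergGroup F →* E6univ F, Function.Surjective φ := by
  obtain ⟨θ, hθ⟩ := (drel F).exists_lift linkE6 fun r hr t u ht hu => Units.ext (by
    simp only [Units.val_mul, drel_word]; exact rep.W_hWord_mul hr ht hu)
  have h1 : θ.range = E6univ F := by
    refine le_antisymm ?_ (E6univ_le hF fun r hr t => ⟨_, hθ r hr t⟩)
    rw [MonoidHom.range_eq_map, ← PresentedGroup.closure_range_of, MonoidHom.map_closure, Subgroup.closure_le]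
    rintro _ ⟨_, ⟨⟨r, t⟩, rfl⟩, rfl⟩
    have := hθ r r.2 t
    rw [ChevalleyDatum.stGen, ChevalleyDatum.stX, dif_pos r.2] at this
    exact this ▸ xg_mem r.2 t
  exact ⟨(MulEquiv.subgroupCongr h1).toMonoidHom.comp θ.rangeRestrict,
    (MulEquiv.subgroupCongr h1).surjective.comp θ.rangeRestrict_surjective⟩

theorem not_comm : ¬ ∀ a b : E6univ F, a * b = b * a := fun h => by
  have h1 := congrArg (fun g : E6univ F => col g.val (pt 0) (pt 0))
    (h ⟨_, xg_mem (r := 49) (by decide) 1⟩ ⟨_, xg_mem (r := 22) (by decide) 1⟩)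
  have h2 : sg 49 (pt 0) = 0 ∧ sg 49 (pt 1) = -1 ∧ sg 22 (pt 0) = -1 ∧ src 49 (pt 1) = pt 0 ∧ src 22 (pt 0) = pt 1 ∧
    pt 1 ≠ pt 0 := by decide +kernel
  simp only [Subgroup.coe_mul] at h1
  rw [← mul_one (xg 49 _ * xg _ _), ← mul_one (xg 22 _ * xg _ _), mul_assoc, mul_assoc] at h1
  simp only [col_xg (show 49 < 72 by decide), col_xg (show 22 < 72 by decide), h2] at h1
  simp [col, h2] at h1

end

end Cfsg.Agent.Chev.E27

namespace Cfsg.Agent.Chev

/-- A non-abelian quotient of a central extension of a simple group has this group as its central quotient. -/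
theorem nonempty_quotient_center_equiv {S A G : Type*} [Group S] [Group A] [Group G] [IsSimpleGroup A]
    (θ : S →* A) (hθ : Function.Surjective θ) (hker : θ.ker = Subgroup.center S) (φ : S →* G)
    (hφ : Function.Surjective φ) (hG : ¬ ∀ a b : G, a * b = b * a) : Nonempty (G ⧸ Subgroup.center G ≃* A) := by
  let ψ := (QuotientGroup.mk' (Subgroup.center G)).comp φ
  have hψ : Function.Surjective ψ := (QuotientGroup.mk'_surjective _).comp hφ
  have h1 : θ.ker ≤ ψ.ker := fun s hs => by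
    rw [hker, Subgroup.mem_center_iff] at hs
    refine (QuotientGroup.eq_one_iff _).2 (Subgroup.mem_center_iff.2 fun g => ?_)
    obtain ⟨t, rfl⟩ := hφ g
    rw [← map_mul, hs, map_mul]
  have h2 : ψ.ker = θ.ker := by
    rcases (Subgroup.Normal.map inferInstance θ hθ : (ψ.ker.map θ).Normal).eq_bot_or_eq_top with h | h
    · exact le_antisymm ((Subgroup.map_eq_bot_iff _).1 h) h1
    · refine absurd (fun a b => ?_) hG
      obtain ⟨s, rfl⟩ := hφ b
      have : s ∈ ψ.ker := by rw [← Subgroup.comap_map_eq_self h1, h]; trivial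
      exact Subgroup.mem_center_iff.1 ((QuotientGroup.eq_one_iff _).1 this) a
  exact ⟨(QuotientGroup.quotientKerEquivOfSurjective ψ hψ).symm.trans
    ((QuotientGroup.quotientMulEquivOfEq h2).trans (QuotientGroup.quotientKerEquivOfSurjective θ hθ))⟩

end Cfsg.Agent.Chev
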