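/-
The group G2(2) is the extension of SU3(3) by the field automorphism.
-/
import Cfsg.Agent.Chev.StUniv
import Cfsg.Agent.Cl.UStd
import Cfsg.Agent.Cl.Congr

set_option autoImplicit false

namespace Cfsg.Agent.Chev.G22

open Cfsg.Lie Matrix
open scoped MatrixGroups

/-- code of `p + q i` -/
def mk9 (p q : ℕ) : ℕ := p % 3 + 3 * (q % 3)
/-- sum -/
def fa (x y : ℕ) : ℕ := mk9 (x % 3 + y % 3) (x / 3 + y / 3)
/-- product -/
def fm (x y : ℕ) : ℕ := mk9 (x % 3 * (y % 3) + 2 * (x / 3 * (y / 3))) (x % 3 * (y / 3) + x / 3 * (y % 3))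
/-- conjugate -/
def fb (x : ℕ) : ℕ := mk9 (x % 3) (2 * (x / 3))

/-- an entry of a product -/
def ent (A B : List ℕ) (i k : ℕ) : ℕ :=
  fa (fa (fm (A.getD i 0) (B.getD k 0)) (fm (A.getD (i + 1) 0) (B.getD (k + 3) 0)))
    (fm (A.getD (i + 2) 0) (B.getD (k + 6) 0))

/-- product of coded matrices -/
def mulL (A B : List ℕ) : List ℕ :=
  [ent A B 0 0, ent A B 0 1, ent A B 0 2, ent A B 3 0, ent A B 3 1, ent A B 3 2, ent A B 6 0, ent A B 6 1, ent A B 6 2]

/-- conjugate of a coded matrix -/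
def barL (A : List ℕ) : List ℕ := [0, 1, 2, 3, 4, 5, 6, 7, 8].map fun k => fb (A.getD k 0)

/-- transpose of a coded matrix -/
def trL (A : List ℕ) : List ℕ := [0, 3, 6, 1, 4, 7, 2, 5, 8].map fun k => A.getD k 0

/-- determinant of a coded matrix -/
def detL (A : List ℕ) : ℕ :=
  fa (fa (fm (A.getD 0 0) (fa (fm (A.getD 4 0) (A.getD 8 0)) (fm 2 (fm (A.getD 5 0) (A.getD 7 0)))))
    (fm (A.getD 1 0) (fa (fm (A.getD 5 0) (A.getD 6 0)) (fm 2 (fm (A.getD 3 0) (A.getD 8 0))))))
    (fm (A.getD 2 0) (fa (fm (A.getD 3 0) (A.getD 7 0)) (fm 2 (fm (A.getD 4 0) (A.getD 6 0)))))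

/-- the identity -/
def oneL : List ℕ := [1, 0, 0, 0, 1, 0, 0, 0, 1]

/-- product of coded semilinear maps -/
def mulP (a b : List ℕ × Bool) : List ℕ × Bool := (mulL a.1 (if a.2 then barL b.1 else b.1), xor a.2 b.2)

/-- product of a list -/
def prodP (l : List (List ℕ × Bool)) : List ℕ × Bool := l.foldr mulP (oneL, false)

/-- the twelve root involutions -/
def gen (r : ℕ) : List ℕ × Bool := [([1, 1, 7, 1, 1, 5, 4, 8, 0], false), ([1, 7, 1, 4, 0, 8, 1, 5, 1], false),
  ([4, 6, 6, 6, 4, 3, 6, 3, 4], true), ([5, 4, 0, 4, 5, 0, 0, 0, 3], true), ([5, 0, 4, 0, 3, 0, 4, 0, 5], true),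
  ([0, 1, 0, 1, 0, 0, 0, 0, 2], false), ([0, 0, 1, 0, 2, 0, 1, 0, 0], false), ([3, 0, 0, 0, 3, 0, 0, 0, 2], true),
  ([3, 0, 0, 0, 2, 0, 0, 0, 3], true), ([1, 0, 0, 0, 1, 0, 0, 0, 1], true), ([2, 0, 0, 0, 2, 0, 0, 0, 1], false),
  ([2, 0, 0, 0, 1, 0, 0, 0, 2], false)].getD r (oneL, false)

theorem gen_lt : ∀ r < 12, mulL (trL (gen r).1) (barL (gen r).1) = oneL ∧ detL (gen r).1 = 1 := by decide +kernel

theorem gen_su (r : ℕ) : mulL (trL (gen r).1) (barL (gen r).1) = oneL ∧ detL (gen r).1 = 1 := by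
  by_cases h : r < 12
  · exact gen_lt r h
  · rw [gen, List.getD_eq_default _ _ (by simpa using h)]; decide +kernel

theorem gen_sq : ∀ r < 12, prodP ([r, r].map gen) = prodP ([].map gen) := by decide +kernel

set_option synthInstance.maxSize 2000 in
theorem gen_comm : ∀ r < 12, ∀ s < 12, s ≠ r → s ≠ chevG2.neg r → prodP ([s, r].map gen) =
    prodP ((r :: s :: ((chevG2.commTerms r s).filter fun c => ¬ (2 : ℤ) ∣ c.2.1).map fun c => c.1).map gen) := by
  decide +kernel

theorem comm_pos : ∀ r < 12, ∀ s < 12, ∀ c ∈ chevG2.commTerms r s, c.2.2.1 ≠ 0 ∧ c.2.2.2 ≠ 0 := by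
  decide +kernel

theorem gen_three : prodP ([11, 0, 11, 0, 11, 0].map gen) = prodP ([].map gen) ∧
    (prodP ([11, 0].map gen)).1.getD 0 0 = 2 := by decide +kernel

variable {K : Type*} [Field K] [CharP K 3] (I : K)

/-- the field element with a given code -/
def emb (x : ℕ) : K := (x % 3 : ℕ) + (x / 3 : ℕ) * I

theorem emb_mk9 (p q : ℕ) : emb I (mk9 p q) = p + q * I := by
  rw [emb, mk9, show (p % 3 + 3 * (q % 3)) % 3 = p % 3 by omega, show (p % 3 + 3 * (q % 3)) / 3 = q % 3 by omega,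
    ← CharP.cast_eq_mod K 3, ← CharP.cast_eq_mod K 3]

theorem emb_fa (x y : ℕ) : emb I (fa x y) = emb I x + emb I y := by
  rw [fa, emb_mk9, emb, emb]; push_cast; ring

theorem three_eq : (3 : K) = 0 := CharP.ofNat_eq_zero K 3

/-- the matrix with a given code -/
def mat (A : List ℕ) : Matrix (Fin 3) (Fin 3) K := Matrix.of fun i j => emb I (A.getD (3 * i + j) 0)

theorem mat_oneL : mat I oneL = 1 := by
  ext i j; fin_cases i <;> fin_cases j <;> simp [mat, oneL, emb]

theorem mat_trL (A : List ℕ) : mat I (trL A) = (mat I A)ᵀ := by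
  ext i j; fin_cases i <;> fin_cases j <;> simp [mat, trL]

/-- the Frobenius map -/
def fr (K : Type*) [Field K] [CharP K 3] : K →+* K := haveI := Fact.mk Nat.prime_three; frobenius K 3

theorem fr_apply (x : K) : fr K x = x ^ 3 := rfl

variable {I} (hI : I * I = -1)
include hI

theorem emb_fm (x y : ℕ) : emb I (fm x y) = emb I x * emb I y := by
  rw [fm, emb_mk9, emb, emb]; push_cast
  linear_combination ((x / 3 : ℕ) * (y / 3 : ℕ) : K) * (three_eq (K := K) - hI)

theorem emb_fb (x : ℕ) : emb I (fb x) = fr K (emb I x) := by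
  rw [fb, emb_mk9, emb, map_add, map_mul, map_natCast, map_natCast, fr_apply]; push_cast
  linear_combination ((x / 3 : ℕ) * I : K) * (three_eq (K := K) - hI)

theorem mat_mulL (A B : List ℕ) : mat I (mulL A B) = mat I A * mat I B := by
  ext i j
  fin_cases i <;> fin_cases j <;> simp [mat, mulL, ent, emb_fa, emb_fm hI, Matrix.mul_apply, Fin.sum_univ_three]

theorem mat_barL (A : List ℕ) : mat I (barL A) = (mat I A).map (fr K) := by
  ext i j; fin_cases i <;> fin_cases j <;> simp [mat, barL, emb_fb hI]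

theorem det_mat (A : List ℕ) : (mat I A).det = emb I (detL A) := by
  have : emb I 2 = -1 := by simp [emb]; linear_combination three_eq (K := K)
  simp [det_fin_three, mat, detL, emb_fa, emb_fm hI, this]
  ring

omit hI in
theorem mem_SU_iff {g : SL(3, K)} : g ∈ SU 3 K 3 ↔ g.valᵀ * g.val.map (fr K) = 1 := by
  have key : ∀ u v : Fin 3 → K, hermForm 3 K 3 u v = u ⬝ᵥ (fr K ∘ v) := fun u v => rfl
  have h1 : ∀ u v : Fin 3 → K, hermForm 3 K 3 (g.val *ᵥ u) (g.val *ᵥ v) =
      u ⬝ᵥ (g.valᵀ * g.val.map (fr K)) *ᵥ (fr K ∘ v) := fun u v => by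
    rw [key, ← mulVec_mulVec, dotProduct_mulVec u, vecMul_transpose]
    congr 1
    ext i; exact RingHom.map_mulVec _ _ _ _
  constructor
  · intro h
    ext i j
    have := (h1 (Pi.single i 1) (Pi.single j 1)).symm.trans (h _ _)
    have h2 : fr K ∘ Pi.single j (1 : K) = Pi.single j 1 := by ext k; simp [Pi.single_apply, apply_ite]
    simpa [key, h2, one_apply, Pi.single_apply, eq_comm] using this
  · intro h u v
    exact (h1 u v).trans (by rw [h, one_mulVec, key])

omit hI in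
theorem map_mem_SU (g : SU 3 K 3) : SpecialLinearGroup.map (fr K) g.val ∈ SU 3 K 3 := by
  have := congrArg (·.map (fr K)) (mem_SU_iff.1 g.2)
  simp only [Matrix.map_mul, Matrix.map_one (fr K) (map_zero _) (map_one _), transpose_map] at this
  exact mem_SU_iff.2 this

/-- the field automorphism of the unitary group -/
def sig (K : Type*) [Field K] [CharP K 3] : SU 3 K 3 →* SU 3 K 3 :=
  ((SpecialLinearGroup.map (fr K)).comp (SU 3 K 3).subtype).codRestrict _ map_mem_SU

omit hI in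
theorem sig_sig (h9 : ∀ x : K, x ^ 9 = x) : (sig K).comp (sig K) = MonoidHom.id _ := by
  ext g i j
  exact (pow_mul (g.val i j) 3 3).symm.trans (h9 _)

/-- the action of the group of order two -/
def act (h9 : ∀ x : K, x ^ 9 = x) : ℤˣ →* MulAut (SU 3 K 3) where
  toFun u := if u = 1 then 1 else MonoidHom.toMulEquiv (sig K) (sig K) (sig_sig h9) (sig_sig h9)
  map_one' := if_pos rfl
  map_mul' u v := by
    rcases Int.units_eq_one_or u with rfl | rfl <;> rcases Int.units_eq_one_or v with rfl | rfl <;> simp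
    exact MulEquiv.ext fun g => (DFunLike.congr_fun (sig_sig h9) g).symm

variable {h9 : ∀ x : K, x ^ 9 = x}

/-- the element `g` has code `a` -/
def Rel (I : K) (a : List ℕ × Bool) (g : SU 3 K 3 ⋊[act h9] ℤˣ) : Prop :=
  g.left.val.val = mat I a.1 ∧ g.right = if a.2 then -1 else 1

omit hI in
theorem Rel.unique {a : List ℕ × Bool} {g h : SU 3 K 3 ⋊[act h9] ℤˣ} (hg : Rel I a g) (hh : Rel I a h) : g = h :=
  SemidirectProduct.ext (Subtype.ext (Subtype.ext (hg.1.trans hh.1.symm))) (hg.2.trans hh.2.symm)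

theorem Rel.mul {a b : List ℕ × Bool} {g h : SU 3 K 3 ⋊[act h9] ℤˣ} (hg : Rel I a g) (hh : Rel I b h) :
    Rel I (mulP a b) (g * h) := by
  obtain ⟨A, e⟩ := a
  obtain ⟨B, f⟩ := b
  refine ⟨?_, by rw [SemidirectProduct.mul_right, hg.2, hh.2]; cases e <;> cases f <;> simp [mulP]⟩
  show g.left.val.val * (act h9 g.right h.left).val.val = _
  rw [hg.2, hg.1, mulP, mat_mulL hI]
  congr 1
  cases e
  · simpa using hh.1
  · simp only [if_true, mat_barL hI, ← hh.1]; rfl

/-- the root involutions -/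
def yy (h9 : ∀ x : K, x ^ 9 = x) (r : ℕ) : SU 3 K 3 ⋊[act h9] ℤˣ :=
  ⟨⟨⟨mat I (gen r).1, by rw [det_mat hI, (gen_su r).2]; simp [emb]⟩,
    mem_SU_iff.2 (by simp only [← mat_trL, ← mat_barL hI, ← mat_mulL hI, (gen_su r).1, mat_oneL])⟩,
    if (gen r).2 then -1 else 1⟩

theorem rel_prod (l : List ℕ) : Rel I (prodP (l.map gen)) (l.map (yy hI h9)).prod := by
  induction l with
  | nil => exact ⟨(mat_oneL I).symm, rfl⟩
  | cons r l ih => exact Rel.mul hI ⟨rfl, rfl⟩ ih

theorem prod_eq {l l' : List ℕ} (h : prodP (l.map gen) = prodP (l'.map gen)) :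
    (l.map (yy hI h9)).prod = (l'.map (yy hI h9)).prod := (rel_prod hI l).unique (h ▸ rel_prod hI l')

variable {F : Type*} [Field F] (hF : ∀ a : F, a = 0 ∨ a = 1)

open Classical in
/-- the relations -/
noncomputable def drel (h9 : ∀ x : K, x ^ 9 = x) : DRel chevG2 F (SU 3 K 3 ⋊[act h9] ℤˣ) where
  y r t := if t = 0 then 1 else yy hI h9 r
  y_add r hr t u := by
    have h2 : (1 : F) + 1 = 0 := (hF _).resolve_right (by simp)
    rcases hF t with rfl | rfl <;> rcases hF u with rfl | rfl <;> simp [h2]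
    simpa using prod_eq hI (gen_sq r hr)
  comm r hr s hs h1 h2 t u := by
    rw [ChevalleyDatum.commWord, List.map_map]
    by_cases h : t = 0 ∨ u = 0
    · rw [List.prod_eq_one (by
        simp only [List.mem_map, Function.comp_apply]
        rintro _ ⟨c, hc, rfl⟩
        rcases h with rfl | rfl <;> simp [comm_pos r hr s hs c hc])]
      rcases h with rfl | rfl <;> simp
    · obtain rfl := (hF t).resolve_left (fun e => h (Or.inl e))
      obtain rfl := (hF u).resolve_left (fun e => h (Or.inr e))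
      have h3 := prod_eq (h9 := h9) hI (gen_comm r hr s hs h1 h2)
      have : CharP F 2 := CharTwo.of_one_ne_zero_of_two_eq_zero one_ne_zero
        (by rw [← one_add_one_eq_two]; exact (hF _).resolve_right (by simp))
      simp only [List.map_cons, List.prod_cons, List.map_nil, List.prod_nil, mul_one, ← mul_assoc] at h3
      simp only [one_ne_zero, if_false, h3]
      congr 1
      induction chevG2.commTerms r s with
      | nil => rfl
      | cons c l ih =>
        rw [List.filter_cons, List.map_cons, List.prod_cons, ← ih]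
        by_cases hc : (2 : ℤ) ∣ c.2.1
        · simp [hc, (CharP.intCast_eq_zero_iff F 2 _).2 hc]
        · simp [hc, mt (CharP.intCast_eq_zero_iff F 2 _).1 hc]

omit hI in
include hF in
theorem hT_eq_one {Φ : RootSys (Fin chevG2.rank) (Fin chevG2.nroots)} {G : Type*} [Group G] (P : St Φ F G)
    (c : Fin chevG2.rank → Fˣ) : P.hT c = 1 := by
  rw [show c = 1 from funext fun i => Units.ext ((hF _).resolve_left (c i).ne_zero), map_one]

include hF in
theorem exists_injective [Fintype F] (hc : Fintype.card F = 2) (h9 : ∀ x : K, x ^ 9 = x) :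
    ∃ φ : chevG2.SteinbergGroup F →* SU 3 K 3 ⋊[act h9] ℤˣ, Function.Injective φ := by
  obtain ⟨φ, hφ⟩ := (drel hI hF h9).exists_lift linkG2 fun r hr t u ht hu => by
    rw [(hF t).resolve_left ht, (hF u).resolve_left hu, mul_one, ← DRel.st0_h _ linkG2 ⟨r, hr⟩, St0.h_one, mul_one]
  refine ⟨φ, (MonoidHom.ker_eq_bot_iff _).1 ?_⟩
  set P := (matRel_of_mem F memG2).univ linkG2 univG2 with hPdef
  have hP : P.Faithful := (matRel_of_mem F memG2).univ_faithful linkG2 univG2
  have hG : P.G0 = ⊤ := (matRel_of_mem F memG2).univ_G0 linkG2 univG2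
  have hH : ∀ k ∈ P.H, k = 1 := fun k hk => by obtain ⟨c, rfl⟩ := P.exists_hT hk; exact hT_eq_one hF P c
  have hBN : hP.tits.B ⊔ hP.tits.N = ⊤ := P.B_sup_N.trans hG
  rcases Tits.normal_dichotomy (T := hP.tits) (L := φ.ker) (fun J hJ h1 h2 => by
      obtain ⟨i, hi, j, hj, hA⟩ := connG2 (rsG2.s ⁻¹' J)
        (by obtain ⟨s, hs⟩ := h1; obtain ⟨i, rfl⟩ := hJ hs; exact ⟨i, hs⟩)
        (by obtain ⟨s, ⟨i, rfl⟩, hs⟩ := h2; exact ⟨i, hs⟩)
      exact ⟨_, hi, _, ⟨⟨j, rfl⟩, hj⟩, rsG2.s_not_comm (by rintro rfl; exact hj hi) hA⟩)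
    (hBN ▸ le_top) (fun g _ x hx => (MonoidHom.normal_ker φ).conj_mem x hx g) with h | h
  · rw [eq_bot_iff]
    intro g hg
    exact hH g (hP.mem_H_of_conj_mem_B fun n _ => h ((MonoidHom.normal_ker φ).conj_mem g hg n))
  · exfalso
    have hB : IsPGroup 2 P.B := IsPGroup.of_card (n := _) (by
      rw [hP.card_B, hP.card_U, hc, show P.H = ⊥ from eq_bot_iff.2 hH, Subgroup.card_bot, mul_one])
    have h1 : yy hI h9 11 * yy hI h9 0 ∈ P.B.map φ := by
      have h2 : chevG2.stGen F 11 1 * chevG2.stGen F 0 1 ∈ φ.ker ⊔ P.B := h (hBN ▸ Subgroup.mem_top _)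
      have := Subgroup.mem_map_of_mem φ h2
      rw [Subgroup.map_sup, (Subgroup.map_eq_bot_iff _).2 le_rfl, bot_sup_eq, map_mul, hφ _ (by decide),
        hφ _ (by decide)] at this
      simpa [drel] using this
    obtain ⟨k, hk⟩ := hB.map φ ⟨_, h1⟩
    have h2 : (yy hI h9 11 * yy hI h9 0) ^ 3 = 1 := by
      simpa [pow_succ, mul_assoc] using prod_eq (h9 := h9) hI gen_three.1
    have h3 : yy hI h9 11 * yy hI h9 0 = 1 := by
      have := pow_gcd_eq_one.2 ⟨congrArg Subtype.val hk, h2⟩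
      rwa [Nat.Coprime.gcd_eq_one (Nat.Coprime.pow_left k (by norm_num)), pow_one] at this
    have h4 := congrFun₂ (rel_prod (h9 := h9) hI [11, 0]).1 0 0
    simp only [List.map_cons, List.map_nil, List.prod_cons, List.prod_nil, mul_one, h3] at h4
    have h5 : (1 : K) = emb I 2 := by rw [← gen_three.2]; exact h4
    simp only [emb, Nat.reduceMod, Nat.reduceDiv, Nat.cast_ofNat, Nat.cast_zero, zero_mul, add_zero] at h5
    exact one_ne_zero (α := K) (by linear_combination -h5)

omit hI in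
theorem commutator_eq (h9 : ∀ x : K, x ^ 9 = x) (hp : commutator (SU 3 K 3) = ⊤) :
    commutator (SU 3 K 3 ⋊[act h9] ℤˣ) = (SemidirectProduct.inl : SU 3 K 3 →* _).range := by
  apply le_antisymm
  · rw [SemidirectProduct.range_inl_eq_ker_rightHom]
    exact Abelianization.commutator_subset_ker _
  · rw [MonoidHom.range_eq_map, ← hp, commutator_def, Subgroup.map_commutator]
    exact Subgroup.commutator_mono le_top le_top

end Cfsg.Agent.Chev.G22
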