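/-
The rank-one relations hold for every root in every integral representation.
-/
import Cfsg.Agent.Chev.RelSL2
import Cfsg.Agent.Chev.RepRefl

set_option autoImplicit false

namespace Cfsg.Agent.Chev
open Cfsg.Lie Matrix

namespace IntRep
variable {D : ChevalleyDatum} {T : Tab D} {J : Type} [Fintype J] [DecidableEq J] (ρ : IntRep T J)

theorem m_neg {r : ℕ} (hr : r < D.nroots) (a : J) : ρ.m (D.neg r) a = -ρ.m r a := by
  rw [m, m, ← Finset.sum_neg_distrib]
  exact Finset.sum_congr rfl fun i _ => by rw [T.cor_neg hr i.2]; ring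

theorem hd_neg {R : Type*} [CommRing R] {r : ℕ} (hr : r < D.nroots) (t : Rˣ) :
    ρ.hd R (D.neg r) t = ρ.hd R r t⁻¹ := by
  simp only [hd, ρ.m_neg hr, _root_.zpow_neg, _root_.inv_zpow]

open Classical in
/-- the rank-one relations for the root `r` -/
noncomputable def sl2Rel (F : Type*) [Field F] {r : ℕ} (hr : r < D.nroots) :
    SL2Rel F (Matrix J J F) where
  x := ρ.X F r
  y := ρ.X F (D.neg r)
  h a := if h : a = 0 then 1 else ρ.hd F r (Units.mk0 a h)
  w := ρ.n F r 1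
  x_add := ρ.X_add r
  x_zero := ρ.X_zero r
  h_mul a b ha hb := by
    rw [dif_neg ha, dif_neg hb, dif_neg (mul_ne_zero ha hb), hd_mul, Units.mk0_mul]
  h_one := by rw [dif_neg one_ne_zero, Units.mk0_one, hd_one]
  n_eq t ht := by
    rw [dif_neg ht, ← ρ.n_eq hr, n]; simp
  y_zero := ρ.X_zero _
  h_x a s ha := by
    rw [dif_neg ha, ρ.hd_X r hr, T.pair_self r hr]
    congr 2
  w_h a ha := by
    rw [dif_neg ha, dif_neg (inv_ne_zero ha), ρ.n_one_hd hr hr, T.refl_self hr, ρ.hd_neg hr]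
    congr 2
    ext; simp
  w_w := by
    rw [dif_neg (by simp)]
    have h1 := ρ.n_neg_mul (F := F) r 1
    rw [ρ.n_eq hr (-1)] at h1
    have h2 : ρ.hd F r (-1) * ρ.hd F r (-1) = 1 := by rw [hd_mul]; simp [hd_one]
    have h3 : Units.mk0 (-1 : F) (by simp) = -1 := by ext; simp
    rw [h3]
    calc ρ.n F r 1 * ρ.n F r 1 = ρ.hd F r (-1) * (ρ.hd F r (-1) * ρ.n F r 1 * ρ.n F r 1) := by
          rw [mul_assoc, ← mul_assoc (ρ.hd F r (-1)) (ρ.hd F r (-1)), h2, one_mul]
      _ = _ := by rw [h1, mul_one]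
  w_x s := by
    rw [ρ.n_one_X hr hr, T.refl_self hr, T.eta_self hr]
    simp

end IntRep

end Cfsg.Agent.Chev
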