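/-
The twisted group of type 2E6 as the group of a twist.
-/
import Cfsg.Agent.Chev.TwField
import Cfsg.Agent.Chev.AutMain

set_option autoImplicit false

namespace Cfsg.Agent.Chev

open Cfsg.Lie

/-- the diagram symmetry of type E6 -/
noncomputable def symE6 : rsE6.Sym :=
  twOKE6.sym linkE6 (permOf _ (dec8 0x000203040105) (dec8 0x000203040105) (by decide +kernel))
    (by decide +kernel) (by decide +kernel)

/-- labels of the orbits -/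
def orbE6 : ℕ → ℕ := dec8 0x000203020100

theorem mem_orbE6 (i j : Fin chevE6.rank) : j ∈ symE6.orb i ↔ orbE6 j = orbE6 i :=
  symE6.mem_orb_iff_of (fun i => orbE6 i) (by decide +kernel) (by decide +kernel) i j

/-- node of the diagram -/
def ndE6 (i : ℕ) (h : i < 6 := by decide) : Fin chevE6.rank := ⟨i, h⟩

/-- exponents -/
def eE6 (i : Fin chevE6.rank) : ℕ := dec8 0x020201020102 i

theorem orbE6_cases (i : Fin chevE6.rank) :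
    (symE6.orb i = symE6.orb (ndE6 0) ∧ eE6 i = 2) ∨ (symE6.orb i = symE6.orb (ndE6 1) ∧ eE6 i = 1) ∨
    (symE6.orb i = symE6.orb (ndE6 2) ∧ eE6 i = 2) ∨ (symE6.orb i = symE6.orb (ndE6 3) ∧ eE6 i = 1) := by
  have : ∀ i : Fin chevE6.rank, (orbE6 i = orbE6 (ndE6 0) ∧ eE6 i = 2) ∨ (orbE6 i = orbE6 (ndE6 1) ∧ eE6 i = 1) ∨
      (orbE6 i = orbE6 (ndE6 2) ∧ eE6 i = 2) ∨ (orbE6 i = orbE6 (ndE6 3) ∧ eE6 i = 1) := by decide +kernel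
  simp only [← mem_orbE6] at this
  rcases this i with h | h | h | h <;> simp [symE6.orb_eq_of_mem h.1, h.2]

theorem lstE6p0 : Lst rsE6 {r | rsE6.IsPos r ∧ rsE6.InJ (symE6.orb (ndE6 0)) r} [e6p1, e6p6] :=
  lst_pos mem_orbE6 _ (by decide +kernel)
theorem lstE6p1 : Lst rsE6 {r | rsE6.IsPos r ∧ rsE6.InJ (symE6.orb (ndE6 1)) r} [e6p2] :=
  lst_pos mem_orbE6 _ (by decide +kernel)
theorem lstE6p2 : Lst rsE6 {r | rsE6.IsPos r ∧ rsE6.InJ (symE6.orb (ndE6 2)) r} [e6p3, e6p5] :=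
  lst_pos mem_orbE6 _ (by decide +kernel)
theorem lstE6p3 : Lst rsE6 {r | rsE6.IsPos r ∧ rsE6.InJ (symE6.orb (ndE6 3)) r} [e6p4] :=
  lst_pos mem_orbE6 _ (by decide +kernel)
theorem lstE6m0 : Lst rsE6 {r | ¬ rsE6.IsPos r ∧ rsE6.InJ (symE6.orb (ndE6 0)) r} [e6m1, e6m6] :=
  lst_neg mem_orbE6 _ (by decide +kernel)
theorem lstE6m1 : Lst rsE6 {r | ¬ rsE6.IsPos r ∧ rsE6.InJ (symE6.orb (ndE6 1)) r} [e6m2] :=
  lst_neg mem_orbE6 _ (by decide +kernel)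
theorem lstE6m2 : Lst rsE6 {r | ¬ rsE6.IsPos r ∧ rsE6.InJ (symE6.orb (ndE6 2)) r} [e6m3, e6m5] :=
  lst_neg mem_orbE6 _ (by decide +kernel)
theorem lstE6m3 : Lst rsE6 {r | ¬ rsE6.IsPos r ∧ rsE6.InJ (symE6.orb (ndE6 3)) r} [e6m4] :=
  lst_neg mem_orbE6 _ (by decide +kernel)

section
variable (K : Type*) [Field K]

theorem mE6 : MatRel chevE6 K := matRel_of_mem K memE6

/-- the group E6(K) with its root elements -/
abbrev PE6 : St rsE6 K ((mE6 K).GG linkE6) := (mE6 K).st linkE6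

/-- the root elements of E6(K), indexed by natural numbers -/
abbrev YE6 : DRel chevE6 K ((mE6 K).GG linkE6) := (mE6 K).gr linkE6

variable {K}

/-- the twist of E6(K) defined by a field automorphism -/
noncomputable def twE6 (ψ : K ≃+* K) : Twist (PE6 K) :=
  twOKE6.twist linkE6 symE6 rfl (mE6 K) (by simp) ψ (fun _ => ψ) (by simp [exqE6, expT_zero])

theorem twE6_sym (ψ : K ≃+* K) : (twE6 ψ).toSym = symE6 := rfl

theorem twE6_φ (ψ : K ≃+* K) (r : Fin chevE6.nroots) : (twE6 ψ).φ r = ψ := rfl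

theorem twE6_y (ψ : K ≃+* K) {r : ℕ} (hr : r < 72) (t : K) :
    (twE6 ψ).σ ((YE6 K).y r t) = (YE6 K).y (rhoE6 r) (gamE6 r * ψ t) := by
  have := twOKE6.twist_y linkE6 symE6 rfl (mE6 K) (by simp) ψ (fun _ => ψ) (by simp [exqE6, expT_zero]) hr t
  rwa [show exqE6 r = 1 from expT_zero r, pow_one] at this

theorem twE6_y' (ψ : K ≃+* K) {r s : ℕ} (h : r < 72 ∧ rhoE6 r = s ∧ gamE6 r = 1) (t : K) :
    (twE6 ψ).σ ((YE6 K).y r t) = (YE6 K).y s (ψ t) := by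
  rw [twE6_y ψ h.1, h.2.1, h.2.2, Int.cast_one, one_mul]

theorem commE6 {r s : ℕ} (h : comB 72 0 (fN rowsE6) (fP rowsE6) r s = true) (t u : K) :
    Commute ((YE6 K).y r t) ((YE6 K).y s u) := (mE6 K).gr_commute linkE6 tabE6 (by simp) h t u

theorem fixE6_one (ψ : K ≃+* K) {S : Set (Fin chevE6.nroots)} {r : ℕ} (h : Lst rsE6 S [r])
    (h1 : r < 72 ∧ rhoE6 r = r ∧ gamE6 r = 1) (g : (mE6 K).GG linkE6) :
    g ∈ (PE6 K).X S ⊓ (twE6 ψ).Fix ↔ ∃ t : {t : K // ψ t = t}, g = (YE6 K).word [(r, t.1)] := by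
  rw [h.fix1 (twE6_y' ψ h1)]; simp

theorem fixE6_two {ψ : K ≃+* K} (hψ : ∀ t, ψ (ψ t) = t) {S : Set (Fin chevE6.nroots)} {r s : ℕ}
    (h : Lst rsE6 S [r, s]) (h1 : (r < 72 ∧ rhoE6 r = s ∧ gamE6 r = 1) ∧ (s < 72 ∧ rhoE6 s = r ∧ gamE6 s = 1) ∧
      comB 72 0 (fN rowsE6) (fP rowsE6) r s = true) (g : (mE6 K).GG linkE6) :
    g ∈ (PE6 K).X S ⊓ (twE6 ψ).Fix ↔ ∃ t : K, g = (YE6 K).word [(r, t), (s, ψ t)] := by
  rw [h.fix2 (twE6_y' ψ h1.1) (twE6_y' ψ h1.2.1) (commE6 h1.2.2)]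
  exact ⟨fun ⟨t, _, h, e⟩ => ⟨t, h.2 ▸ e⟩, fun ⟨t, e⟩ => ⟨t, _, ⟨hψ t, rfl⟩, e⟩⟩

variable {ψ : K ≃+* K} (hψ : ∀ t, ψ (ψ t) = t)
include hψ

theorem fixE6p0 (g : (mE6 K).GG linkE6) : g ∈ (PE6 K).XJ (symE6.orb (ndE6 0)) ⊓ (twE6 ψ).Fix ↔
    ∃ t : K, g = (YE6 K).word [(e6p1, t), (e6p6, ψ t)] := fixE6_two hψ lstE6p0 (by decide +kernel) g
theorem fixE6p2 (g : (mE6 K).GG linkE6) : g ∈ (PE6 K).XJ (symE6.orb (ndE6 2)) ⊓ (twE6 ψ).Fix ↔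
    ∃ t : K, g = (YE6 K).word [(e6p3, t), (e6p5, ψ t)] := fixE6_two hψ lstE6p2 (by decide +kernel) g
theorem fixE6m0 (g : (mE6 K).GG linkE6) : g ∈ (PE6 K).YJ (symE6.orb (ndE6 0)) ⊓ (twE6 ψ).Fix ↔
    ∃ t : K, g = (YE6 K).word [(e6m1, t), (e6m6, ψ t)] := fixE6_two hψ lstE6m0 (by decide +kernel) g
theorem fixE6m2 (g : (mE6 K).GG linkE6) : g ∈ (PE6 K).YJ (symE6.orb (ndE6 2)) ⊓ (twE6 ψ).Fix ↔
    ∃ t : K, g = (YE6 K).word [(e6m3, t), (e6m5, ψ t)] := fixE6_two hψ lstE6m2 (by decide +kernel) g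
omit hψ
theorem fixE6p1 (g : (mE6 K).GG linkE6) : g ∈ (PE6 K).XJ (symE6.orb (ndE6 1)) ⊓ (twE6 ψ).Fix ↔
    ∃ t : {t : K // ψ t = t}, g = (YE6 K).word [(e6p2, t.1)] := fixE6_one ψ lstE6p1 (by decide +kernel) g
theorem fixE6p3 (g : (mE6 K).GG linkE6) : g ∈ (PE6 K).XJ (symE6.orb (ndE6 3)) ⊓ (twE6 ψ).Fix ↔
    ∃ t : {t : K // ψ t = t}, g = (YE6 K).word [(e6p4, t.1)] := fixE6_one ψ lstE6p3 (by decide +kernel) g
theorem fixE6m1 (g : (mE6 K).GG linkE6) : g ∈ (PE6 K).YJ (symE6.orb (ndE6 1)) ⊓ (twE6 ψ).Fix ↔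
    ∃ t : {t : K // ψ t = t}, g = (YE6 K).word [(e6m2, t.1)] := fixE6_one ψ lstE6m1 (by decide +kernel) g
theorem fixE6m3 (g : (mE6 K).GG linkE6) : g ∈ (PE6 K).YJ (symE6.orb (ndE6 3)) ⊓ (twE6 ψ).Fix ↔
    ∃ t : {t : K // ψ t = t}, g = (YE6 K).word [(e6m4, t.1)] := fixE6_one ψ lstE6m3 (by decide +kernel) g
include hψ

theorem goodE6 : (twE6 ψ).Good where
  faithful := (mE6 K).st_faithful linkE6
  neg i := by
    rw [twE6_sym]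
    rcases orbE6_cases i with h | h | h | h <;> rw [h.1]
    · exact lstE6m0.ne_bot [1, ψ 1] rfl ((fixE6m0 hψ _).2 ⟨1, rfl⟩) (by simp)
    · exact lstE6m1.ne_bot [1] rfl ((fixE6m1 _).2 ⟨⟨1, map_one ψ⟩, rfl⟩) (by simp)
    · exact lstE6m2.ne_bot [1, ψ 1] rfl ((fixE6m2 hψ _).2 ⟨1, rfl⟩) (by simp)
    · exact lstE6m3.ne_bot [1] rfl ((fixE6m3 _).2 ⟨⟨1, map_one ψ⟩, rfl⟩) (by simp)

theorem hposE6 (i : Fin chevE6.rank) : ∃ (l : List (Fin chevE6.nroots)) (t : Fin chevE6.nroots → K), l.Nodup ∧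
    (∀ r ∈ l, rsE6.IsPos r ∧ rsE6.InJ ((twE6 ψ).orb i) r) ∧ rsE6.simple i ∈ l ∧ t (rsE6.simple i) ≠ 0 ∧
      (PE6 K).prod l t ∈ (twE6 ψ).Fix := by
  rw [twE6_sym]
  have hi := symE6.self_mem_orb i
  rcases orbE6_cases i with h | h | h | h <;> rw [h.1] at hi ⊢
  · exact lstE6p0.hpos (fun _ => 1) ((fixE6p0 hψ _).2 ⟨1, by simp⟩).2 hi one_ne_zero
  · exact lstE6p1.hpos (fun _ => 1) ((fixE6p1 _).2 ⟨⟨1, map_one ψ⟩, rfl⟩).2 hi one_ne_zero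
  · exact lstE6p2.hpos (fun _ => 1) ((fixE6p2 hψ _).2 ⟨1, by simp⟩).2 hi one_ne_zero
  · exact lstE6p3.hpos (fun _ => 1) ((fixE6p3 _).2 ⟨⟨1, map_one ψ⟩, rfl⟩).2 hi one_ne_zero

theorem twistedE6_eq {q : ℕ} (hq : ∀ t, ψ t = t ^ q) :
    twistedE6 K q = (twE6 ψ).G1.map ((mE6 K).inc linkE6) := by
  rw [twistedE6, (mE6 K).genSubgroup_eq linkE6]
  congr 1
  refine le_antisymm ((Subgroup.closure_le _).2 ?_) (iSup_le fun i => ?_)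
  · rintro _ ⟨w, hw, rfl⟩
    simp only [e6Words, ← hq, List.mem_cons, List.not_mem_nil, or_false] at hw
    rcases hw with ⟨t, ht, r, rfl | rfl | rfl | rfl, rfl⟩ | ⟨t, r, rfl | rfl | rfl | rfl, rfl⟩
    · exact (twE6 ψ).XJ_inf_le_G1 (ndE6 1) ((fixE6p1 _).2 ⟨⟨t, ht⟩, rfl⟩)
    · exact (twE6 ψ).YJ_inf_le_G1 (ndE6 1) ((fixE6m1 _).2 ⟨⟨t, ht⟩, rfl⟩)
    · exact (twE6 ψ).XJ_inf_le_G1 (ndE6 3) ((fixE6p3 _).2 ⟨⟨t, ht⟩, rfl⟩)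
    · exact (twE6 ψ).YJ_inf_le_G1 (ndE6 3) ((fixE6m3 _).2 ⟨⟨t, ht⟩, rfl⟩)
    · exact (twE6 ψ).XJ_inf_le_G1 (ndE6 0) ((fixE6p0 hψ _).2 ⟨t, rfl⟩)
    · exact (twE6 ψ).YJ_inf_le_G1 (ndE6 0) ((fixE6m0 hψ _).2 ⟨t, rfl⟩)
    · exact (twE6 ψ).XJ_inf_le_G1 (ndE6 2) ((fixE6p2 hψ _).2 ⟨t, rfl⟩)
    · exact (twE6 ψ).YJ_inf_le_G1 (ndE6 2) ((fixE6m2 hψ _).2 ⟨t, rfl⟩)
  · rw [twE6_sym]
    have k1 : ∀ r ∈ [e6p2, e6m2, e6p4, e6m4], ∀ t : {t : K // ψ t = t},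
        (YE6 K).word [(r, t.1)] ∈ Subgroup.closure ((YE6 K).word '' e6Words K q) := fun r hr t =>
      Subgroup.subset_closure ⟨_, Or.inl ⟨t.1, hq t ▸ t.2, r, hr, rfl⟩, rfl⟩
    have k2 : ∀ rs ∈ [(e6p1, e6p6), (e6m1, e6m6), (e6p3, e6p5), (e6m3, e6m5)], ∀ t : K,
        (YE6 K).word [(rs.1, t), (rs.2, ψ t)] ∈ Subgroup.closure ((YE6 K).word '' e6Words K q) := fun r hr t =>
      Subgroup.subset_closure ⟨_, Or.inr ⟨t, r, hr, by rw [hq]⟩, rfl⟩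
    rcases orbE6_cases i with h | h | h | h <;> rw [h.1] <;> refine sup_le (fun g hg => ?_) fun g hg => ?_
    · obtain ⟨t, rfl⟩ := (fixE6p0 hψ g).1 hg; exact k2 (_, _) (by decide) t
    · obtain ⟨t, rfl⟩ := (fixE6m0 hψ g).1 hg; exact k2 (_, _) (by decide) t
    · obtain ⟨t, rfl⟩ := (fixE6p1 g).1 hg; exact k1 _ (by simp) t
    · obtain ⟨t, rfl⟩ := (fixE6m1 g).1 hg; exact k1 _ (by simp) t
    · obtain ⟨t, rfl⟩ := (fixE6p2 hψ g).1 hg; exact k2 (_, _) (by decide) t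
    · obtain ⟨t, rfl⟩ := (fixE6m2 hψ g).1 hg; exact k2 (_, _) (by decide) t
    · obtain ⟨t, rfl⟩ := (fixE6p3 g).1 hg; exact k1 _ (by simp) t
    · obtain ⟨t, rfl⟩ := (fixE6m3 g).1 hg; exact k1 _ (by simp) t

theorem cardXE6 [Fintype K] {q : ℕ} (hq : ∀ t, ψ t = t ^ q) (hq1 : 1 ≤ q) (hK : Fintype.card K = q ^ 2)
    (i : Fin chevE6.rank) : Nat.card ↥((PE6 K).XJ ((twE6 ψ).orb i) ⊓ (twE6 ψ).Fix) = q ^ eE6 i := by
  rw [twE6_sym]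
  have h1 : Nat.card {t : K // ψ t = t} = q := by simp only [hq]; exact card_fixed hq1 hK
  rcases orbE6_cases i with h | h | h | h <;> rw [h.1, h.2]
  · rw [card_of_param (fixE6p0 hψ) fun t u e => (lstE6p0.inj2.1 e).1, Nat.card_eq_fintype_card, hK]
  · rw [card_of_param fixE6p1 fun t u e => Subtype.ext (lstE6p1.inj1.1 e), h1, pow_one]
  · rw [card_of_param (fixE6p2 hψ) fun t u e => (lstE6p2.inj2.1 e).1, Nat.card_eq_fintype_card, hK]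
  · rw [card_of_param fixE6p3 fun t u e => Subtype.ext (lstE6p3.inj1.1 e), h1, pow_one]

end

theorem exists_psiE6 {K : Type*} [Field K] [Fintype K] {q : ℕ} (hq : IsPrimePow q)
    (hK : Fintype.card K = q ^ 2) : ∃ ψ : K ≃+* K, (∀ t, ψ t = t ^ q) ∧ ∀ t, ψ (ψ t) = t := by
  obtain ⟨ψ, h⟩ := exists_powEquiv hq two_ne_zero hK
  exact ⟨ψ, h, fun t => by rw [h, h, ← pow_mul, ← sq, ← hK, FiniteField.pow_card]⟩

end Cfsg.Agent.Chev
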