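/-
Square roots of the inverse Frobenius map.
-/
import Cfsg.Agent.Chev.TwField

set_option autoImplicit false

namespace Cfsg.Agent.Chev

/-- The data of a field of characteristic `p` with an automorphism `θ` whose square is inverse to the
Frobenius map `t ↦ t ^ p`. -/
structure TwTheta (K : Type*) [Field K] (p e : ℕ) where
  /-- the automorphism `t ↦ t ^ e` -/
  θ : K ≃+* K
  /-- the automorphism `t ↦ t ^ (p * e)` -/
  φ : K ≃+* K
  θ_eq : ∀ t, θ t = t ^ e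
  φ_eq : ∀ t, φ t = θ t ^ p
  φθ : ∀ t, φ (θ t) = t
  char : (p : K) = 0

theorem TwTheta.θφ {K : Type*} [Field K] {p e : ℕ} (Θ : TwTheta K p e) (t : K) : Θ.θ (Θ.φ t) = t := by
  rw [Θ.φ_eq, map_pow, ← Θ.φ_eq, Θ.φθ]

theorem TwTheta.φφ {K : Type*} [Field K] {p e : ℕ} (Θ : TwTheta K p e) (t : K) : Θ.φ (Θ.φ t) = t ^ p := by
  rw [Θ.φ_eq (Θ.φ t), Θ.θφ]

theorem TwTheta.θθ {K : Type*} [Field K] {p e : ℕ} (Θ : TwTheta K p e) (t : K) : Θ.θ (Θ.θ t) ^ p = t := by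
  rw [← Θ.φ_eq, Θ.φθ]

theorem exists_twTheta {K : Type*} [Field K] [Fintype K] {p m : ℕ} (hp : p.Prime)
    (hK : Fintype.card K = p ^ (2 * m + 1)) : Nonempty (TwTheta K p (p ^ m)) := by
  have : Fact p.Prime := ⟨hp⟩
  have : CharP K p := charP_of_card_eq_prime_pow hK
  refine ⟨⟨iterateFrobeniusEquiv K p m, (iterateFrobeniusEquiv K p m).trans (frobeniusEquiv K p),
    fun t => rfl, fun t => rfl, fun t => ?_, CharP.cast_eq_zero K p⟩⟩
  show ((t ^ p ^ m) ^ p ^ m) ^ p = t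
  rw [← pow_mul, ← pow_mul, ← pow_succ, ← pow_add, ← add_assoc, ← two_mul, ← hK, FiniteField.pow_card]

end Cfsg.Agent.Chev
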