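/-
The twisted group of type 2F4 as the group of a twist.
-/
import Cfsg.Agent.Chev.TwTheta
import Cfsg.Agent.Chev.AutMain

set_option autoImplicit false

namespace Cfsg.Agent.Chev

open Cfsg.Lie

/-- the diagram symmetry of type F4 -/
noncomputable def symF4 : rsF4.Sym :=
  twOKF4.sym linkF4 (permOf _ (dec8 0x00010203) (dec8 0x00010203) (by decide +kernel))
    (by decide +kernel) (by decide +kernel)

/-- labels of the orbits -/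
def orbF4 : ℕ → ℕ := dec8 0x00010100

theorem mem_orbF4 (i j : Fin chevF4.rank) : j ∈ symF4.orb i ↔ orbF4 j = orbF4 i :=
  symF4.mem_orb_iff_of (fun i => orbF4 i) (by decide +kernel) (by decide +kernel) i j

/-- node of the diagram -/
def ndF4 (i : ℕ) (h : i < 4 := by decide) : Fin chevF4.rank := ⟨i, h⟩

/-- exponents -/
def eF4 (i : Fin chevF4.rank) : ℕ := dec8 0x01020201 i

theorem orbF4_cases (i : Fin chevF4.rank) :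
    (symF4.orb i = symF4.orb (ndF4 0) ∧ eF4 i = 1) ∨ (symF4.orb i = symF4.orb (ndF4 1) ∧ eF4 i = 2) := by
  have : ∀ i : Fin chevF4.rank, (orbF4 i = orbF4 (ndF4 0) ∧ eF4 i = 1) ∨
      (orbF4 i = orbF4 (ndF4 1) ∧ eF4 i = 2) := by decide +kernel
  simp only [← mem_orbF4] at this
  rcases this i with h | h <;> simp [symF4.orb_eq_of_mem h.1, h.2]

theorem lstF4p0 : Lst rsF4 {r | rsF4.IsPos r ∧ rsF4.InJ (symF4.orb (ndF4 0)) r} [f4p1, f4p4] :=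
  lst_pos mem_orbF4 _ (by decide +kernel)
theorem lstF4p1 : Lst rsF4 {r | rsF4.IsPos r ∧ rsF4.InJ (symF4.orb (ndF4 1)) r} [f4a, f4b, f4ab, f4aab] :=
  lst_pos mem_orbF4 _ (by decide +kernel)
theorem lstF4m0 : Lst rsF4 {r | ¬ rsF4.IsPos r ∧ rsF4.InJ (symF4.orb (ndF4 0)) r} [f4m1, f4m4] :=
  lst_neg mem_orbF4 _ (by decide +kernel)
theorem lstF4m1 :
    Lst rsF4 {r | ¬ rsF4.IsPos r ∧ rsF4.InJ (symF4.orb (ndF4 1)) r} [f4ma, f4mb, f4mab, f4maab] :=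
  lst_neg mem_orbF4 _ (by decide +kernel)

section
variable (K : Type*) [Field K]

theorem mF4 : MatRel chevF4 K := matRel_of_mem K memF4

/-- the group F4(K) with its root elements -/
abbrev PF4 : St rsF4 K ((mF4 K).GG linkF4) := (mF4 K).st linkF4

/-- the root elements of F4(K), indexed by natural numbers -/
abbrev YF4 : DRel chevF4 K ((mF4 K).GG linkF4) := (mF4 K).gr linkF4

variable {K} {e : ℕ} (Θ : TwTheta K 2 e)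

theorem exqF4_cases : ∀ r : Fin chevF4.nroots, exqF4 r = 1 ∨ exqF4 r = 2 := by decide +kernel

theorem phiF4_eq (r : Fin chevF4.nroots) (t : K) :
    (if exqF4 r = 1 then Θ.θ else Θ.φ) t = Θ.θ t ^ exqF4 r := by
  rcases exqF4_cases r with h | h <;> simp [h, Θ.φ_eq]

/-- the twist of F4(K) -/
noncomputable def twF4 : Twist (PF4 K) :=
  twOKF4.twist linkF4 symF4 rfl (mF4 K) Θ.char Θ.θ (fun r => if exqF4 r = 1 then Θ.θ else Θ.φ) (phiF4_eq Θ)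

theorem twF4_sym : (twF4 Θ).toSym = symF4 := rfl

theorem twF4_φ (r : Fin chevF4.nroots) : (twF4 Θ).φ r = if exqF4 r = 1 then Θ.θ else Θ.φ := rfl

theorem twF4_y {r : ℕ} (hr : r < 48) (t : K) :
    (twF4 Θ).σ ((YF4 K).y r t) = (YF4 K).y (rhoF4 r) (gamF4 r * Θ.θ t ^ exqF4 r) :=
  twOKF4.twist_y linkF4 symF4 rfl (mF4 K) Θ.char Θ.θ _ (phiF4_eq Θ) hr t

/-- short roots -/
theorem twF4_s {r s : ℕ} (h : r < 48 ∧ rhoF4 r = s ∧ gamF4 r = 1 ∧ exqF4 r = 2) (t : K) :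
    (twF4 Θ).σ ((YF4 K).y r t) = (YF4 K).y s (Θ.φ t) := by
  rw [twF4_y Θ h.1, h.2.1, h.2.2.1, h.2.2.2, Int.cast_one, one_mul, Θ.φ_eq]

/-- long roots -/
theorem twF4_l {r s : ℕ} (h : r < 48 ∧ rhoF4 r = s ∧ gamF4 r = 1 ∧ exqF4 r = 1) (t : K) :
    (twF4 Θ).σ ((YF4 K).y r t) = (YF4 K).y s (Θ.θ t) := by
  rw [twF4_y Θ h.1, h.2.1, h.2.2.1, h.2.2.2, Int.cast_one, one_mul, pow_one]

include Θ in
theorem commF4 {r s : ℕ} (h : comB 48 2 (fN rowsF4) (fP rowsF4) r s = true) (t u : K) :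
    Commute ((YF4 K).y r t) ((YF4 K).y s u) := (mF4 K).gr_commute linkF4 tabF4 Θ.char h t u

theorem fixF4_two {S : Set (Fin chevF4.nroots)} {r s : ℕ}
    (h : Lst rsF4 S [r, s]) (h1 : (r < 48 ∧ rhoF4 r = s ∧ gamF4 r = 1 ∧ exqF4 r = 2) ∧
      (s < 48 ∧ rhoF4 s = r ∧ gamF4 s = 1 ∧ exqF4 s = 1) ∧
      comB 48 2 (fN rowsF4) (fP rowsF4) r s = true) (g : (mF4 K).GG linkF4) :
    g ∈ (PF4 K).X S ⊓ (twF4 Θ).Fix ↔ ∃ t : K, g = (YF4 K).word (f4PairWord e r s t) := by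
  rw [h.fix2 (twF4_s Θ h1.1) (twF4_l Θ h1.2.1) (commF4 Θ h1.2.2)]
  simp only [f4PairWord, ← Θ.θ_eq]
  exact ⟨fun ⟨_, u, h, e⟩ => ⟨u, h.1 ▸ e⟩, fun ⟨t, e⟩ => ⟨_, t, ⟨rfl, Θ.φθ t⟩, e⟩⟩

theorem fixF4_four {S : Set (Fin chevF4.nroots)} {a b c d : ℕ} {ε δ : ℤ}
    (h : Lst rsF4 S [a, b, c, d]) (h1 : (a < 48 ∧ rhoF4 a = b ∧ gamF4 a = 1 ∧ exqF4 a = 2) ∧
      (b < 48 ∧ rhoF4 b = a ∧ gamF4 b = 1 ∧ exqF4 b = 1) ∧
      (c < 48 ∧ rhoF4 c = d ∧ gamF4 c = 1 ∧ exqF4 c = 2) ∧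
      (d < 48 ∧ rhoF4 d = c ∧ gamF4 d = 1 ∧ exqF4 d = 1) ∧
      comB 48 2 (fN rowsF4) (fP rowsF4) c d = true ∧ (ε = 1 ∨ ε = -1) ∧ (δ = 1 ∨ δ = -1) ∧
      (a < 48 ∧ b < 48 ∧ b ≠ a ∧ a + b + 1 ≠ 48 ∧
        cT (fN rowsF4) (fP rowsF4) a b = [(c, ε, 1, 1), (d, δ, 2, 1)])) (g : (mF4 K).GG linkF4) :
    g ∈ (PF4 K).X S ⊓ (twF4 Θ).Fix ↔ ∃ p : K × K, g = (YF4 K).word (b2ClassWord e a b c d p.1 p.2) := by
  obtain ⟨ha, hb, hc, hd, hcd, hε, hδ, hab⟩ := h1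
  have h2 : (2 : K) = 0 := by exact_mod_cast Θ.char
  have hn : ∀ x : K, -x = x := fun x => by linear_combination (-x) * h2
  rw [h.fixB (twF4_s Θ ha) (twF4_l Θ hb) (twF4_s Θ hc) (twF4_l Θ hd) (fun t u => by
    rw [(mF4 K).gr_comm linkF4 tabF4 hab]
    rcases hε with rfl | rfl <;> rcases hδ with rfl | rfl <;> simp [DRel.val, hn]) (commF4 Θ hcd)]
  have e1 : ∀ t : K, t ^ (e + 1) = Θ.θ t * t := fun t => by rw [pow_succ, Θ.θ_eq]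
  have e2 : ∀ t : K, t ^ (2 * e) = Θ.φ t := fun t => by rw [Θ.φ_eq, Θ.θ_eq, ← pow_mul, mul_comm]
  simp only [b2ClassWord, e1, e2, ← Θ.θ_eq]
  constructor
  · rintro ⟨_, u, _, w, ⟨rfl, h3, rfl, -⟩, rfl⟩
    exact ⟨(u, Θ.θ w), by simp only [Θ.φθ]⟩
  · rintro ⟨⟨t, u⟩, rfl⟩
    refine ⟨_, _, _, _, ⟨rfl, Θ.φθ t, by rw [Θ.φθ, Θ.θφ], ?_⟩, rfl⟩
    rw [Θ.φθ, map_add, map_mul, Θ.φθ, ← Θ.φ_eq]
    linear_combination (Θ.φ t * t) * h2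

theorem fixF4p0 (g : (mF4 K).GG linkF4) : g ∈ (PF4 K).XJ (symF4.orb (ndF4 0)) ⊓ (twF4 Θ).Fix ↔
    ∃ t : K, g = (YF4 K).word (f4PairWord e f4p1 f4p4 t) := fixF4_two Θ lstF4p0 (by decide +kernel) g
theorem fixF4m0 (g : (mF4 K).GG linkF4) : g ∈ (PF4 K).YJ (symF4.orb (ndF4 0)) ⊓ (twF4 Θ).Fix ↔
    ∃ t : K, g = (YF4 K).word (f4PairWord e f4m1 f4m4 t) := fixF4_two Θ lstF4m0 (by decide +kernel) g
theorem fixF4p1 (g : (mF4 K).GG linkF4) : g ∈ (PF4 K).XJ (symF4.orb (ndF4 1)) ⊓ (twF4 Θ).Fix ↔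
    ∃ p : K × K, g = (YF4 K).word (b2ClassWord e f4a f4b f4ab f4aab p.1 p.2) :=
  fixF4_four Θ (ε := -1) (δ := -1) lstF4p1 (by decide +kernel) g
theorem fixF4m1 (g : (mF4 K).GG linkF4) : g ∈ (PF4 K).YJ (symF4.orb (ndF4 1)) ⊓ (twF4 Θ).Fix ↔
    ∃ p : K × K, g = (YF4 K).word (b2ClassWord e f4ma f4mb f4mab f4maab p.1 p.2) :=
  fixF4_four Θ (ε := 1) (δ := -1) lstF4m1 (by decide +kernel) g

theorem goodF4 : (twF4 Θ).Good where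
  faithful := (mF4 K).st_faithful linkF4
  neg i := by
    rw [twF4_sym]
    rcases orbF4_cases i with h | h <;> rw [h.1]
    · exact lstF4m0.ne_bot [1 ^ e, 1] rfl ((fixF4m0 Θ _).2 ⟨1, rfl⟩) (by simp)
    · exact lstF4m1.ne_bot [1 ^ e, 1, 1 ^ (e + 1) + 1, 1 ^ (2 * e)] rfl ((fixF4m1 Θ _).2 ⟨(1, 1), rfl⟩) (by simp)

theorem hposF4 (i : Fin chevF4.rank) : ∃ (l : List (Fin chevF4.nroots)) (t : Fin chevF4.nroots → K), l.Nodup ∧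
    (∀ r ∈ l, rsF4.IsPos r ∧ rsF4.InJ ((twF4 Θ).orb i) r) ∧ rsF4.simple i ∈ l ∧ t (rsF4.simple i) ≠ 0 ∧
      (PF4 K).prod l t ∈ (twF4 Θ).Fix := by
  rw [twF4_sym]
  have hi := symF4.self_mem_orb i
  rcases orbF4_cases i with h | h <;> rw [h.1] at hi ⊢
  · exact lstF4p0.hpos (fun _ => 1) ((fixF4p0 Θ _).2 ⟨1, by simp [f4PairWord]⟩).2 hi one_ne_zero
  · have hs : ∀ i : Fin chevF4.rank, (rsF4.simple i : ℕ) ≠ f4ab := by decide +kernel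
    refine lstF4p1.hpos (fun r => if r = f4ab then 1 + 1 else 1) ((fixF4p1 Θ _).2 ⟨(1, 1), ?_⟩).2 hi
      (by simp [hs i])
    simp [b2ClassWord, f4a, f4b, f4ab, f4aab]

theorem twistedF4_eq : twistedF4 K e = (twF4 Θ).G1.map ((mF4 K).inc linkF4) := by
  rw [twistedF4, (mF4 K).genSubgroup_eq linkF4]
  congr 1
  refine le_antisymm ((Subgroup.closure_le _).2 ?_) (iSup_le fun i => ?_)
  · rintro _ ⟨w, hw, rfl⟩
    rcases hw with ⟨t, rfl | rfl⟩ | ⟨t, u, rfl | rfl⟩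
    · exact (twF4 Θ).XJ_inf_le_G1 (ndF4 0) ((fixF4p0 Θ _).2 ⟨t, rfl⟩)
    · exact (twF4 Θ).YJ_inf_le_G1 (ndF4 0) ((fixF4m0 Θ _).2 ⟨t, rfl⟩)
    · exact (twF4 Θ).XJ_inf_le_G1 (ndF4 1) ((fixF4p1 Θ _).2 ⟨(t, u), rfl⟩)
    · exact (twF4 Θ).YJ_inf_le_G1 (ndF4 1) ((fixF4m1 Θ _).2 ⟨(t, u), rfl⟩)
  · rw [twF4_sym]
    rcases orbF4_cases i with h | h <;> rw [h.1] <;> refine sup_le (fun g hg => ?_) fun g hg => ?_
    · obtain ⟨t, rfl⟩ := (fixF4p0 Θ g).1 hg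
      exact Subgroup.subset_closure ⟨_, Or.inl ⟨t, Or.inl rfl⟩, rfl⟩
    · obtain ⟨t, rfl⟩ := (fixF4m0 Θ g).1 hg
      exact Subgroup.subset_closure ⟨_, Or.inl ⟨t, Or.inr rfl⟩, rfl⟩
    · obtain ⟨t, rfl⟩ := (fixF4p1 Θ g).1 hg
      exact Subgroup.subset_closure ⟨_, Or.inr ⟨t.1, t.2, Or.inl rfl⟩, rfl⟩
    · obtain ⟨t, rfl⟩ := (fixF4m1 Θ g).1 hg
      exact Subgroup.subset_closure ⟨_, Or.inr ⟨t.1, t.2, Or.inr rfl⟩, rfl⟩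

theorem cardXF4 [Fintype K] (i : Fin chevF4.rank) :
    Nat.card ↥((PF4 K).XJ ((twF4 Θ).orb i) ⊓ (twF4 Θ).Fix) = Fintype.card K ^ eF4 i := by
  rw [twF4_sym]
  rcases orbF4_cases i with h | h <;> rw [h.1, h.2]
  · rw [card_of_param (fixF4p0 Θ) fun t u e => (lstF4p0.inj2.1 e).2, Nat.card_eq_fintype_card, pow_one]
  · rw [card_of_param (fixF4p1 Θ) fun t u e => ?_, Nat.card_eq_fintype_card, Fintype.card_prod, sq]
    obtain ⟨-, h1, h2, -⟩ := lstF4p1.inj4.1 e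
    exact Prod.ext h1 (by rw [h1] at h2; exact add_left_cancel h2)

end

end Cfsg.Agent.Chev
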