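/-
The twisted group of type 2G2 as the group of a twist.
-/
import Cfsg.Agent.Chev.TwTheta
import Cfsg.Agent.Chev.AutMain

set_option autoImplicit false

namespace Cfsg.Agent.Chev

open Cfsg.Lie

/-- the diagram symmetry of type G2 -/
noncomputable def symG2 : rsG2.Sym :=
  twOKG2.sym linkG2 (permOf _ (dec8 0x0001) (dec8 0x0001) (by decide +kernel))
    (by decide +kernel) (by decide +kernel)

theorem mem_orbG2 (i j : Fin chevG2.rank) : j ∈ symG2.orb i ↔ (fun _ => 0) (j : ℕ) = (fun _ => 0) (i : ℕ) :=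
  symG2.mem_orb_iff_of (fun _ => 0) (by decide +kernel) (by decide +kernel) i j

/-- node of the diagram -/
def ndG2 (i : ℕ) (h : i < 2 := by decide) : Fin chevG2.rank := ⟨i, h⟩

theorem orbG2_univ (i : Fin chevG2.rank) : symG2.orb i = Set.univ :=
  Set.eq_univ_of_forall fun j => (mem_orbG2 i j).2 rfl

theorem lstG2p : Lst rsG2 {r | rsG2.IsPos r ∧ rsG2.InJ Set.univ r} [g2a, g2b, g2ab, g2aab, g2aaab, g2aaabb] :=
  orbG2_univ (ndG2 0) ▸ lst_pos (o := fun _ => 0) mem_orbG2 _ (by decide +kernel)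
theorem lstG2m :
    Lst rsG2 {r | ¬ rsG2.IsPos r ∧ rsG2.InJ Set.univ r} [g2ma, g2mb, g2mab, g2maab, g2maaab, g2maaabb] :=
  orbG2_univ (ndG2 0) ▸ lst_neg (o := fun _ => 0) mem_orbG2 _ (by decide +kernel)

section
variable (K : Type*) [Field K]

theorem mG2 : MatRel chevG2 K := matRel_of_mem K memG2

/-- the group G2(K) with its root elements -/
abbrev PG2 : St rsG2 K ((mG2 K).GG linkG2) := (mG2 K).st linkG2

/-- the root elements of G2(K), indexed by natural numbers -/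
abbrev YG2 : DRel chevG2 K ((mG2 K).GG linkG2) := (mG2 K).gr linkG2

theorem XJ_univ_G2 : (PG2 K).XJ Set.univ = (PG2 K).U := by
  simp [St.XJ, St0.U, RootSys.InJ]

variable {K} {e : ℕ} (Θ : TwTheta K 3 e)

theorem exqG2_cases : ∀ r : Fin chevG2.nroots, exqG2 r = 1 ∨ exqG2 r = 3 := by decide +kernel

theorem phiG2_eq (r : Fin chevG2.nroots) (t : K) :
    (if exqG2 r = 1 then Θ.θ else Θ.φ) t = Θ.θ t ^ exqG2 r := by
  rcases exqG2_cases r with h | h <;> simp [h, Θ.φ_eq]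

/-- the twist of G2(K) -/
noncomputable def twG2 : Twist (PG2 K) :=
  twOKG2.twist linkG2 symG2 rfl (mG2 K) Θ.char Θ.θ (fun r => if exqG2 r = 1 then Θ.θ else Θ.φ) (phiG2_eq Θ)

theorem twG2_sym : (twG2 Θ).toSym = symG2 := rfl

theorem twG2_φ (r : Fin chevG2.nroots) : (twG2 Θ).φ r = if exqG2 r = 1 then Θ.θ else Θ.φ := rfl

theorem twG2_y {r : ℕ} (hr : r < 12) (t : K) :
    (twG2 Θ).σ ((YG2 K).y r t) = (YG2 K).y (rhoG2 r) (gamG2 r * Θ.θ t ^ exqG2 r) :=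
  twOKG2.twist_y linkG2 symG2 rfl (mG2 K) Θ.char Θ.θ _ (phiG2_eq Θ) hr t

/-- short roots -/
theorem twG2_s {r s : ℕ} (h : r < 12 ∧ rhoG2 r = s ∧ gamG2 r = 1 ∧ exqG2 r = 3) (t : K) :
    (twG2 Θ).σ ((YG2 K).y r t) = (YG2 K).y s (Θ.φ t) := by
  rw [twG2_y Θ h.1, h.2.1, h.2.2.1, h.2.2.2, Int.cast_one, one_mul, Θ.φ_eq]

/-- long roots -/
theorem twG2_l {r s : ℕ} (h : r < 12 ∧ rhoG2 r = s ∧ gamG2 r = 1 ∧ exqG2 r = 1) (t : K) :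
    (twG2 Θ).σ ((YG2 K).y r t) = (YG2 K).y s (Θ.θ t) := by
  rw [twG2_y Θ h.1, h.2.1, h.2.2.1, h.2.2.2, Int.cast_one, one_mul, pow_one]

include Θ in
theorem commG2 {r s : ℕ} (h : comB 12 3 (fN rowsG2) (fP rowsG2) r s = true) (t u : K) :
    Commute ((YG2 K).y r t) ((YG2 K).y s u) := (mG2 K).gr_commute linkG2 tabG2 Θ.char h t u

theorem fixG2_six {S : Set (Fin chevG2.nroots)} {a b c d f k : ℕ} {ε δ : ℤ}
    (h : Lst rsG2 S [a, b, c, d, f, k]) (h1 : (a < 12 ∧ rhoG2 a = b ∧ gamG2 a = 1 ∧ exqG2 a = 3) ∧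
      (b < 12 ∧ rhoG2 b = a ∧ gamG2 b = 1 ∧ exqG2 b = 1) ∧
      (c < 12 ∧ rhoG2 c = f ∧ gamG2 c = 1 ∧ exqG2 c = 3) ∧
      (d < 12 ∧ rhoG2 d = k ∧ gamG2 d = 1 ∧ exqG2 d = 3) ∧
      (f < 12 ∧ rhoG2 f = c ∧ gamG2 f = 1 ∧ exqG2 f = 1) ∧
      (k < 12 ∧ rhoG2 k = d ∧ gamG2 k = 1 ∧ exqG2 k = 1) ∧
      (comB 12 3 (fN rowsG2) (fP rowsG2) c d = true ∧ comB 12 3 (fN rowsG2) (fP rowsG2) c f = true ∧
      comB 12 3 (fN rowsG2) (fP rowsG2) c k = true ∧ comB 12 3 (fN rowsG2) (fP rowsG2) d f = true ∧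
      comB 12 3 (fN rowsG2) (fP rowsG2) d k = true ∧ comB 12 3 (fN rowsG2) (fP rowsG2) f k = true) ∧
      (a < 12 ∧ b < 12 ∧ b ≠ a ∧ a + b + 1 ≠ 12 ∧
        cT (fN rowsG2) (fP rowsG2) a b = [(c, -ε, 1, 1), (d, δ, 2, 1), (f, ε, 3, 1), (k, δ, 3, 2)]))
    (g : (mG2 K).GG linkG2) :
    g ∈ (PG2 K).X S ⊓ (twG2 Θ).Fix ↔ ∃ t u v : K, g = (YG2 K).word
      [(a, Θ.θ t), (b, t), (c, ε * (Θ.θ t * t) + Θ.θ u), (d, δ * (Θ.θ t ^ 2 * t) + Θ.θ v), (f, u), (k, v)] := by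
  obtain ⟨ha, hb, hc, hd, hf, hk, ⟨h1, h2, h3, h4, h5, h6⟩, hab⟩ := h1
  rw [h.fixG (c1 := (ε : K)) (c2 := (δ : K)) (c3 := -(ε : K)) (c4 := -(δ : K)) (twG2_s Θ ha) (twG2_l Θ hb) (twG2_s Θ hc) (twG2_s Θ hd)
    (twG2_l Θ hf) (twG2_l Θ hk) (fun t u => by
      rw [(mG2 K).gr_comm linkG2 tabG2 hab]
      simp [DRel.val, show (-t) ^ 3 = -t ^ 3 by ring])
    (commG2 Θ h1) (commG2 Θ h2) (commG2 Θ h3) (commG2 Θ h4) (commG2 Θ h5) (commG2 Θ h6)]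
  constructor
  · rintro ⟨_, u, _, _, y, z, ⟨rfl, h3, rfl, rfl, -⟩, rfl⟩
    exact ⟨u, y, z, by simp only [Θ.φθ, mul_assoc]⟩
  · rintro ⟨t, u, v, rfl⟩
    refine ⟨_, _, _, _, _, _, ⟨rfl, Θ.φθ t, by rw [Θ.φθ, mul_assoc], by rw [Θ.φθ, mul_assoc], ?_, ?_⟩, rfl⟩ <;>
      simp only [map_add, map_mul, map_pow, map_intCast, Θ.φθ, ← Θ.φ_eq] <;> ring

theorem fixG2p (g : (mG2 K).GG linkG2) : g ∈ (PG2 K).XJ Set.univ ⊓ (twG2 Θ).Fix ↔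
    ∃ p : K × K × K, g = (YG2 K).word (reeWordU e p.1 p.2.1 p.2.2) := by
  rw [St.XJ, fixG2_six Θ (ε := 1) (δ := 1) lstG2p (by decide +kernel) g]
  simp [reeWordU, Θ.θ_eq, pow_succ, pow_mul']

theorem reeWordV_eq (t u v : K) : reeWordV e t u v =
    [(g2ma, -t ^ e), (g2mb, -t), (g2mab, -(t ^ (e + 1) + u ^ e)), (g2maab, -(t ^ (2 * e + 1) + v ^ e)),
      (g2maaab, -u), (g2maaabb, -v)] := rfl

theorem fixG2m (g : (mG2 K).GG linkG2) : g ∈ (PG2 K).YJ Set.univ ⊓ (twG2 Θ).Fix ↔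
    ∃ p : K × K × K, g = (YG2 K).word (reeWordV e p.1 p.2.1 p.2.2) := by
  rw [St.YJ, fixG2_six Θ (ε := -1) (δ := 1) lstG2m (by decide +kernel) g]
  have key : ∀ t u v : K, [(g2ma, Θ.θ (-t)), (g2mb, -t), (g2mab, ((-1 : ℤ) : K) * (Θ.θ (-t) * -t) + Θ.θ (-u)),
      (g2maab, ((1 : ℤ) : K) * (Θ.θ (-t) ^ 2 * -t) + Θ.θ (-v)), (g2maaab, -u), (g2maaabb, -v)] =
      reeWordV e t u v := fun t u v => by
    simp only [map_neg]
    simp only [reeWordV_eq, Θ.θ_eq, pow_succ, pow_mul', List.cons.injEq, Prod.mk.injEq, true_and, and_true]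
    constructor <;> push_cast <;> ring
  constructor
  · rintro ⟨t, u, v, rfl⟩
    exact ⟨(-t, -u, -v), by rw [← key]; simp only [neg_neg]⟩
  · rintro ⟨⟨t, u, v⟩, rfl⟩
    exact ⟨-t, -u, -v, by rw [key]⟩

theorem goodG2 : (twG2 Θ).Good where
  faithful := (mG2 K).st_faithful linkG2
  neg i := by
    rw [twG2_sym, orbG2_univ]
    exact lstG2m.ne_bot [-1 ^ e, -1, -(1 ^ (e + 1) + 0 ^ e), -(1 ^ (2 * e + 1) + 0 ^ e), -0, -0] rfl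
      ((fixG2m Θ _).2 ⟨(1, 0, 0), rfl⟩) (by simp)

theorem hposG2 (i : Fin chevG2.rank) : ∃ (l : List (Fin chevG2.nroots)) (t : Fin chevG2.nroots → K), l.Nodup ∧
    (∀ r ∈ l, rsG2.IsPos r ∧ rsG2.InJ ((twG2 Θ).orb i) r) ∧ rsG2.simple i ∈ l ∧ t (rsG2.simple i) ≠ 0 ∧
      (PG2 K).prod l t ∈ (twG2 Θ).Fix := by
  rw [twG2_sym, orbG2_univ]
  have hs : ∀ i : Fin chevG2.rank, (rsG2.simple i : ℕ) ≠ g2ab ∧ (rsG2.simple i : ℕ) ≠ g2aab := by decide +kernel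
  refine lstG2p.hpos (fun r => if r = g2ab ∨ r = g2aab then 1 + 1 else 1) ((fixG2p Θ _).2 ⟨(1, 1, 1), ?_⟩).2
    (Set.mem_univ i) (by simp [hs i])
  simp [reeWordU, g2a, g2b, g2ab, g2aab, g2aaab, g2aaabb]

theorem twG2_G1 : (twG2 Θ).G1 = (PG2 K).XJ Set.univ ⊓ (twG2 Θ).Fix ⊔ (PG2 K).YJ Set.univ ⊓ (twG2 Θ).Fix := by
  have : Nonempty (Fin chevG2.rank) := ⟨ndG2 0⟩
  simp only [Twist.G1, twG2_sym, orbG2_univ, iSup_const]

theorem twistedG2_eq : twistedG2 K e = (twG2 Θ).G1.map ((mG2 K).inc linkG2) := by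
  rw [twistedG2, (mG2 K).genSubgroup_eq linkG2, twG2_G1]
  congr 1
  refine le_antisymm ((Subgroup.closure_le _).2 ?_) (sup_le (fun g hg => ?_) fun g hg => ?_)
  · rintro _ ⟨w, ⟨t, u, v, rfl | rfl⟩, rfl⟩
    · exact Subgroup.mem_sup_left ((fixG2p Θ _).2 ⟨(t, u, v), rfl⟩)
    · exact Subgroup.mem_sup_right ((fixG2m Θ _).2 ⟨(t, u, v), rfl⟩)
  · obtain ⟨t, rfl⟩ := (fixG2p Θ g).1 hg
    exact Subgroup.subset_closure ⟨_, ⟨_, _, _, Or.inl rfl⟩, rfl⟩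
  · obtain ⟨t, rfl⟩ := (fixG2m Θ g).1 hg
    exact Subgroup.subset_closure ⟨_, ⟨_, _, _, Or.inr rfl⟩, rfl⟩

theorem cardXG2 [Fintype K] :
    Nat.card ↥((PG2 K).XJ Set.univ ⊓ (twG2 Θ).Fix) = Fintype.card K ^ 3 := by
  rw [card_of_param (fixG2p Θ) fun t u e => ?_, Nat.card_eq_fintype_card, Fintype.card_prod, Fintype.card_prod,
    pow_three]
  obtain ⟨-, h1, -, -, h2, h3⟩ := lstG2p.inj6.1 e
  exact Prod.ext h1 (Prod.ext h2 h3)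

end

end Cfsg.Agent.Chev
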