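/-
Weighted sums over the fixed subgroup of the Weyl group under a diagram symmetry.
-/
import Cfsg.Agent.Chev.TwField

set_option autoImplicit false

namespace Cfsg.Agent.Chev

variable {ι R : Type} [Fintype ι] [DecidableEq ι] [Fintype R] [LinearOrder R]

namespace RootSys

variable (Φ : RootSys ι R)

theorem act_word (l : List ι) (r : R) : Φ.act (l.map Φ.s).prod r = l.foldr Φ.refl r := by
  induction l with
  | nil => simp
  | cons i l ih => simp [Φ.act_mul, ih]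

theorem wact_word (l : List ι) (v : ι → ℤ) :
    Φ.wact (l.map Φ.s).prod v = l.foldr (fun i v j => v j - Φ.A j i * v i) v := by
  induction l with
  | nil => simp
  | cons i l ih => ext j; simp [Φ.wact_mul, ih, Φ.wact_s]

theorem word_mem_WJ {J : Set ι} {l : List ι} (h : ∀ i ∈ l, i ∈ J) : (l.map Φ.s).prod ∈ Φ.WJ J :=
  Subgroup.list_prod_mem _ fun _ hw => by
    obtain ⟨i, hi, rfl⟩ := List.mem_map.1 hw
    exact Φ.s_mem_WJ (h i hi)

theorem w0J_eq_word {J : Set ι} {l : List ι} (h : ∀ i ∈ l, i ∈ J)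
    (h' : ∀ j ∈ J, ¬ Φ.IsPos (l.foldr Φ.refl (Φ.simple j))) : Φ.w0J J = (l.map Φ.s).prod :=
  (Φ.eq_w0J (Φ.word_mem_WJ h) fun j hj => by rw [act_word]; exact h' j hj).symm

namespace Sym

variable {Φ} {S : Φ.Sym}

theorem Stable.orb_subset {J : Set ι} (hJ : S.Stable J) {i : ι} (hi : i ∈ J) : S.orb i ⊆ J := by
  rintro _ ⟨k, rfl⟩
  induction k with
  | zero => exact hi
  | succ k ih => rw [pow_succ', Equiv.Perm.mul_apply]; exact (hJ _).2 ih

theorem w0J_orb_mem_WJ {K : Set ι} (hK : S.Stable K) {i : ι} (hi : i ∈ K) : Φ.w0J (S.orb i) ∈ Φ.WJ K :=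
  Φ.WJ_mono (hK.orb_subset hi) (Φ.w0J_mem _)

/-- Induction on the fixed elements of a stable parabolic subgroup. -/
theorem W1_inductionJ {K : Set ι} (hK : S.Stable K) {p : Φ.W → Prop} (one : p 1)
    (step : ∀ w ∈ S.W1, w ∈ Φ.WJ K → ∀ i ∈ K, Φ.IsPos (Φ.act w (Φ.simple i)) → p w → p (w * Φ.w0J (S.orb i)))
    {w : Φ.W} (hw : w ∈ S.W1) (hwK : w ∈ Φ.WJ K) : p w := by
  induction hn : Φ.len w using Nat.strong_induction_on generalizing w with
  | _ n ih =>
  by_cases h1 : w = 1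
  · rw [h1]; exact one
  obtain ⟨i, hi, h⟩ := Φ.exists_simple_neg_mem hwK h1
  have h2 := mul_mem hw (S.w0J_orb_mem i)
  have h3 := mul_mem hwK (w0J_orb_mem_WJ hK hi)
  have h4 := (S.isPos_mul_w0J hw i).2 h
  have h5 := S.len_mul_w0J h2 h4
  have h6 : w * Φ.w0J (S.orb i) * Φ.w0J (S.orb i) = w := by rw [mul_assoc, Φ.w0J_mul_self, mul_one]
  have h7 : Φ.len (Φ.w0J (S.orb i)) ≠ 0 := by simpa using Φ.w0J_ne_one (S.self_mem_orb i)
  rw [h6] at h5
  have := step _ h2 h3 i hi h4 (ih _ (by omega) h2 h3 rfl)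
  rwa [h6] at this

variable (S)

open Classical in
/-- weighted sum over the fixed elements of a parabolic subgroup -/
noncomputable def poin1 {A : Type*} [CommSemiring A] (c : Φ.W → A) (K : Set ι) : A :=
  ∑ w ∈ Finset.univ.filter (fun w => w ∈ S.W1 ∧ w ∈ Φ.WJ K), c w

theorem poin1_empty {A : Type*} [CommSemiring A] (c : Φ.W → A) : S.poin1 c ∅ = c 1 := by
  classical
  unfold poin1
  rw [Finset.sum_eq_single 1] <;> simp +contextual [Φ.WJ_empty]

theorem poin1_univ {A : Type*} [CommSemiring A] (c : Φ.W → A) [Fintype S.W1] :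
    S.poin1 c Set.univ = ∑ w : S.W1, c w := by
  classical
  unfold poin1
  rw [← Finset.sum_subtype (p := fun w => w ∈ S.W1) (Finset.univ.filter fun w => w ∈ S.W1) (by simp)]
  simp [Φ.WJ_univ]

theorem card_W1 : Nat.card S.W1 = S.poin1 (fun _ => 1) Set.univ := by
  classical
  rw [poin1_univ]; simp

theorem poin1_step {A : Type*} [CommSemiring A] (c : Φ.W → A) (q : A) (e : ι → ℕ) (he : ∀ i, 0 < e i)
    (hc : ∀ w ∈ S.W1, ∀ i, Φ.IsPos (Φ.act w (Φ.simple i)) → c (w * Φ.w0J (S.orb i)) = c w * q ^ e i)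
    (K : Set ι) (hK : S.Stable K) {X : Type*} (O : Finset X)
    (wt : X → ι → ℤ) (hinj : Set.InjOn wt O) (sr : ι → X → X) (d : X → ℕ) (x0 : X) (hx0 : x0 ∈ O)
    (hd0 : d x0 = 0) (hsr : ∀ j ∈ K, ∀ x ∈ O, sr j x ∈ O ∧ wt (sr j x) = Φ.wact (Φ.w0J (S.orb j)) (wt x))
    (hdom : ∀ j ∈ K, 0 ≤ wt x0 j)
    (hdesc : ∀ x ∈ O, x ≠ x0 → ∃ j ∈ K, 0 < wt (sr j x) j ∧ d x = d (sr j x) + e j) :
    S.poin1 c K = (∑ x ∈ O, q ^ d x) * S.poin1 c {j | j ∈ K ∧ wt x0 j = 0} := by
  classical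
  let fib : (ι → ℤ) → A := fun μ =>
    ∑ w ∈ Finset.univ.filter (fun w => (w ∈ S.W1 ∧ w ∈ Φ.WJ K) ∧ Φ.wact w⁻¹ (wt x0) = μ), c w
  have h0 : fib (wt x0) = S.poin1 c {j | j ∈ K ∧ wt x0 j = 0} := by
    unfold poin1
    refine Finset.sum_congr ?_ fun _ _ => rfl
    ext w
    simp only [Finset.mem_filter, Finset.mem_univ, true_and]
    constructor
    · rintro ⟨h1, h2⟩; exact ⟨h1.1, inv_mem_iff.1 ((Φ.wact_eq_self_iff hdom (inv_mem h1.2)).1 h2)⟩
    · intro h
      have h1 : w ∈ Φ.WJ K := Φ.WJ_mono (fun j hj => hj.1) h.2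
      exact ⟨⟨h.1, h1⟩, (Φ.wact_eq_self_iff hdom (inv_mem h1)).2 (inv_mem h.2)⟩
  have hstep : ∀ j ∈ K, ∀ μ : ι → ℤ, 0 < μ j → fib (Φ.wact (Φ.w0J (S.orb j)) μ) = fib μ * q ^ e j := by
    intro j hj μ hμ
    simp only [fib, Finset.sum_mul]
    symm
    refine Finset.sum_bij' (fun w _ => w * Φ.w0J (S.orb j)) (fun w _ => w * Φ.w0J (S.orb j)) ?_ ?_ ?_ ?_ ?_
    · intro w hw
      simp only [Finset.mem_filter, Finset.mem_univ, true_and] at hw ⊢
      exact ⟨⟨mul_mem hw.1.1 (S.w0J_orb_mem j), mul_mem hw.1.2 (w0J_orb_mem_WJ hK hj)⟩, by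
        rw [mul_inv_rev, Φ.w0J_inv, Φ.wact_mul, hw.2]⟩
    · intro w hw
      simp only [Finset.mem_filter, Finset.mem_univ, true_and] at hw ⊢
      exact ⟨⟨mul_mem hw.1.1 (S.w0J_orb_mem j), mul_mem hw.1.2 (w0J_orb_mem_WJ hK hj)⟩, by
        rw [mul_inv_rev, Φ.w0J_inv, Φ.wact_mul, hw.2, ← Φ.wact_mul, Φ.w0J_mul_self, Φ.wact_one]⟩
    · intro w _; simp [mul_assoc, Φ.w0J_mul_self]
    · intro w _; simp [mul_assoc, Φ.w0J_mul_self]
    · intro w hw
      simp only [Finset.mem_filter, Finset.mem_univ, true_and] at hw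
      have : Φ.IsPos (Φ.act w (Φ.simple j)) := by
        by_contra hn
        have := Φ.wact_nonpos hdom (inv_mem hw.1.2) hj (by rwa [inv_inv])
        rw [hw.2] at this; omega
      rw [hc w hw.1.1 j this]
  have hfib : ∀ n, ∀ x ∈ O, d x = n → fib (wt x) = q ^ n * fib (wt x0) := by
    intro n
    induction n using Nat.strong_induction_on with
    | _ n ih =>
      intro x hx hd
      by_cases hxx : x = x0
      · subst hxx; rw [← hd, hd0]; simp
      obtain ⟨j, hj, hp, h⟩ := hdesc x hx hxx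
      obtain ⟨h1, h2⟩ := hsr j hj x hx
      have e1 : wt x = Φ.wact (Φ.w0J (S.orb j)) (wt (sr j x)) := by
        rw [h2, ← Φ.wact_mul, Φ.w0J_mul_self, Φ.wact_one]
      have := he j
      rw [e1, hstep j hj _ hp, ih _ (by omega) _ h1 rfl, ← hd, h, pow_add]; ring
  have hmem : ∀ w ∈ S.W1, w ∈ Φ.WJ K → ∃ x ∈ O, wt x = Φ.wact w⁻¹ (wt x0) := by
    intro w hw hwK
    refine W1_inductionJ (p := fun w => ∃ x ∈ O, wt x = Φ.wact w⁻¹ (wt x0)) hK ⟨x0, hx0, by simp⟩ ?_ hw hwK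
    rintro w - - j hj - ⟨x, hx, e1⟩
    obtain ⟨h1, h2⟩ := hsr j hj x hx
    exact ⟨_, h1, by rw [h2, e1, mul_inv_rev, Φ.w0J_inv, Φ.wact_mul]⟩
  rw [← h0, Finset.sum_mul]
  have : ∑ x ∈ O, q ^ d x * fib (wt x0) = ∑ μ ∈ O.image wt, fib μ := by
    rw [Finset.sum_image hinj]
    exact Finset.sum_congr rfl fun x hx => (hfib _ x hx rfl).symm
  rw [this]
  unfold poin1
  rw [← Finset.sum_fiberwise_of_maps_to (t := O.image wt) (g := fun w => Φ.wact w⁻¹ (wt x0))]
  · refine Finset.sum_congr rfl fun μ _ => Finset.sum_congr ?_ fun _ _ => rfl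
    ext w; simp
  · intro w hw
    simp only [Finset.mem_filter, Finset.mem_univ, true_and] at hw
    obtain ⟨x, hx, e1⟩ := hmem w hw.1 hw.2
    exact Finset.mem_image.2 ⟨x, hx, e1⟩

/-- The orbit recursion, with the orbit given by tables. -/
theorem poin1_list {A : Type*} [CommSemiring A] (c : Φ.W → A) (q : A) (e : ι → ℕ)
    (hc : ∀ w ∈ S.W1, ∀ i, Φ.IsPos (Φ.act w (Φ.simple i)) → c (w * Φ.w0J (S.orb i)) = c w * q ^ e i)
    (wd : ι → List ι) (hw : ∀ i, Φ.w0J (S.orb i) = ((wd i).map Φ.s).prod) (K K0 : ι → Bool)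
    (wt : ℕ → ι → ℤ) (sr : ι → ℕ → ℕ) (dl : List ℕ)
    (h : (∀ i, 0 < e i) ∧ (∀ j, K (S.τ j) = K j) ∧ 0 < dl.length ∧ dl.getD 0 0 = 0 ∧
      (∀ x < dl.length, ∀ y < dl.length, (∀ j, wt x j = wt y j) → x = y) ∧
      (∀ j, K j = true → ∀ x < dl.length, sr j x < dl.length ∧
        ∀ k, wt (sr j x) k = (wd j).foldr (fun i v j => v j - Φ.A j i * v i) (wt x) k) ∧
      (∀ j, K j = true → 0 ≤ wt 0 j) ∧ (∀ j, K0 j = true ↔ K j = true ∧ wt 0 j = 0) ∧
      ∀ x < dl.length, x ≠ 0 → ∃ j, K j = true ∧ 0 < wt (sr j x) j ∧ dl.getD x 0 = dl.getD (sr j x) 0 + e j) :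
    S.poin1 c {j | K j = true} = (dl.map fun d => q ^ d).sum * S.poin1 c {j | K0 j = true} := by
  obtain ⟨h1, h2, h3, h4, h5, h6, h7, h8, h9⟩ := h
  rw [S.poin1_step c q e h1 hc {j | K j = true} (fun j => by simp [h2]) (Finset.range dl.length) wt
    (fun x hx y hy e => h5 x (by simpa using hx) y (by simpa using hy) (congrFun e)) sr (fun x => dl.getD x 0) 0
    (by simpa using h3) h4 (fun j hj x hx => ⟨by simpa using (h6 j hj x (by simpa using hx)).1,
      funext fun k => by rw [hw, wact_word]; exact (h6 j hj x (by simpa using hx)).2 k⟩) h7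
    (fun x hx hx0 => h9 x (by simpa using hx) hx0)]
  congr 1
  · rw [Finset.sum_range, ← List.sum_ofFn]
    congr 1
    exact List.ext_getElem (by simp) fun i h1 h2 => by
      simp only [List.getElem_ofFn, List.getElem_map]
      rw [List.getD_eq_getElem]
  · congr 1; ext j; simp [h8]

theorem poin1_true {A : Type*} [CommSemiring A] (c : Φ.W → A) :
    S.poin1 c Set.univ = S.poin1 c {_j | true = true} := by simp

theorem poin1_false {A : Type*} [CommSemiring A] (c : Φ.W → A) : S.poin1 c {_j | false = true} = c 1 := by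
  simp [poin1_empty]

theorem s1_pow_eq_one (wd : ι → List ι) (hw : ∀ i, Φ.w0J (S.orb i) = ((wd i).map Φ.s).prod) {i j : ι} {m : ℕ}
    (h : ∀ k, (fun r => (wd i ++ wd j).foldr Φ.refl r)^[m] (Φ.simple k) = Φ.simple k) :
    (S.s1 i * S.s1 j) ^ m = 1 := by
  refine Subtype.ext (Φ.eq_of_act_simple_eq fun k => ?_)
  have key : ∀ m r, Φ.act ((Φ.w0J (S.orb i) * Φ.w0J (S.orb j)) ^ m) r =
      (fun r => (wd i ++ wd j).foldr Φ.refl r)^[m] r := fun m r => by
    induction m with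
    | zero => simp
    | succ m ih =>
      rw [pow_succ', act_mul, ih, Function.iterate_succ_apply', hw, hw, ← List.prod_append, ← List.map_append,
        act_word]
  simpa [key] using h k

theorem s1_eq_of_mem {i j : ι} (h : j ∈ S.orb i) : S.s1 j = S.s1 i :=
  Subtype.ext (by simp [S.orb_eq_of_mem h])

theorem equiv_of_hom {W : Type*} [Group W] (f : W →* S.W1) (hf : ∀ i, S.s1 i ∈ f.range)
    (hc : Nat.card W = Nat.card S.W1) : Nonempty (S.W1 ≃* W) := by
  have h1 : Function.Surjective f := by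
    rw [← MonoidHom.range_eq_top, eq_top_iff, ← S.closure_s1, Subgroup.closure_le]
    rintro _ ⟨i, rfl⟩; exact hf i
  have : Finite W := Nat.finite_of_card_ne_zero (by rw [hc]; exact Nat.card_pos.ne')
  exact ⟨(MulEquiv.ofBijective f ((Nat.bijective_iff_surjective_and_card f).2 ⟨h1, hc⟩)).symm⟩

theorem equiv_coxeter {B : Type*} (M : CoxeterMatrix B) (f : B → ι) (hf : ∀ i, ∃ b, i ∈ S.orb (f b))
    (hM : ∀ b b', (S.s1 (f b) * S.s1 (f b')) ^ M b b' = 1) (hc : Nat.card M.Group = Nat.card S.W1) :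
    Nonempty (S.W1 ≃* M.Group) :=
  S.equiv_of_hom (M.toCoxeterSystem.lift ⟨fun b => S.s1 (f b), hM⟩) (fun i => by
    obtain ⟨b, hb⟩ := hf i
    exact ⟨M.toCoxeterSystem.simple b, (M.toCoxeterSystem.lift_apply_simple hM b).trans (S.s1_eq_of_mem hb).symm⟩) hc

end Sym

end RootSys

/-- the homomorphism from a dihedral group defined by two involutions -/
theorem exists_dihedral_hom {G : Type*} [Group G] {a b : G} (ha : a * a = 1) (hb : b * b = 1) {n : ℕ}
    (hab : (a * b) ^ n = 1) : ∃ f : DihedralGroup n →* G, f (.sr 0) = a ∧ f (.sr 1) = b := by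
  let φ : ZMod n →+ Additive G := ZMod.lift n ⟨zmultiplesHom _ (Additive.ofMul (a * b)), by
    simpa using congrArg Additive.ofMul hab⟩
  let c : ZMod n → G := fun i => (φ i).toMul
  have c0 : c 0 = 1 := by simp [c]
  have c1 : c 1 = a * b := by
    have : φ ((1 : ℤ) : ZMod n) = _ := ZMod.lift_coe n _ 1
    simpa [c] using congrArg Additive.toMul this
  have cadd : ∀ i j, c (i + j) = c i * c j := fun i j => by simp [c]
  have cneg : ∀ i, c (-i) = (c i)⁻¹ := fun i => by simp [c]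
  have ha' : a⁻¹ = a := inv_eq_of_mul_eq_one_right ha
  have hb' : b⁻¹ = b := inv_eq_of_mul_eq_one_right hb
  have hconj : ∀ i, c i * a = a * (c i)⁻¹ := fun i => by
    obtain ⟨k, rfl⟩ := ZMod.intCast_surjective i
    have : φ (k : ZMod n) = _ := ZMod.lift_coe n _ k
    have h1 : c k = (a * b) ^ k := by simpa [c] using congrArg Additive.toMul this
    have h2 : SemiconjBy a (a * b)⁻¹ (a * b) := by
      simp [SemiconjBy, ha', hb', mul_assoc]
    rw [h1, ← inv_zpow]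
    exact (h2.zpow_right k).eq.symm
  refine ⟨MonoidHom.mk' (fun g => match g with | .r i => c i | .sr i => a * c i) ?_, show a * c 0 = a by simp [c0], ?_⟩
  · rintro (i | i) (j | j)
    · simp [cadd]
    · simp only [DihedralGroup.r_mul_sr]
      rw [← mul_assoc, hconj, sub_eq_neg_add, cadd, cneg, mul_assoc]
    · simp [cadd, mul_assoc]
    · simp only [DihedralGroup.sr_mul_sr]
      rw [mul_assoc, ← mul_assoc (c i), hconj, ← mul_assoc, ← mul_assoc, ha, one_mul, sub_eq_neg_add, cadd, cneg]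
  · show a * c 1 = b
    simp [c1, ← mul_assoc, ha]

end Cfsg.Agent.Chev
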