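/-
The diagonal subgroup of a twisted group.
-/
import Cfsg.Agent.Chev.TwPoin
import Cfsg.Agent.Chev.StTorus

set_option autoImplicit false

namespace Cfsg.Agent.Chev

open Cfsg.Lie St0 St

section mon

variable {ι A : Type*} [Fintype ι] [DecidableEq ι] [CommGroup A]

theorem prod_zpow_eq_one {M : Matrix ι ι ℤ} {c : ι → A} (h : mon A M c = 1) (b : ι → ℤ) :
    ∏ i, c i ^ ∑ j, M i j * b j = 1 := by
  have := mon_mul M (Matrix.of fun j _ => b j) c
  rw [h, map_one] at this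
  rcases isEmpty_or_nonempty ι with h0 | ⟨⟨k⟩⟩
  · simp
  · exact congrFun this k

theorem pow_eq_one_of_mon {M : Matrix ι ι ℤ} {c : ι → A} (h : mon A M c = 1) {m : ℕ} (B : ι → ι → ℤ)
    (hB : ∀ i k, ∑ j, M i j * B j k = if i = k then (m : ℤ) else 0) : c ^ m = 1 := by
  ext k
  have := prod_zpow_eq_one h fun j => B j k
  simp only [hB] at this
  rw [Finset.prod_eq_single k] at this <;> simp_all

theorem mon_eq_one_iff_cyc {M : Matrix ι ι ℤ} (i0 : ι) (v : ι → ℕ) (m : ℕ) (B : ι → ι → ℤ) (b w : ι → ℤ)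
    (h : (∀ i k, ∑ j, M i j * B j k = (if i = k then 1 else 0) - if i = i0 then (v k : ℤ) else 0) ∧
      (∀ i, ∑ j, M i j * b j = if i = i0 then (m : ℤ) else 0) ∧ ∀ j, ∑ i, v i * M i j = m * w j) (c : ι → A) :
    mon A M c = 1 ↔ c i0 ^ m = 1 ∧ ∀ k, c k = c i0 ^ v k := by
  constructor
  · intro hc
    refine ⟨?_, fun k => ?_⟩
    · have := prod_zpow_eq_one hc b
      simp only [h.2.1] at this
      rw [Finset.prod_eq_single i0] at this <;> simp_all
    · have := prod_zpow_eq_one hc fun j => B j k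
      simp only [h.1, zpow_sub, Finset.prod_mul_distrib, Finset.prod_inv_distrib, mul_inv_eq_one] at this
      rw [Finset.prod_eq_single k (by simp +contextual) (by simp),
        Finset.prod_eq_single i0 (by simp +contextual) (by simp)] at this
      simpa using this
  · rintro ⟨h1, h2⟩
    ext j
    rw [mon_apply, Finset.prod_congr rfl fun i _ => by rw [h2 i, ← zpow_natCast, ← zpow_mul], ← zpow_sum_units,
      h.2.2, zpow_mul, zpow_natCast, h1, one_zpow, Pi.one_apply]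

end mon

theorem card_map_mul_card_inf_ker {G G' : Type*} [Group G] [Group G'] (f : G →* G') (C : Subgroup G) :
    Nat.card (C.map f) * Nat.card ↥(C ⊓ f.ker) = Nat.card C := by
  rw [← MonoidHom.domRestrict_range, ← Subgroup.index_ker, MonoidHom.ker_domRestrict, mul_comm,
    ← Subgroup.card_mul_index (f.ker.subgroupOf C), ← Subgroup.inf_subgroupOf_left,
    Nat.card_congr (Subgroup.subgroupOfEquivOfLe inf_le_left).toEquiv]

theorem triple_mul_triple {G : Type*} [Group G] {a b c d : G} (h1 : Commute a c) (h2 : Commute a d)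
    (h3 : Commute b c) : a * b * a * (c * d * c) = a * c * (b * d) * (a * c) := by
  simp only [mul_assoc]
  rw [h1.left_comm, h2.left_comm, h3.left_comm]

variable {ι R : Type} [Fintype ι] [DecidableEq ι] [Fintype R] [LinearOrder R]
  {Φ : RootSys ι R} {F G : Type*} [Field F] [Group G] {P : St Φ F G}

theorem St.Adj.hT_eq_one_iff (hadj : P.Adj) (hP : P.Faithful) (c : ι → Fˣ) :
    P.hT c = 1 ↔ mon Fˣ (Matrix.of Φ.A) c = 1 := by
  constructor
  · intro h
    ext1 j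
    have := P.hT_conj c (Φ.simple j) 1
    rw [h, one_mul, inv_one, mul_one, mul_one, St.chi_simple] at this
    exact Units.ext (hP.x_injective _ this).symm
  · intro h
    refine hadj _ (P.hT_mem_H c) fun r t => ?_
    rw [P.hT_conj, St.chi_eq_prod]
    simp [St.chi_simple, h]

theorem St.conj_hT {g : G} {w : Φ.W} (h : P.Rep g w) (c : ι → Fˣ) :
    g * P.hT c * g⁻¹ = P.hT (mon Fˣ (Matrix.of fun j k => Φ.co (Φ.act w (Φ.simple j)) k) c) := by
  induction c using hT_induction with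
  | one => simp
  | mul a b ha hb => rw [map_mul, map_mul, map_mul, ← ha, ← hb]; group
  | single i c =>
    rw [hT_mulSingle, conj_h h _ c.ne_zero, h_eq_hT]
    congr 1
    ext1 k
    rw [mon_apply, Finset.prod_eq_single i] <;> simp +contextual

theorem St.hT_eq_list (P : St Φ F G) (l : List ι) (h : l.Nodup ∧ ∀ i, i ∈ l) (c : ι → Fˣ) :
    P.hT c = (l.map fun i => P.h (Φ.simple i) (c i)).prod := by
  have h1 : c = (l.map fun i => Pi.mulSingle i (c i)).prod := by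
    rw [← List.prod_toFinset _ h.1, show l.toFinset = Finset.univ from Finset.eq_univ_of_forall (by simpa using h.2),
      Finset.univ_prod_mulSingle]
  conv_lhs => rw [h1, map_list_prod, List.map_map]
  congr 1
  exact List.map_congr_left fun i _ => P.hT_mulSingle i _

/-- the rank one subgroups attached to `r` and `s` commute -/
def St0.Orth (P : St0 Φ F G) (r s : R) : Prop := ∀ t u, Commute (P.x r t) (P.x s u) ∧
  Commute (P.x r t) (P.x (Φ.neg s) u) ∧ Commute (P.x (Φ.neg r) t) (P.x s u) ∧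
  Commute (P.x (Φ.neg r) t) (P.x (Φ.neg s) u)

theorem St0.Orth.commute_n {P : St0 Φ F G} {r s : R} (h : P.Orth r s) (t u : F) : Commute (P.n r t) (P.n s u) :=
  have k : ∀ u, Commute (P.n r t) (P.x s u) ∧ Commute (P.n r t) (P.x (Φ.neg s) u) := fun u =>
    ⟨((h _ _).1.mul_left (h _ _).2.2.1).mul_left (h _ _).1,
      ((h _ _).2.1.mul_left (h _ _).2.2.2).mul_left (h _ _).2.1⟩
  ((k _).1.mul_right (k _).2).mul_right (k _).1

theorem St.h_mem_one {K : Subgroup G} {r : R} {p : F → Prop} (h1 : p 1) (hp : ∀ t, p t → p (-t⁻¹))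
    (h : ∀ t, p t → P.x r t ∈ K ∧ P.x (Φ.neg r) t ∈ K) {t : F} (ht : p t) : P.h r t ∈ K := by
  have k : ∀ t, p t → P.n r t ∈ K := fun t ht =>
    mul_mem (mul_mem (h _ ht).1 (h _ (hp _ ht)).2) (h _ ht).1
  rw [h_eq]
  exact mul_mem (k _ ht) (inv_mem (k _ h1))

theorem St.h_mem_two {K : Subgroup G} {r s : R} (hrs : P.Orth r s) (f g : F ≃+* F)
    (h : ∀ t, P.x r (f t) * P.x s (g t) ∈ K ∧ P.x (Φ.neg r) (f t) * P.x (Φ.neg s) (g t) ∈ K) (t : F) :
    P.h r (f t) * P.h s (g t) ∈ K := by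
  have k : ∀ t, P.n r (f t) * P.n s (g t) ∈ K := fun t => by
    rw [St0.n, St0.n, triple_mul_triple (hrs _ _).1 (hrs _ _).2.1 (hrs _ _).2.2.1]
    exact mul_mem (mul_mem (h _).1 (by simpa using (h (-t⁻¹)).2)) (h _).1
  have := mul_mem (k t) (inv_mem (k 1))
  rw [map_one, map_one, (hrs.commute_n 1 1).eq, mul_inv_rev, mul_assoc, ← mul_assoc (P.n s _),
    ← (hrs.commute_n 1 _).inv_left.eq] at this
  simpa only [h_eq, mul_assoc] using this

theorem St.h_mem_three {K : Subgroup G} {r s k : R} (hrs : P.Orth r s) (hrk : P.Orth r k) (hsk : P.Orth s k)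
    (f g : F ≃+* F) (h : ∀ t, P.x r t * (P.x s (f t) * P.x k (g t)) ∈ K ∧
      P.x (Φ.neg r) t * (P.x (Φ.neg s) (f t) * P.x (Φ.neg k) (g t)) ∈ K) (t : F) :
    P.h r t * (P.h s (f t) * P.h k (g t)) ∈ K := by
  have k : ∀ t, P.n r t * (P.n s (f t) * P.n k (g t)) ∈ K := fun t => by
    rw [St0.n, St0.n, St0.n, triple_mul_triple (hsk _ _).1 (hsk _ _).2.1 (hsk _ _).2.2.1,
      triple_mul_triple ((hrs _ _).1.mul_right (hrk _ _).1) ((hrs _ _).2.1.mul_right (hrk _ _).2.1)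
        ((hrs _ _).2.2.1.mul_right (hrk _ _).2.2.1)]
    exact mul_mem (mul_mem (h _).1 (by simpa using (h (-t⁻¹)).2)) (h _).1
  have := mul_mem (k t) (inv_mem (k 1))
  rw [map_one, map_one, (hsk.commute_n 1 1).eq, ((hrk.commute_n 1 1).mul_right (hrs.commute_n 1 1)).eq] at this
  simpa only [h_eq, mul_assoc, mul_inv_rev, (hrs.commute_n 1 _).inv_left.left_comm,
    (hrk.commute_n 1 _).inv_left.left_comm, (hsk.commute_n 1 _).inv_left.left_comm,
    (hrs.commute_n 1 1).inv_inv.left_comm] using this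

namespace Twist

variable (T : Twist P)

/-- the action of the twist on the torus -/
def σT : (ι → Fˣ) →* (ι → Fˣ) where
  toFun c j := Units.map (T.φ (Φ.simple (T.τ.symm j)) : F →* F) (c (T.τ.symm j))
  map_one' := by ext1; simp
  map_mul' a b := by ext1; simp

theorem coe_σT (c : ι → Fˣ) (i : ι) : (T.σT c (T.τ i) : F) = T.φ (Φ.simple i) (c i) := by simp [σT]

theorem σ_hT (c : ι → Fˣ) : T.σ (P.hT c) = P.hT (T.σT c) := by
  induction c using hT_induction with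
  | one => simp
  | mul a b ha hb => simp only [map_mul, ha, hb]
  | single i c =>
    rw [hT_mulSingle, T.σ_h _ _ c.ne_zero, T.ρ_simple]
    refine (P.hT_mulSingle _ (Units.map (T.φ (Φ.simple i) : F →* F) c)).symm.trans (congrArg _ ?_)
    ext j
    obtain ⟨j, rfl⟩ := T.τ.surjective j
    rw [coe_σT]
    by_cases hj : j = i
    · subst hj; simp
    · simp [hj]

/-- the fixed points in the torus -/
def CT : Subgroup (ι → Fˣ) := T.σT.eqLocus (MonoidHom.id _)

theorem mem_CT' {c : ι → Fˣ} : c ∈ T.CT ↔ T.σT c = c := Iff.rfl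

theorem mem_CT {c : ι → Fˣ} : c ∈ T.CT ↔ ∀ i, T.φ (Φ.simple i) (c i) = c (T.τ i) := by
  rw [mem_CT', funext_iff, T.τ.surjective.forall]
  simp only [Units.ext_iff, coe_σT]

theorem hT_mem_Fix {c : ι → Fˣ} (hc : c ∈ T.CT) : P.hT c ∈ T.Fix := by
  rw [mem_Fix, σ_hT, T.mem_CT'.1 hc]

theorem σT_ker {c : ι → Fˣ} (hc : P.hT c = 1) : P.hT (T.σT c) = 1 := by rw [← σ_hT, hc, map_one]

theorem H_inf_G1 (h1 : ∀ c, P.hT (T.σT c / c) = 1 → ∃ z, P.hT z = 1 ∧ T.σT c / c = z / T.σT z)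
    (h2 : ∀ c ∈ T.CT, P.hT c ∈ T.G1) : P.H ⊓ T.G1 = T.CT.map P.hT := by
  refine le_antisymm (fun g hg => ?_) ?_
  · obtain ⟨c, rfl⟩ := P.exists_hT hg.1
    obtain ⟨z, hz, e⟩ := h1 c (by rw [map_div, ← σ_hT, T.mem_Fix.1 (T.G1_le_Fix hg.2), div_self'])
    exact ⟨c * z, T.mem_CT'.2 (by rw [map_mul, div_eq_div_iff_mul_eq_mul.1 e, mul_comm]), by simp [hz]⟩
  · rintro _ ⟨c, hc, rfl⟩
    exact ⟨P.hT_mem_H c, h2 c hc⟩

theorem card_H1 (h1 : ∀ c, P.hT (T.σT c / c) = 1 → ∃ z, P.hT z = 1 ∧ T.σT c / c = z / T.σT z)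
    (h2 : ∀ c ∈ T.CT, P.hT c ∈ T.G1) :
    Nat.card ↥(P.H ⊓ T.G1) * Nat.card ↥(T.CT ⊓ P.hT.ker) = Nat.card T.CT := by
  rw [T.H_inf_G1 h1 h2, card_map_mul_card_inf_ker]

theorem coh_two (h : ∀ c, T.σT (T.σT c) = c) (h3 : ∀ z, P.hT z = 1 → z ^ 3 = 1) (c : ι → Fˣ)
    (hc : P.hT (T.σT c / c) = 1) : ∃ z, P.hT z = 1 ∧ T.σT c / c = z / T.σT z := by
  refine ⟨(T.σT c / c) ^ 2, by rw [map_pow, hc, one_pow], ?_⟩
  rw [map_pow, map_div, h, ← inv_div (T.σT c) c, inv_pow, div_inv_eq_mul, ← pow_add, pow_succ, h3 _ hc, one_mul]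

theorem coh_three (h : ∀ c, T.σT (T.σT (T.σT c)) = c) (h2 : ∀ z, P.hT z = 1 → z ^ 2 = 1) (c : ι → Fˣ)
    (hc : P.hT (T.σT c / c) = 1) : ∃ z, P.hT z = 1 ∧ T.σT c / c = z / T.σT z := by
  refine ⟨T.σT (T.σT c / c), T.σT_ker hc, ?_⟩
  have h3 := h2 _ (T.σT_ker hc)
  rw [sq, mul_eq_one_iff_eq_inv] at h3
  conv_rhs => lhs; rw [h3]
  simp only [map_div, h, inv_div]
  rw [div_div_div_cancel_right]

theorem card_H1_of_injective (h1 : Function.Injective P.hT) (h2 : ∀ c ∈ T.CT, P.hT c ∈ T.G1) :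
    Nat.card ↥(P.H ⊓ T.G1) = Nat.card T.CT := by
  rw [T.H_inf_G1 (fun c hc => ⟨1, map_one _, by simpa using (map_eq_one_iff _ h1).1 hc⟩) h2,
    Subgroup.card_map_of_injective h1]

theorem conj_mem_G1 {k g : G} (hk : k ∈ P.H ⊓ T.Fix) (hg : g ∈ T.G1) : k * g * k⁻¹ ∈ T.G1 := by
  have key : ∀ S : Set R, P.X S ⊓ T.Fix ≤ T.G1 → P.X S ⊓ T.Fix ≤ T.G1.comap (MulAut.conj k).toMonoidHom :=
    fun S hS g hg => hS ⟨conj_mem_of_mem_normalizer (P.H_le_normalizer S hk.1) hg.1,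
      mul_mem (mul_mem hk.2 hg.2) (T.Fix.inv_mem hk.2)⟩
  exact (show T.G1 ≤ T.G1.comap (MulAut.conj k).toMonoidHom from
    iSup_le fun i => sup_le (key _ (T.XJ_inf_le_G1 i)) (key _ (T.YJ_inf_le_G1 i))) hg

end Twist

namespace MatRel

variable {D : ChevalleyDatum} {F : Type*} [Field F] (hM : MatRel D F)
  {Φ : RootSys (Fin D.rank) (Fin D.nroots)} (L : Link D Φ)

theorem orth_of_comB (T : Tab D) {m : ℕ} (hm : (m : F) = 0) {r s : Fin D.nroots}
    (h : comB D.nroots m T.N T.P r s = true ∧ comB D.nroots m T.N T.P r (Φ.neg s) = true ∧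
      comB D.nroots m T.N T.P (Φ.neg r) s = true ∧ comB D.nroots m T.N T.P (Φ.neg r) (Φ.neg s) = true) :
    (hM.st L).Orth r s := fun t u =>
  ⟨hM.gr_commute L T hm h.1 t u, hM.gr_commute L T hm h.2.1 t u, hM.gr_commute L T hm h.2.2.1 t u,
    hM.gr_commute L T hm h.2.2.2 t u⟩

theorem st_hT_eq_one_iff (c : Fin D.rank → Fˣ) : (hM.st L).hT c = 1 ↔ mon Fˣ (Matrix.of Φ.A) c = 1 :=
  (hM.st_adj L).hT_eq_one_iff (hM.st_faithful L) c

theorem st_hT_injective {d : List ℕ} (h : Smith Φ.A d) (hd : ∀ k ∈ d, k = 1) :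
    Function.Injective (hM.st L).hT :=
  (injective_iff_map_eq_one _).2 fun c hc =>
    (map_eq_one_iff _ (h.injective hd Fˣ)).1 ((hM.st_hT_eq_one_iff L c).1 hc)

theorem st_x_eq {r : Fin D.nroots} {a : ℕ} (h : r.1 = a) (t : F) : (hM.st L).x r t = (hM.gr L).y a t := h ▸ rfl

end MatRel

end Cfsg.Agent.Chev
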