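/-
The diagonal subgroup of the twisted group of type 2F4.
-/
import Cfsg.Agent.Chev.TwH
import Cfsg.Agent.Chev.TwW

set_option autoImplicit false

namespace Cfsg.Agent.Chev

open Cfsg.Lie

/-- `θ` on units -/
def TwTheta.θu {K : Type*} [Field K] {p e : ℕ} (Θ : TwTheta K p e) : Kˣ →* Kˣ := Units.map (Θ.θ : K →* K)

@[simp] theorem TwTheta.coe_θu {K : Type*} [Field K] {p e : ℕ} (Θ : TwTheta K p e) (a : Kˣ) :
    (Θ.θu a : K) = Θ.θ a := rfl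

theorem TwTheta.θu_θu {K : Type*} [Field K] {p e : ℕ} (Θ : TwTheta K p e) (a : Kˣ) : Θ.θu (Θ.θu a) ^ p = a :=
  Units.ext (by simpa using Θ.θθ (a : K))

theorem forall_ndF4 {p : Fin chevF4.rank → Prop} :
    (∀ i, p i) ↔ p (ndF4 0) ∧ p (ndF4 1) ∧ p (ndF4 2) ∧ p (ndF4 3) := by
  refine ⟨fun h => ⟨h _, h _, h _, h _⟩, fun ⟨h0, h1, h2, h3⟩ i => ?_⟩
  have : ∀ i : Fin chevF4.rank, i = ndF4 0 ∨ i = ndF4 1 ∨ i = ndF4 2 ∨ i = ndF4 3 := by decide +kernel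
  rcases this i with rfl | rfl | rfl | rfl <;> assumption

theorem prod_ndF4 {M : Type*} [CommMonoid M] (f : Fin chevF4.rank → M) :
    ∏ i, f i = f (ndF4 0) * f (ndF4 1) * f (ndF4 2) * f (ndF4 3) := Fin.prod_univ_four f

theorem τF4 : (symF4.τ (ndF4 0) = ndF4 3 ∧ symF4.τ (ndF4 1) = ndF4 2 ∧ symF4.τ (ndF4 2) = ndF4 1 ∧
    symF4.τ (ndF4 3) = ndF4 0) ∧ exqF4 (rsF4.simple (ndF4 0)) = 2 ∧ exqF4 (rsF4.simple (ndF4 1)) = 2 ∧
    exqF4 (rsF4.simple (ndF4 2)) = 1 ∧ exqF4 (rsF4.simple (ndF4 3)) = 1 := by decide +kernel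

variable {K : Type*} [Field K] {e : ℕ} (Θ : TwTheta K 2 e)

/-- parametrisation of the fixed torus -/
def torF4 (a b : Kˣ) (i : Fin chevF4.rank) : Kˣ := [Θ.θu a, Θ.θu b, b, a].getD i 1

theorem torF4_mul (a b a' b' : Kˣ) : torF4 Θ (a * a') (b * b') = torF4 Θ a b * torF4 Θ a' b' :=
  funext (forall_ndF4.2 ⟨map_mul Θ.θu a a', map_mul Θ.θu b b', rfl, rfl⟩)

theorem mem_CTF4 (c : Fin chevF4.rank → Kˣ) : c ∈ (twF4 Θ).CT ↔ ∃ p : Kˣ × Kˣ, c = torF4 Θ p.1 p.2 := by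
  rw [Twist.mem_CT, forall_ndF4]
  simp only [twF4_φ, twF4_sym, τF4, if_true, show ¬ (2 = 1) by decide, if_false]
  constructor
  · rintro ⟨-, -, h2, h3⟩
    exact ⟨(c (ndF4 3), c (ndF4 2)), funext (forall_ndF4.2 ⟨Units.ext h3.symm, Units.ext h2.symm, rfl, rfl⟩)⟩
  · rintro ⟨p, rfl⟩
    exact ⟨Θ.φθ _, Θ.φθ _, rfl, rfl⟩

include Θ in
theorem orthF4 {r s : Fin chevF4.nroots} (h : comB 48 2 (fN rowsF4) (fP rowsF4) r s = true ∧
    comB 48 2 (fN rowsF4) (fP rowsF4) r (rsF4.neg s) = true ∧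
    comB 48 2 (fN rowsF4) (fP rowsF4) (rsF4.neg r) s = true ∧
    comB 48 2 (fN rowsF4) (fP rowsF4) (rsF4.neg r) (rsF4.neg s) = true) : (PF4 K).Orth r s :=
  (mF4 K).orth_of_comB linkF4 tabF4 Θ.char h

theorem torF4_left_mem (a : Kˣ) : (PF4 K).hT (torF4 Θ a 1) ∈ (twF4 Θ).G1 := by
  have hs : (rsF4.simple (ndF4 0)).1 = f4p1 ∧ (rsF4.simple (ndF4 3)).1 = f4p4 ∧
      (rsF4.neg (rsF4.simple (ndF4 0))).1 = f4m1 ∧ (rsF4.neg (rsF4.simple (ndF4 3))).1 = f4m4 := by decide +kernel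
  obtain ⟨a1, a2, b1, b2⟩ := hs
  have := St.h_mem_two (orthF4 Θ (r := rsF4.simple (ndF4 0)) (s := rsF4.simple (ndF4 3)) (by decide +kernel))
    Θ.θ (RingEquiv.refl K) (fun t => ⟨(twF4 Θ).XJ_inf_le_G1 (ndF4 0) ((fixF4p0 Θ _).2 ⟨t, by
      simp [(mF4 K).st_x_eq _ a1, (mF4 K).st_x_eq _ a2, f4PairWord, Θ.θ_eq]⟩),
    (twF4 Θ).YJ_inf_le_G1 (ndF4 0) ((fixF4m0 Θ _).2 ⟨t, by
      simp [(mF4 K).st_x_eq _ b1, (mF4 K).st_x_eq _ b2, f4PairWord, Θ.θ_eq]⟩)⟩) a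
  rw [(PF4 K).hT_eq_list [ndF4 0, ndF4 3, ndF4 1, ndF4 2] (by decide +kernel)]
  simpa [torF4, ndF4] using this

theorem torF4_conj {n : (mF4 K).GG linkF4} (h : (PF4 K).Rep n (rsF4.w0J (symF4.orb (ndF4 1)))) (a : Kˣ) :
    n * (PF4 K).hT (torF4 Θ a 1) * n⁻¹ = (PF4 K).hT (torF4 Θ a ((Θ.θu a * a) ^ 2)) := by
  rw [St.conj_hT h, w0JF4]
  simp only [RootSys.act_word]
  have hm : ∀ j k, rsF4.co ((wdF4 (ndF4 1)).foldr rsF4.refl (rsF4.simple j)) k =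
    (([[1, 2, 2, 0], [0, -1, 0, 0], [0, 0, -1, 0], [0, 1, 2, 1]] : List (List ℤ)).getD j []).getD k 0 := by
    decide +kernel
  congr 1
  refine funext (forall_ndF4.2 ?_)
  simp only [mon_apply, prod_ndF4, Matrix.of_apply, hm]
  simp [torF4, ndF4, mul_pow, Θ.θu_θu, mul_comm, zpow_ofNat]

theorem surjF4 [Finite K] : Function.Surjective fun a : Kˣ => (Θ.θu a * a) ^ 2 := by
  have h2 : (2 : K) = 0 := by exact_mod_cast Θ.char
  refine Finite.surjective_of_injective (f := (powMonoidHom 2).comp (Θ.θu * MonoidHom.id Kˣ))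
    ((injective_iff_map_eq_one _).2 fun a ha => ?_)
  have h3 : (Θ.θ a * a : K) ^ 2 = 1 := congrArg Units.val ha
  have h4 : Θ.θu a * a = 1 := Units.ext (by
    rcases sq_eq_one_iff.1 h3 with h | h
    · exact h
    · exact h.trans (by push_cast; linear_combination -h2))
  have h5 : Θ.θu (Θ.θu a) = a := by
    have := congrArg Θ.θu h4
    rw [map_mul, map_one, ← h4, mul_comm] at this
    exact mul_left_cancel this
  have := Θ.θu_θu a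
  rwa [h5, sq, mul_eq_left] at this

theorem torF4_mem [Finite K] (a b : Kˣ) : (PF4 K).hT (torF4 Θ a b) ∈ (twF4 Θ).G1 := by
  obtain ⟨n, hn, h⟩ := (goodF4 Θ).exists_n_orb (ndF4 1)
  obtain ⟨d, rfl⟩ := surjF4 Θ b
  have := mul_mem (torF4_left_mem Θ (a / d)) (mul_mem (mul_mem hn.2 (torF4_left_mem Θ d)) (inv_mem (minr hn)))
  rwa [torF4_conj Θ h, ← map_mul, ← torF4_mul, div_mul_cancel, one_mul] at this

theorem cardHF4 [Fintype K] : Nat.card ↥((PF4 K).H ⊓ (twF4 Θ).G1) = (Fintype.card K - 1) ^ 2 := by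
  classical
  rw [(twF4 Θ).card_H1_of_injective ((mF4 K).st_hT_injective linkF4 smithF4 (by simp)) fun c hc => by
    obtain ⟨p, rfl⟩ := (mem_CTF4 Θ c).1 hc; exact torF4_mem Θ _ _,
    card_of_param (mem_CTF4 Θ) fun p p' e => Prod.ext (congrFun e (ndF4 3)) (congrFun e (ndF4 2)),
    Nat.card_prod, Nat.card_eq_fintype_card, Fintype.card_units, sq]

end Cfsg.Agent.Chev
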