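/-
The diagonal subgroup of the twisted group of type 2G2.
-/
import Cfsg.Agent.Chev.TwHF4
import Cfsg.Agent.Chev.TwEng

set_option autoImplicit false

namespace Cfsg.Agent.Chev

open Cfsg.Lie

theorem castW_append (K : Type*) [IntCast K] (w w' : List (ℕ × ℤ)) :
    castW K (w ++ w') = castW K w ++ castW K w' := List.map_append

/-- generators of the Ree group with integer parameters -/
def reeZ1 (p : Bool × ℤ × ℤ × ℤ) : List (ℕ × ℤ) :=
  Bool.rec [(4, -p.2.1), (5, -p.2.1), (3, -(p.2.1 * p.2.1 + p.2.2.1)), (2, -(p.2.1 * p.2.1 * p.2.1 + p.2.2.2)),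
      (1, -p.2.2.1), (0, -p.2.2.2)]
    [(7, p.2.1), (6, p.2.1), (8, p.2.1 * p.2.1 + p.2.2.1), (9, p.2.1 * p.2.1 * p.2.1 + p.2.2.2), (10, p.2.2.1),
      (11, p.2.2.2)] p.1

/-- products of generators of the Ree group with integer parameters -/
def reeZ (l : List (Bool × ℤ × ℤ × ℤ)) : List (ℕ × ℤ) := l.flatMap reeZ1

theorem forall_ndG2 {p : Fin chevG2.rank → Prop} : (∀ i, p i) ↔ p (ndG2 0) ∧ p (ndG2 1) := by
  refine ⟨fun h => ⟨h _, h _⟩, fun ⟨h0, h1⟩ i => ?_⟩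
  have : ∀ i : Fin chevG2.rank, i = ndG2 0 ∨ i = ndG2 1 := by decide +kernel
  rcases this i with rfl | rfl <;> assumption

theorem prod_ndG2 {M : Type*} [CommMonoid M] (f : Fin chevG2.rank → M) :
    ∏ i, f i = f (ndG2 0) * f (ndG2 1) := Fin.prod_univ_two f

theorem τG2 : (symG2.τ (ndG2 0) = ndG2 1 ∧ symG2.τ (ndG2 1) = ndG2 0) ∧ exqG2 (rsG2.simple (ndG2 0)) = 3 ∧
    exqG2 (rsG2.simple (ndG2 1)) = 1 := by decide +kernel

variable {K : Type*} [Field K] {e : ℕ} (Θ : TwTheta K 3 e)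

theorem reeZ1_mem (p : Bool × ℤ × ℤ × ℤ) : (YG2 K).word (castW K (reeZ1 p)) ∈ (twG2 Θ).G1 := by
  obtain ⟨b, t, u, v⟩ := p
  have h : ∀ t : ℤ, (t : K) ^ e = t := fun t => by rw [← Θ.θ_eq, map_intCast]
  rw [twG2_G1]
  cases b
  · refine Subgroup.mem_sup_right ((fixG2m Θ _).2 ⟨(t, u, v), congrArg _ ?_⟩)
    simp [reeWordV_eq, castW, reeZ1, pow_succ, pow_mul', h, g2ma, g2mb, g2mab, g2maab, g2maaab, g2maaabb]
  · refine Subgroup.mem_sup_left ((fixG2p Θ _).2 ⟨(t, u, v), congrArg _ ?_⟩)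
    simp [reeWordU, castW, reeZ1, pow_succ, pow_mul', h, g2a, g2b, g2ab, g2aab, g2aaab, g2aaabb]

theorem reeZ_mem (l : List (Bool × ℤ × ℤ × ℤ)) : (YG2 K).word (castW K (reeZ l)) ∈ (twG2 Θ).G1 := by
  induction l with
  | nil => exact one_mem _
  | cons p l ih =>
    rw [reeZ, List.flatMap_cons, castW_append, DRel.word_append]
    exact mul_mem (reeZ1_mem Θ p) ih

include Θ in
theorem wordG2_eq {w w' : List (ℕ × ℤ)} (h : Nat.beq (engG2.mat w) (engG2.mat w') = true) :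
    (YG2 K).word (castW K w) = (YG2 K).word (castW K w') := engG2_ok.word_eq (digG2 K Θ.char) linkG2 h

/-- parametrisation of the fixed torus -/
def torG2 (a : Kˣ) (i : Fin chevG2.rank) : Kˣ := [Θ.θu a, a].getD i 1

theorem torG2_mul (a a' : Kˣ) : torG2 Θ (a * a') = torG2 Θ a * torG2 Θ a' :=
  funext (forall_ndG2.2 ⟨map_mul Θ.θu a a', rfl⟩)

theorem mem_CTG2 (c : Fin chevG2.rank → Kˣ) : c ∈ (twG2 Θ).CT ↔ ∃ a : Kˣ, c = torG2 Θ a := by
  rw [Twist.mem_CT, forall_ndG2]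
  simp only [twG2_φ, twG2_sym, τG2, if_true, show ¬ (3 = 1) by decide, if_false]
  constructor
  · rintro ⟨-, h⟩
    exact ⟨c (ndG2 1), funext (forall_ndG2.2 ⟨Units.ext h.symm, rfl⟩)⟩
  · rintro ⟨p, rfl⟩
    exact ⟨Θ.φθ _, rfl⟩

theorem torG2_neg_one : (PG2 K).hT (torG2 Θ (-1)) ∈ (twG2 Θ).G1 := by
  have hs : (rsG2.simple (ndG2 0)).1 = 7 ∧ (rsG2.simple (ndG2 1)).1 = 6 ∧
      (rsG2.neg (rsG2.simple (ndG2 0))).1 = 4 ∧ (rsG2.neg (rsG2.simple (ndG2 1))).1 = 5 := by decide +kernel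
  obtain ⟨a1, a2, b1, b2⟩ := hs
  have := reeZ_mem Θ [(true, -1, -1, -1), (false, -1, -1, -1), (true, 0, 1, -1), (false, 1, 1, 1)]
  rw [wordG2_eq Θ (w' := [(7, -1), (4, 1), (7, -1), (7, -1), (4, 1), (7, -1), (6, -1), (5, 1), (6, -1), (6, -1),
    (5, 1), (6, -1)]) (by decide +kernel)] at this
  rw [(PG2 K).hT_eq_list [ndG2 0, ndG2 1] (by decide +kernel)]
  have e0 : (torG2 Θ (-1) (ndG2 0) : K) = -1 := by simp [torG2, ndG2]
  have e1 : (torG2 Θ (-1) (ndG2 1) : K) = -1 := by simp [torG2, ndG2]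
  simpa [e0, e1, castW, St0.h, St0.n, (mG2 K).st_x_eq _ a1, (mG2 K).st_x_eq _ a2, (mG2 K).st_x_eq _ b1,
    (mG2 K).st_x_eq _ b2, mul_assoc] using this

theorem torG2_conj {n : (mG2 K).GG linkG2} (h : (PG2 K).Rep n rsG2.w0) (c : Fin chevG2.rank → Kˣ) :
    n * (PG2 K).hT c * n⁻¹ = ((PG2 K).hT c)⁻¹ := by
  rw [St.conj_hT h, RootSys.w0, ← orbG2_univ (ndG2 0), w0JG2, ← map_inv]
  simp only [RootSys.act_word]
  have hm : ∀ j k, rsG2.co ((wdG2 (ndG2 0)).foldr rsG2.refl (rsG2.simple j)) k =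
    (([[-1, 0], [0, -1]] : List (List ℤ)).getD j []).getD k 0 := by decide +kernel
  congr 1
  refine funext (forall_ndG2.2 ?_)
  simp only [mon_apply, prod_ndG2, Matrix.of_apply, hm]
  simp [ndG2]

include Θ in
theorem not_isSquare_neg_one : ¬ IsSquare (-1 : K) := by
  rintro ⟨i, hi⟩
  have h3 : (3 : K) = 0 := by exact_mod_cast Θ.char
  have h1 : Θ.θ i * Θ.θ i = i * i := by rw [← map_mul, ← hi]; simp
  have h2 : Θ.θ (Θ.θ i) = i := by
    rcases mul_self_eq_mul_self_iff.1 h1 with h | h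
    · rw [h, h]
    · rw [h, map_neg, h, neg_neg]
  have h4 := Θ.θθ i
  rw [h2] at h4
  exact one_ne_zero (α := K) (by linear_combination h3 - i * h4 - (i ^ 2 - 2) * hi)

theorem torG2_mem [Finite K] (a : Kˣ) : (PG2 K).hT (torG2 Θ a) ∈ (twG2 Θ).G1 := by
  classical
  have := Fintype.ofFinite K
  obtain ⟨n, hn, h⟩ := (goodG2 Θ).exists_n (twG2 Θ).w0_mem_W1
  have hsq : ∀ b : Kˣ, (PG2 K).hT (torG2 Θ (b * b)) ∈ (twG2 Θ).G1 := fun b => by
    have := mul_mem ((twG2 Θ).conj_mem_G1 ⟨(PG2 K).hT_mem_H _,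
      (twG2 Θ).hT_mem_Fix ((mem_CTG2 Θ _).2 ⟨b, rfl⟩)⟩ hn.2) (inv_mem (minr hn))
    rwa [mul_assoc, mul_assoc, ← mul_assoc n, ← map_inv, torG2_conj h, map_inv, inv_inv, ← map_mul,
      ← torG2_mul] at this
  have key : ∀ a : Kˣ, IsSquare (a : K) → (PG2 K).hT (torG2 Θ a) ∈ (twG2 Θ).G1 := by
    rintro a ⟨b, hb⟩
    have h0 : b ≠ 0 := fun h => a.ne_zero (by simp [hb, h])
    exact (show Units.mk0 b h0 * Units.mk0 b h0 = a from Units.ext hb.symm) ▸ hsq _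
  by_cases ha : IsSquare (a : K)
  · exact key a ha
  · have h1 : IsSquare ((-a : Kˣ) : K) := by
      rw [← quadraticChar_one_iff_isSquare (Units.ne_zero _), Units.val_neg, ← neg_one_mul, map_mul,
        quadraticChar_neg_one_iff_not_isSquare.2 ha,
        quadraticChar_neg_one_iff_not_isSquare.2 (not_isSquare_neg_one Θ)]
      simp
    have := mul_mem (torG2_neg_one Θ) (key _ h1)
    rwa [← map_mul, ← torG2_mul, neg_one_mul, neg_neg] at this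

theorem cardHG2 [Fintype K] : Nat.card ↥((PG2 K).H ⊓ (twG2 Θ).G1) = Fintype.card K - 1 := by
  classical
  rw [(twG2 Θ).card_H1_of_injective ((mG2 K).st_hT_injective linkG2 smithG2 (by simp)) fun c hc => by
    obtain ⟨p, rfl⟩ := (mem_CTG2 Θ c).1 hc; exact torG2_mem Θ _,
    card_of_param (mem_CTG2 Θ) fun p p' e => congrFun e (ndG2 1), Nat.card_eq_fintype_card, Fintype.card_units]

end Cfsg.Agent.Chev
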