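/-
The derived subgroup of the smallest Ree group of type G2.
-/
import Cfsg.Agent.Chev.TwHG2
import Cfsg.Agent.Chev.RelSL2
import Cfsg.Agent.Cl.Congr
import Cfsg.Agent.Cl.SLCard

set_option autoImplicit false

namespace Cfsg.Agent.Chev

open Cfsg.Lie Matrix

theorem commutator_eq_range_of_index {G S : Type*} [Group G] [Finite G] [Group S] [Finite S] [IsSimpleGroup S]
    (hS : commutator S = ⊤) {φ : S →* G} (hφ : Function.Injective φ) {p : ℕ} (hp : p.Prime)
    (hG : Nat.card G = p * Nat.card S) (hlt : p.factorial < Nat.card S) : commutator G = φ.range := by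
  have h1 : φ.range.index = p := by
    have := φ.range.index_mul_card
    rw [← Nat.card_congr (MonoidHom.ofInjective hφ).toEquiv, hG] at this
    exact Nat.eq_of_mul_eq_mul_right Nat.card_pos this
  have h2 : φ.range.Normal := by
    rcases (φ.range.normalCore_normal.comap φ).eq_bot_or_eq_top with h | h
    · have := Nat.card_le_card_of_injective _ ((MonoidHom.ker_eq_bot_iff
        ((MulAction.toPermHom G (G ⧸ φ.range)).comp φ)).1 (by rwa [← MonoidHom.comap_ker, ← Subgroup.normalCore_eq_ker]))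
      rw [Nat.card_perm, ← Subgroup.index_eq_card, h1] at this
      omega
    · have : φ.range ≤ φ.range.normalCore := by
        rintro _ ⟨s, rfl⟩
        exact (h ▸ Subgroup.mem_top s : s ∈ φ.range.normalCore.comap φ)
      exact le_antisymm (Subgroup.normalCore_le _) this ▸ φ.range.normalCore_normal
  refine le_antisymm ?_ ?_
  · have : Fact p.Prime := ⟨hp⟩
    have : IsCyclic (G ⧸ φ.range) := isCyclic_of_prime_card h1
    exact Subgroup.Normal.quotient_commutative_iff_commutator_le.1 inferInstance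
  · rw [MonoidHom.range_eq_map, ← hS, commutator_def, Subgroup.map_commutator]
    exact Subgroup.commutator_mono le_top le_top

theorem Eng.OK.word_ne_one {E : Eng} {D : ChevalleyDatum} {T : Tab D} (h : E.OK T) {K : Type*} [Field K]
    (C : Dig K (D.rank + D.nroots) E.W E.lin E.one) {hM : MatRel D K} {Φ : RootSys (Fin D.rank) (Fin D.nroots)}
    (L : Link D Φ) {w : List (ℕ × ℤ)} {a b : D.Idx} (hab : a ≠ b)
    (e : C.ev (dgt E.W (E.mat w) (ixOf b)) (ixOf a) ≠ 0) : (hM.gr L).word (castW K w) ≠ 1 := fun h1 => e (by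
  have := congrFun (congrFun (h.dec_mat C w) a) b
  rwa [← hM.coe_inc_word L, h1, map_one, Units.val_one, one_apply_ne hab] at this)

/-- the field with eight elements -/
def GF8 : Type := Fin 8

namespace GF8

instance instDecEq : DecidableEq GF8 := inferInstanceAs (DecidableEq (Fin 8))
instance instFintype : Fintype GF8 := inferInstanceAs (Fintype (Fin 8))

/-- reading a table -/
def tb (T k : ℕ) : GF8 := ⟨T / 8 ^ k % 8, Nat.mod_lt _ (by decide)⟩

instance instZero : Zero GF8 := ⟨tb 0 0⟩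
instance instOne : One GF8 := ⟨tb 1 0⟩
instance instAdd : Add GF8 := ⟨fun a b => tb (a.1 ^^^ b.1) 0⟩
instance instMul : Mul GF8 := ⟨fun a b => tb 0x73157889d3f0cfa868356ee0467b98bcbd10fac688000000 (8 * a.1 + b.1)⟩
instance instNeg : Neg GF8 := ⟨id⟩
instance instInv : Inv GF8 := ⟨fun a => tb 0x8d7d48 a.1⟩

instance instField : Field GF8 := Field.ofMinimalAxioms GF8 (by decide +kernel) (by decide +kernel)
  (by decide +kernel) (by decide +kernel) (by decide +kernel) (by decide +kernel) (by decide +kernel)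
  (by decide +kernel) (by decide +kernel) (by decide +kernel)

theorem card_eq : Fintype.card GF8 = 8 := Fintype.card_fin 8

end GF8

variable {K : Type*} [Field K] {e : ℕ} (Θ : TwTheta K 3 e)

/-- elements of the Ree group given by words -/
noncomputable def reeE (l : List (Bool × ℤ × ℤ × ℤ)) : (twG2 Θ).G1 := ⟨_, reeZ_mem Θ l⟩

theorem reeE_append (l l' : List (Bool × ℤ × ℤ × ℤ)) : reeE Θ (l ++ l') = reeE Θ l * reeE Θ l' :=
  Subtype.ext (by simp [reeE, reeZ, castW_append, DRel.word_append])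

/-- equality test of two words -/
noncomputable def reeQ (l l' : List (Bool × ℤ × ℤ × ℤ)) : Bool := Nat.beq (engG2.mat (reeZ l)) (engG2.mat (reeZ l'))

theorem reeE_eq {l l' : List (Bool × ℤ × ℤ × ℤ)} (h : reeQ l l' = true) : reeE Θ l = reeE Θ l' :=
  Subtype.ext (wordG2_eq Θ h)

/-- words of the upper unitriangular matrices -/
def ree8x (a : GF8) : List (Bool × ℤ × ℤ × ℤ) :=
  [[], [(false, -1, -1, 1), (true, 0, 0, 1), (false, -1, 0, 1)], [(false, 0, 0, -1), (true, -1, 1, 1)],
    [(true, -1, 0, 0), (false, -1, 1, 1), (true, 1, -1, 1)], [(true, -1, -1, -1), (false, 0, 1, 0), (true, 1, -1, 0)],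
    [(true, 0, 1, 1), (false, -1, 0, 0)], [(true, -1, -1, -1), (false, 0, -1, 0), (true, 1, 1, 1)],
    [(false, -1, -1, 0), (true, -1, 0, 1)]].getD a.1 []

/-- words of the lower unitriangular matrices -/
def ree8y (a : GF8) : List (Bool × ℤ × ℤ × ℤ) :=
  [[], [(true, 0, -1, 1), (false, -1, -1, 1)], [(true, -1, -1, -1), (false, -1, -1, 0), (true, 0, 1, 1)],
    [(false, -1, -1, -1), (true, 1, 0, -1), (false, -1, 1, 0)],
    [(false, -1, -1, 0), (true, 1, 1, 0), (false, 0, -1, 0)], [(true, -1, -1, -1), (false, 0, 0, -1), (true, 0, -1, 0)],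
    [(true, -1, 1, -1), (false, 1, 1, 0)], [(true, -1, 0, 1), (false, -1, -1, 0)]].getD a.1 []

/-- words of the diagonal matrices -/
def ree8h (a : GF8) : List (Bool × ℤ × ℤ × ℤ) :=
  [[], [], [(true, 0, 1, -1), (false, 0, -1, 0)], [(false, 1, -1, 0), (true, 0, -1, 0)],
    [(false, 1, 1, 0), (true, 0, 0, 1)], [(false, 0, 1, 0), (true, 0, -1, 1)],
    [(true, 0, 1, 0), (false, -1, 0, -1)], [(true, 0, 0, -1), (false, -1, 1, 0)]].getD a.1 []

/-- word of the Weyl element -/
def ree8w : List (Bool × ℤ × ℤ × ℤ) := [(false, -1, 1, 1), (true, 0, 0, -1)]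

theorem ree8_1 : ∀ a b, reeQ (ree8x a ++ ree8x b) (ree8x (a + b)) = true := by decide +kernel
theorem ree8_2 : ∀ a b, a ≠ 0 → b ≠ 0 → reeQ (ree8h a ++ ree8h b) (ree8h (a * b)) = true := by decide +kernel
theorem ree8_3 : ∀ a b, a ≠ 0 → reeQ (ree8h a ++ ree8x b) (ree8x (a ^ 2 * b) ++ ree8h a) = true := by
  decide +kernel
theorem ree8_4 : (∀ t, t ≠ 0 → reeQ (ree8x t ++ ree8y (-t⁻¹) ++ ree8x t) (ree8h t ++ ree8w) = true) ∧
    (∀ t, t ≠ 0 → reeQ (ree8w ++ ree8h t) (ree8h t⁻¹ ++ ree8w) = true) ∧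
    reeQ (ree8w ++ ree8w) (ree8h (-1)) = true ∧ ∀ t, reeQ (ree8w ++ ree8x t) (ree8y (-t) ++ ree8w) = true := by
  decide +kernel

/-- the rank-one relations over the field with eight elements -/
noncomputable def ree8 : SL2Rel GF8 (twG2 Θ).G1 where
  x a := reeE Θ (ree8x a)
  y a := reeE Θ (ree8y a)
  h a := reeE Θ (ree8h a)
  w := reeE Θ ree8w
  x_add a b := by rw [← reeE_append]; exact reeE_eq Θ (ree8_1 a b)
  x_zero := rfl
  h_mul a b ha hb := by rw [← reeE_append]; exact reeE_eq Θ (ree8_2 a b ha hb)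
  h_one := rfl
  n_eq t ht := by simp only [← reeE_append]; exact reeE_eq Θ (ree8_4.1 t ht)
  y_zero := rfl
  h_x a b ha := by simp only [← reeE_append]; exact reeE_eq Θ (ree8_3 a b ha)
  w_h t ht := by simp only [← reeE_append]; exact reeE_eq Θ (ree8_4.2.1 t ht)
  w_w := by rw [← reeE_append]; exact reeE_eq Θ ree8_4.2.2.1
  w_x t := by simp only [← reeE_append]; exact reeE_eq Θ (ree8_4.2.2.2 t)

theorem ree8w_ne : (YG2 (ZMod 3)).word (castW _ (reeZ ree8w)) ≠ 1 :=
  engG2_ok.word_ne_one (digG2 (ZMod 3) rfl) linkG2 (a := .inl (ndG2 0)) (b := .inr ⟨0, by decide⟩) (by simp)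
    (by decide +kernel)

theorem ree3_commutator (Θ : TwTheta (ZMod 3) 3 e) {G : Type*} [Group G] (f : (twG2 Θ).G1 ≃* G) {L : Type*}
    [Field L] [Fintype L] (hL : Fintype.card L = 8) :
    Nat.card (commutator G) = 504 ∧ Nonempty (commutator G ≃* ProjectiveSpecialLinearGroup (Fin 2) L) := by
  have hc : Subgroup.center (SpecialLinearGroup (Fin 2) GF8) = ⊥ := by
    rw [← Subgroup.card_eq_one, Cl.card_center_sl, GF8.card_eq]; simp
  have h1 : ∃ a : GF8, a ≠ 0 ∧ a ^ 2 ≠ 1 := by decide +kernel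
  have := ProjectiveSpecialLinearGroup.rank_two_simple' h1
  have h2 : Nat.card (ProjectiveSpecialLinearGroup (Fin 2) GF8) = 504 := by
    simpa [GF8.card_eq] using Cl.gcd_mul_card_psl_two (F := GF8)
  have h3 : Nat.card G = 3 * 504 := by
    rw [← Nat.card_congr f.toEquiv, cardGG2, cardHG2, polG2_eq, ZMod.card]; rfl
  have : Finite G := Nat.finite_of_card_ne_zero (by omega)
  let φ : ProjectiveSpecialLinearGroup (Fin 2) GF8 →* G :=
    f.toMonoidHom.comp ((ree8 Θ).hom.comp (Cl.quotCenterEquivOfBot hc).toMonoidHom)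
  have hφ : Function.Injective φ := Cl.injective_of_isSimpleGroup φ
    ⟨(Cl.quotCenterEquivOfBot hc).symm (SL2Rel.ww GF8), by
      simp only [φ, MonoidHom.comp_apply, MulEquiv.coe_toMonoidHom, MulEquiv.apply_symm_apply, SL2Rel.hom_ww, Ne,
        map_eq_one_iff _ f.injective]
      exact fun h => ree8w_ne (congrArg Subtype.val h :)⟩
  have e := (MonoidHom.ofInjective hφ).trans (MulEquiv.subgroupCongr (commutator_eq_range_of_index
    (SL2Simple.PSL_commutator_eq_top h1) hφ Nat.prime_three (h2 ▸ h3) (by rw [h2]; decide)).symm)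
  exact ⟨by rw [← Nat.card_congr e.toEquiv, h2],
    ⟨e.symm.trans (Cl.pslCongr (FiniteField.ringEquivOfCardEq (GF8.card_eq.trans hL.symm)))⟩⟩

end Cfsg.Agent.Chev
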