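/-
The diagonal subgroups of the twisted groups of types 2E6 and 3D4.
-/
import Cfsg.Agent.Chev.TwH
import Cfsg.Agent.Chev.TwW

set_option autoImplicit false

namespace Cfsg.Agent.Chev

open Cfsg.Lie

section E6

theorem forall_ndE6 {p : Fin chevE6.rank → Prop} :
    (∀ i, p i) ↔ p (ndE6 0) ∧ p (ndE6 1) ∧ p (ndE6 2) ∧ p (ndE6 3) ∧ p (ndE6 4) ∧ p (ndE6 5) := by
  refine ⟨fun h => ⟨h _, h _, h _, h _, h _, h _⟩, fun ⟨h0, h1, h2, h3, h4, h5⟩ i => ?_⟩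
  have : ∀ i : Fin chevE6.rank, i = ndE6 0 ∨ i = ndE6 1 ∨ i = ndE6 2 ∨ i = ndE6 3 ∨ i = ndE6 4 ∨ i = ndE6 5 := by
    decide +kernel
  rcases this i with rfl | rfl | rfl | rfl | rfl | rfl <;> assumption

theorem τE6 : symE6.τ (ndE6 0) = ndE6 5 ∧ symE6.τ (ndE6 1) = ndE6 1 ∧ symE6.τ (ndE6 2) = ndE6 4 ∧
    symE6.τ (ndE6 3) = ndE6 3 ∧ symE6.τ (ndE6 4) = ndE6 2 ∧ symE6.τ (ndE6 5) = ndE6 0 := by decide +kernel

variable {K : Type*} [Field K] {ψ : K ≃+* K}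

theorem kerE6 (c : Fin chevE6.rank → Kˣ) : (PE6 K).hT c = 1 ↔
    c (ndE6 0) ^ 3 = 1 ∧ ∀ k, c k = c (ndE6 0) ^ dec8 0x020100020001 k := by
  rw [(mE6 K).st_hT_eq_one_iff]
  exact mon_eq_one_iff_cyc (ndE6 0) (fun k => dec8 0x020100020001 k) 3
    (ofLL [[0, 1, -1, 2, 0, -2], [0, 2, 0, 3, 1, -1], [0, 2, 0, 4, 1, -2], [0, 3, 0, 6, 2, -2], [0, 2, 0, 4, 2, -1],
      [0, 1, 0, 2, 1, 0]]) (fun k => [4, 3, 5, 6, 4, 2].getD k 0) (fun k => [0, 0, 1, -1, 0, 1].getD k 0)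
    (by decide +kernel) c

theorem orthE6 {r s : Fin chevE6.nroots} (h : comB 72 0 (fN rowsE6) (fP rowsE6) r s = true ∧
    comB 72 0 (fN rowsE6) (fP rowsE6) r (rsE6.neg s) = true ∧
    comB 72 0 (fN rowsE6) (fP rowsE6) (rsE6.neg r) s = true ∧
    comB 72 0 (fN rowsE6) (fP rowsE6) (rsE6.neg r) (rsE6.neg s) = true) : (PE6 K).Orth r s :=
  (mE6 K).orth_of_comB linkE6 tabE6 (by simp) h

variable (hψ : ∀ t, ψ (ψ t) = t)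
include hψ

theorem mem_CTE6 {c : Fin chevE6.rank → Kˣ} : c ∈ (twE6 ψ).CT ↔ ψ (c (ndE6 0)) = c (ndE6 5) ∧
    ψ (c (ndE6 1)) = c (ndE6 1) ∧ ψ (c (ndE6 2)) = c (ndE6 4) ∧ ψ (c (ndE6 3)) = c (ndE6 3) := by
  rw [Twist.mem_CT, forall_ndE6]
  simp only [twE6_φ, twE6_sym, τE6]
  exact ⟨fun h => ⟨h.1, h.2.1, h.2.2.1, h.2.2.2.1⟩, fun h => ⟨h.1, h.2.1, h.2.2.1, h.2.2.2,
    by rw [← h.2.2.1, hψ], by rw [← h.1, hψ]⟩⟩

theorem σTE6 (c : Fin chevE6.rank → Kˣ) : (twE6 ψ).σT ((twE6 ψ).σT c) = c := by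
  ext j
  have : ∀ j, symE6.τ (symE6.τ j) = j := by decide +kernel
  conv_lhs => rw [← this j]
  exact ((twE6 ψ).coe_σT _ _).trans ((congrArg ψ ((twE6 ψ).coe_σT _ _)).trans (hψ _))

omit hψ in
theorem hE6_one {i : Fin chevE6.rank} {a b : ℕ} (h : (rsE6.simple i).1 = a ∧ (rsE6.neg (rsE6.simple i)).1 = b)
    (h1 : ∀ g, (∃ t : {t : K // ψ t = t}, g = (YE6 K).word [(a, t.1)]) → g ∈ (twE6 ψ).G1)
    (h2 : ∀ g, (∃ t : {t : K // ψ t = t}, g = (YE6 K).word [(b, t.1)]) → g ∈ (twE6 ψ).G1) {t : K} (ht : ψ t = t) :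
    (PE6 K).h (rsE6.simple i) t ∈ (twE6 ψ).G1 :=
  St.h_mem_one (p := fun t => ψ t = t) (map_one ψ) (fun t ht => by simp [ht]) (fun t ht =>
    ⟨h1 _ ⟨⟨t, ht⟩, by simp [(mE6 K).st_x_eq _ h.1]⟩, h2 _ ⟨⟨t, ht⟩, by simp [(mE6 K).st_x_eq _ h.2]⟩⟩) ht

omit hψ in
theorem hE6_two {i j : Fin chevE6.rank} {a b a' b' : ℕ} (h : (rsE6.simple i).1 = a ∧
    (rsE6.neg (rsE6.simple i)).1 = b ∧ (rsE6.simple j).1 = a' ∧ (rsE6.neg (rsE6.simple j)).1 = b')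
    (ho : (PE6 K).Orth (rsE6.simple i) (rsE6.simple j))
    (h1 : ∀ g, (∃ t : K, g = (YE6 K).word [(a, t), (a', ψ t)]) → g ∈ (twE6 ψ).G1)
    (h2 : ∀ g, (∃ t : K, g = (YE6 K).word [(b, t), (b', ψ t)]) → g ∈ (twE6 ψ).G1) (t : K) :
    (PE6 K).h (rsE6.simple i) t * (PE6 K).h (rsE6.simple j) (ψ t) ∈ (twE6 ψ).G1 :=
  St.h_mem_two ho (RingEquiv.refl K) ψ (fun t =>
    ⟨h1 _ ⟨t, by simp [(mE6 K).st_x_eq _ h.1, (mE6 K).st_x_eq _ h.2.2.1]⟩,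
      h2 _ ⟨t, by simp [(mE6 K).st_x_eq _ h.2.1, (mE6 K).st_x_eq _ h.2.2.2]⟩⟩) t

theorem hTE6_mem {c : Fin chevE6.rank → Kˣ} (hc : c ∈ (twE6 ψ).CT) : (PE6 K).hT c ∈ (twE6 ψ).G1 := by
  obtain ⟨h0, h1, h2, h3⟩ := (mem_CTE6 hψ).1 hc
  rw [(PE6 K).hT_eq_list [ndE6 1, ndE6 3, ndE6 2, ndE6 4, ndE6 0, ndE6 5] (by decide +kernel)]
  simp only [List.map_cons, List.map_nil, List.prod_cons, List.prod_nil, mul_one, ← h0, ← h2]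
  rw [← mul_assoc ((PE6 K).h (rsE6.simple (ndE6 2)) _)]
  refine mul_mem ?_ (mul_mem ?_ (mul_mem ?_ ?_))
  · exact hE6_one (by decide +kernel) (fun g hg => (twE6 ψ).XJ_inf_le_G1 (ndE6 1) ((fixE6p1 g).2 hg))
      (fun g hg => (twE6 ψ).YJ_inf_le_G1 (ndE6 1) ((fixE6m1 g).2 hg)) h1
  · exact hE6_one (by decide +kernel) (fun g hg => (twE6 ψ).XJ_inf_le_G1 (ndE6 3) ((fixE6p3 g).2 hg))
      (fun g hg => (twE6 ψ).YJ_inf_le_G1 (ndE6 3) ((fixE6m3 g).2 hg)) h3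
  · exact hE6_two (by decide +kernel) (orthE6 (by decide +kernel))
      (fun g hg => (twE6 ψ).XJ_inf_le_G1 (ndE6 2) ((fixE6p2 hψ g).2 hg))
      (fun g hg => (twE6 ψ).YJ_inf_le_G1 (ndE6 2) ((fixE6m2 hψ g).2 hg)) _
  · exact hE6_two (by decide +kernel) (orthE6 (by decide +kernel))
      (fun g hg => (twE6 ψ).XJ_inf_le_G1 (ndE6 0) ((fixE6p0 hψ g).2 hg))
      (fun g hg => (twE6 ψ).YJ_inf_le_G1 (ndE6 0) ((fixE6m0 hψ g).2 hg)) _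

theorem cardHE6 [Fintype K] {q : ℕ} (hq : ∀ t, ψ t = t ^ q) (hq1 : 1 ≤ q) (hK : Fintype.card K = q ^ 2) :
    Nat.gcd 3 (q + 1) * Nat.card ↥((PE6 K).H ⊓ (twE6 ψ).G1) = (q - 1) ^ 4 * (q + 1) ^ 2 := by
  classical
  have hsq : q ^ 2 - 1 = (q + 1) * (q - 1) := by simpa using Nat.sq_sub_sq q 1
  have h1 := (twE6 ψ).card_H1 ((twE6 ψ).coh_two (σTE6 hψ) fun z hz => by
    obtain ⟨h1, h2⟩ := (kerE6 z).1 hz
    ext1 k
    rw [Pi.pow_apply, h2, ← pow_mul, mul_comm, pow_mul, h1, one_pow, Pi.one_apply]) fun _ => hTE6_mem hψ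
  have h2 : Nat.card (twE6 ψ).CT = (q - 1) ^ 4 * (q + 1) ^ 2 := by
    rw [card_of_param (G := Fin chevE6.rank → Kˣ) (α := Kˣ × Kˣ × {c : Kˣ // c ^ q = c} × {c : Kˣ // c ^ q = c})
      (f := fun p i => [p.1, p.2.2.1.1, p.2.1, p.2.2.2.1, p.2.1 ^ q, p.1 ^ q].getD i 1) (fun c => ?_) ?_]
    · simp only [Nat.card_prod, card_fixed_units hq1 hK, Nat.card_eq_fintype_card (α := Kˣ), Fintype.card_units, hK,
        hsq]
      ring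
    · intro p p' e
      exact Prod.ext (congrFun e (ndE6 0)) (Prod.ext (congrFun e (ndE6 2))
        (Prod.ext (Subtype.ext (congrFun e (ndE6 1))) (Subtype.ext (congrFun e (ndE6 3)))))
    · simp only [mem_CTE6 hψ, hq, ← Units.val_pow_eq_pow_val, Units.val_inj]
      constructor
      · rintro ⟨h0, h1, h2, h3⟩
        exact ⟨(_, _, ⟨_, h1⟩, ⟨_, h3⟩), funext (forall_ndE6.2 ⟨rfl, rfl, rfl, rfl, h2.symm, h0.symm⟩)⟩
      · rintro ⟨p, rfl⟩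
        exact ⟨rfl, p.2.2.1.2, rfl, p.2.2.2.2⟩
  have hv : dec8 0x020100020001 (ndE6 0) = 1 ∧ dec8 0x020100020001 (ndE6 1) = 0 ∧
      dec8 0x020100020001 (ndE6 2) = 2 ∧ dec8 0x020100020001 (ndE6 3) = 0 ∧ dec8 0x020100020001 (ndE6 4) = 1 ∧
      dec8 0x020100020001 (ndE6 5) = 2 := by decide +kernel
  have h3 : Nat.card ↥((twE6 ψ).CT ⊓ (PE6 K).hT.ker) = Nat.gcd 3 (q + 1) := by
    rw [card_of_param (G := Fin chevE6.rank → Kˣ) (α := {z : Kˣ // z ^ Nat.gcd 3 (q + 1) = 1})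
      (f := fun z k => z.1 ^ dec8 0x020100020001 k) (fun c => ?_) ?_, card_pow_eq_one, hK, hsq]
    · exact Nat.gcd_eq_right ((Nat.gcd_dvd_right _ _).mul_right _)
    · intro z z' e
      exact Subtype.ext (by simpa [hv] using congrFun e (ndE6 0))
    · simp only [Subgroup.mem_inf, MonoidHom.mem_ker, kerE6, mem_CTE6 hψ, hq, ← Units.val_pow_eq_pow_val,
        Units.val_inj]
      constructor
      · rintro ⟨⟨h0, -⟩, h1, h2⟩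
        refine ⟨⟨c (ndE6 0), pow_gcd_eq_one.2 ⟨h1, ?_⟩⟩, funext h2⟩
        rw [pow_succ, h0, h2 (ndE6 5), hv.2.2.2.2.2, ← pow_succ, h1]
      · rintro ⟨⟨z, hz⟩, rfl⟩
        obtain ⟨h1, h2⟩ := pow_gcd_eq_one.1 hz
        have h3 : z ^ q = z ^ 2 := mul_right_cancel (b := z) (by rw [← pow_succ, h2, ← pow_succ, h1])
        simp only [hv, pow_one, pow_zero, one_pow, h1, h3, true_and, and_true, implies_true]
        rw [← pow_mul, mul_comm, pow_mul, h3, ← pow_mul, pow_succ, h1, one_mul]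
  rw [mul_comm, ← h3, h1, h2]

end E6

section D4

theorem forall_ndD4 {p : Fin chevD4.rank → Prop} :
    (∀ i, p i) ↔ p (ndD4 0) ∧ p (ndD4 1) ∧ p (ndD4 2) ∧ p (ndD4 3) := by
  refine ⟨fun h => ⟨h _, h _, h _, h _⟩, fun ⟨h0, h1, h2, h3⟩ i => ?_⟩
  have : ∀ i : Fin chevD4.rank, i = ndD4 0 ∨ i = ndD4 1 ∨ i = ndD4 2 ∨ i = ndD4 3 := by decide +kernel
  rcases this i with rfl | rfl | rfl | rfl <;> assumption

theorem τD4 : symD4.τ (ndD4 0) = ndD4 2 ∧ symD4.τ (ndD4 1) = ndD4 1 ∧ symD4.τ (ndD4 2) = ndD4 3 ∧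
    symD4.τ (ndD4 3) = ndD4 0 := by decide +kernel

variable {K : Type*} [Field K] {ψ : K ≃+* K}

theorem kerD4 {c : Fin chevD4.rank → Kˣ} (h : (PD4 K).hT c = 1) : c ^ 2 = 1 :=
  pow_eq_one_of_mon (((mD4 K).st_hT_eq_one_iff linkD4 c).1 h)
    (ofLL [[2, 2, 1, 1], [2, 4, 2, 2], [1, 2, 2, 1], [1, 2, 1, 2]]) (by decide +kernel)

theorem orthD4 {r s : Fin chevD4.nroots} (h : comB 24 0 (fN rowsD4) (fP rowsD4) r s = true ∧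
    comB 24 0 (fN rowsD4) (fP rowsD4) r (rsD4.neg s) = true ∧
    comB 24 0 (fN rowsD4) (fP rowsD4) (rsD4.neg r) s = true ∧
    comB 24 0 (fN rowsD4) (fP rowsD4) (rsD4.neg r) (rsD4.neg s) = true) : (PD4 K).Orth r s :=
  (mD4 K).orth_of_comB linkD4 tabD4 (by simp) h

variable (hψ : ∀ t, ψ (ψ (ψ t)) = t)
include hψ

theorem mem_CTD4 {c : Fin chevD4.rank → Kˣ} : c ∈ (twD4 ψ).CT ↔ ψ (c (ndD4 0)) = c (ndD4 2) ∧
    ψ (c (ndD4 1)) = c (ndD4 1) ∧ ψ (c (ndD4 2)) = c (ndD4 3) := by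
  rw [Twist.mem_CT, forall_ndD4]
  simp only [twD4_φ, twD4_sym, τD4]
  exact ⟨fun h => ⟨h.1, h.2.1, h.2.2.1⟩, fun h => ⟨h.1, h.2.1, h.2.2, by rw [← h.2.2, ← h.1, hψ]⟩⟩

theorem σTD4 (c : Fin chevD4.rank → Kˣ) : (twD4 ψ).σT ((twD4 ψ).σT ((twD4 ψ).σT c)) = c := by
  ext j
  have : ∀ j, symD4.τ (symD4.τ (symD4.τ j)) = j := by decide +kernel
  conv_lhs => rw [← this j]
  exact ((twD4 ψ).coe_σT _ _).trans ((congrArg ψ (((twD4 ψ).coe_σT _ _).trans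
    (congrArg ψ ((twD4 ψ).coe_σT _ _)))).trans (hψ _))

theorem hTD4_mem {c : Fin chevD4.rank → Kˣ} (hc : c ∈ (twD4 ψ).CT) : (PD4 K).hT c ∈ (twD4 ψ).G1 := by
  obtain ⟨h0, h1, h2⟩ := (mem_CTD4 hψ).1 hc
  have hs : ((rsD4.simple (ndD4 0)).1 = d4p1 ∧ (rsD4.simple (ndD4 2)).1 = d4p3 ∧ (rsD4.simple (ndD4 3)).1 = d4p4 ∧
      (rsD4.simple (ndD4 1)).1 = d4p2) ∧ (rsD4.neg (rsD4.simple (ndD4 0))).1 = d4m1 ∧
      (rsD4.neg (rsD4.simple (ndD4 2))).1 = d4m3 ∧ (rsD4.neg (rsD4.simple (ndD4 3))).1 = d4m4 ∧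
      (rsD4.neg (rsD4.simple (ndD4 1))).1 = d4m2 := by decide +kernel
  obtain ⟨⟨a1, a2, a3, a4⟩, b1, b2, b3, b4⟩ := hs
  rw [(PD4 K).hT_eq_list [ndD4 1, ndD4 0, ndD4 2, ndD4 3] (by decide +kernel)]
  simp only [List.map_cons, List.map_nil, List.prod_cons, List.prod_nil, mul_one, ← h0, ← h2]
  refine mul_mem ?_ ?_
  swap
  · exact St.h_mem_three (orthD4 (by decide +kernel)) (orthD4 (by decide +kernel)) (orthD4 (by decide +kernel))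
      ψ (ψ.trans ψ) (fun t => ⟨(twD4 ψ).XJ_inf_le_G1 (ndD4 0) ((fixD4p0 hψ _).2 ⟨t, by
        simp [(mD4 K).st_x_eq _ a1, (mD4 K).st_x_eq _ a2, (mD4 K).st_x_eq _ a3]⟩),
      (twD4 ψ).YJ_inf_le_G1 (ndD4 0) ((fixD4m0 hψ _).2 ⟨t, by
        simp [(mD4 K).st_x_eq _ b1, (mD4 K).st_x_eq _ b2, (mD4 K).st_x_eq _ b3]⟩)⟩) _
  · exact St.h_mem_one (p := fun t => ψ t = t) (map_one ψ) (fun t ht => by simp [ht]) (fun t ht =>
      ⟨(twD4 ψ).XJ_inf_le_G1 (ndD4 1) ((fixD4p1 _).2 ⟨⟨t, ht⟩, by simp [(mD4 K).st_x_eq _ a4]⟩),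
        (twD4 ψ).YJ_inf_le_G1 (ndD4 1) ((fixD4m1 _).2 ⟨⟨t, ht⟩, by simp [(mD4 K).st_x_eq _ b4]⟩)⟩) h1

omit hψ in
theorem CT_inf_kerD4 : (twD4 ψ).CT ⊓ (PD4 K).hT.ker = ⊥ := by
  refine eq_bot_iff.2 fun c ⟨h1, h2⟩ => ?_
  have h3 : ∀ i, c (symD4.τ i) = c i := fun i => by
    have h4 : (c i : K) ^ 2 = 1 := congrArg Units.val (congrFun (kerD4 h2) i)
    refine Units.ext (((twD4 ψ).mem_CT.1 h1 i).symm.trans ?_)
    rcases sq_eq_one_iff.1 h4 with h | h <;> simp [h]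
  have h4 := ((mD4 K).st_hT_eq_one_iff linkD4 c).1 h2
  have e : ∀ b : Fin chevD4.rank → ℤ, ∏ i, c i ^ b i =
      c (ndD4 0) ^ (b (ndD4 0) + b (ndD4 2) + b (ndD4 3)) * c (ndD4 1) ^ b (ndD4 1) := fun b => by
    have h5 := h3 (ndD4 0)
    have h6 := h3 (ndD4 2)
    rw [τD4.1] at h5
    rw [τD4.2.2.1, h5] at h6
    refine (Fin.prod_univ_four (fun i => c i ^ b i)).trans ?_
    show c (ndD4 0) ^ b (ndD4 0) * c (ndD4 1) ^ b (ndD4 1) * c (ndD4 2) ^ b (ndD4 2) * c (ndD4 3) ^ b (ndD4 3) = _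
    rw [h5, h6, zpow_add, zpow_add]; ac_rfl
  have e' : ∀ (l : List ℤ) (x y : ℤ) (b : Fin chevD4.rank → ℤ), (b = fun i => ∑ j, rsD4.A i j * l.getD j 0) →
      b (ndD4 0) + b (ndD4 2) + b (ndD4 3) = x ∧ b (ndD4 1) = y → c (ndD4 0) ^ x * c (ndD4 1) ^ y = 1 := by
    rintro l _ _ _ rfl ⟨rfl, rfl⟩
    exact (e _).symm.trans (prod_zpow_eq_one h4 fun j => l.getD j 0)
  have h5 : c (ndD4 0) = 1 := by simpa using e' [2, 1, 0, 0] 1 0 _ rfl (by decide +kernel)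
  have h6 : c (ndD4 1) = 1 := by simpa using e' [3, 2, 0, 0] 0 1 _ rfl (by decide +kernel)
  have h7 : c (ndD4 2) = 1 := by rw [← τD4.1, h3, h5]
  exact funext (forall_ndD4.2 ⟨h5, h6, h7, by rw [← τD4.2.2.1, h3, h7]; rfl⟩)

theorem cardHD4 [Fintype K] {q : ℕ} (hq : ∀ t, ψ t = t ^ q) (hq1 : 1 ≤ q) (hK : Fintype.card K = q ^ 3) :
    Nat.card ↥((PD4 K).H ⊓ (twD4 ψ).G1) = (q - 1) ^ 2 * (q ^ 2 + q + 1) := by
  classical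
  have hc : q ^ 3 - 1 = (q - 1) * (q ^ 2 + q + 1) := by
    obtain ⟨k, rfl⟩ := Nat.exists_eq_add_of_le' hq1
    rw [Nat.add_sub_cancel, Nat.sub_eq_iff_eq_add (Nat.one_le_pow _ _ hq1)]; ring
  have h1 := (twD4 ψ).card_H1 ((twD4 ψ).coh_three (σTD4 hψ) fun z => kerD4) fun _ => hTD4_mem hψ
  rw [CT_inf_kerD4, Subgroup.card_bot, mul_one] at h1
  rw [h1, card_of_param (G := Fin chevD4.rank → Kˣ) (α := Kˣ × {c : Kˣ // c ^ q = c})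
    (f := fun p i => [p.1, p.2.1, p.1 ^ q, (p.1 ^ q) ^ q].getD i 1) (fun c => ?_) ?_]
  · simp only [Nat.card_prod, card_fixed_units hq1 hK, Nat.card_eq_fintype_card (α := Kˣ), Fintype.card_units, hK,
      hc]
    ring
  · intro p p' e
    exact Prod.ext (congrFun e (ndD4 0)) (Subtype.ext (congrFun e (ndD4 1)))
  · simp only [mem_CTD4 hψ, hq, ← Units.val_pow_eq_pow_val, Units.val_inj]
    constructor
    · rintro ⟨h0, h1, h2⟩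
      exact ⟨(_, ⟨_, h1⟩), funext (forall_ndD4.2 ⟨rfl, rfl, h0.symm, by rw [← h2, ← h0]; rfl⟩)⟩
    · rintro ⟨p, rfl⟩
      exact ⟨rfl, p.2.2, rfl⟩

end D4

end Cfsg.Agent.Chev
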