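/-
Perfectness and simplicity of the twisted groups.
-/
import Cfsg.Agent.Chev.TwHE6
import Cfsg.Agent.Chev.TwHG2

set_option autoImplicit false

namespace Cfsg.Agent.Chev

open Cfsg.Lie St0 St

theorem commutator_eq_top_of_le' {G : Type*} [Group G] {K : Subgroup G} (h : K ≤ ⁅K, K⁆) : commutator K = ⊤ := by
  rw [eq_top_iff]
  intro g _
  have := h g.2
  rw [← Subgroup.map_subtype_commutator] at this
  obtain ⟨y, hy, e⟩ := this
  rwa [← Subtype.ext e]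

section
variable {ι R : Type} [Fintype ι] [DecidableEq ι] [Fintype R] [LinearOrder R]
  {Φ : RootSys ι R} {F G : Type*} [Field F] [Group G] {P : St Φ F G}

theorem St.hT_conj_prod (P : St Φ F G) (c : ι → Fˣ) (L : List R) (t : R → F) :
    P.hT c * P.prod L t * (P.hT c)⁻¹ = P.prod L fun r => chi Φ c r * t r := by
  induction L with
  | nil => simp
  | cons a L ih => rw [prod_cons, prod_cons, ← ih, ← P.hT_conj]; group

theorem St.Faithful.eq_one_of_hT_conj (hP : P.Faithful) {J : Set ι} {c : ι → Fˣ}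
    (hχ : ∀ r, Φ.IsPos r → Φ.InJ J r → chi Φ c r ≠ 1) {g : G} (hg : g ∈ P.XJ J)
    (h : P.hT c * g * (P.hT c)⁻¹ = g) : g = 1 := by
  classical
  obtain ⟨t, rfl⟩ := P.exists_prod (closed_XJ J) (Finset.univ.filter fun r => Φ.IsPos r ∧ Φ.InJ J r).toList
    (Finset.nodup_toList _) (by simp) hg
  rw [hT_conj_prod] at h
  rw [← P.prod_zero]
  refine P.prod_congr fun r hr => ?_
  have h1 := hP.prod_injective (Finset.nodup_toList _) (by simp +contextual) h r hr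
  have h2 : Φ.IsPos r ∧ Φ.InJ J r := by simpa using hr
  by_contra h3
  exact hχ r h2.1 h2.2 (Units.ext (by simpa [show t r ≠ 0 from h3] using h1))

namespace Twist

variable {T : Twist P}

theorem Good.XJ_le_commutator [Finite G] (hT : T.Good) {i : ι} {c : ι → Fˣ} (hc : P.hT c ∈ T.G1)
    (hχ : ∀ r, Φ.IsPos r → Φ.InJ (T.orb i) r → chi Φ c r ≠ 1) : P.XJ (T.orb i) ⊓ T.Fix ≤ ⁅T.G1, T.G1⁆ := by
  have h1 : ∀ y ∈ P.XJ (T.orb i) ⊓ T.Fix, P.hT c * y * (P.hT c)⁻¹ ∈ P.XJ (T.orb i) ⊓ T.Fix := fun y hy =>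
    ⟨conj_mem_of_mem_normalizer (P.H_le_normalizer _ (P.hT_mem_H c)) hy.1,
      mul_mem (mul_mem (T.G1_le_Fix hc) hy.2) (T.Fix.inv_mem (T.G1_le_Fix hc))⟩
  let f : ↥(P.XJ (T.orb i) ⊓ T.Fix) → ↥(P.XJ (T.orb i) ⊓ T.Fix) := fun y =>
    ⟨P.hT c * y * (P.hT c)⁻¹ * (y : G)⁻¹, mul_mem (h1 _ y.2) (inv_mem y.2)⟩
  have hf : Function.Injective f := fun y z e => by
    have e1 : P.hT c * y * (P.hT c)⁻¹ * (y : G)⁻¹ = P.hT c * z * (P.hT c)⁻¹ * (z : G)⁻¹ := congrArg Subtype.val e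
    have := hT.faithful.eq_one_of_hT_conj hχ (mul_mem (inv_mem z.2) y.2).1 (by
      have e2 : P.hT c * y * (P.hT c)⁻¹ = P.hT c * z * (P.hT c)⁻¹ * (z : G)⁻¹ * y := by rw [← e1]; group
      calc _ = (P.hT c * z * (P.hT c)⁻¹)⁻¹ * (P.hT c * y * (P.hT c)⁻¹) := by group
        _ = _ := by rw [e2]; group)
    exact Subtype.ext (inv_mul_eq_one.1 this).symm
  intro g hg
  obtain ⟨y, hy⟩ := Finite.surjective_of_injective hf ⟨g, hg⟩
  have e : P.hT c * y * (P.hT c)⁻¹ * (y : G)⁻¹ = g := congrArg Subtype.val hy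
  have := Subgroup.commutator_mem_commutator hc (T.XJ_inf_le_G1 i y.2)
  rwa [commutatorElement_def, e] at this

theorem Good.x_mem_of_act (hT : T.Good) {K : Subgroup G} (hK : T.G1 ≤ Subgroup.normalizer (K : Set G))
    {r s : R} {w : Φ.W} (hw : w ∈ T.W1) (e : Φ.act w r = s) (h : ∀ t, P.x r t ∈ T.Fix → P.x r t ∈ K) {t : F}
    (ht : P.x s t ∈ T.Fix) : P.x s t ∈ K := by
  obtain ⟨n, hn, h'⟩ := hT.exists_n hw
  obtain ⟨u, -, e'⟩ := h'.inv.conj_x s t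
  rw [← e, Φ.act_inv_act, inv_inv, e] at e'
  have h1 := T.G1_le_Fix hn.2
  have := conj_mem_of_mem_normalizer (hK hn.2) (h u (e' ▸ mul_mem (mul_mem (T.Fix.inv_mem h1) ht) h1))
  rw [← e'] at this
  simpa [mul_assoc] using this

theorem Good.G1_le_of_XJ (hT : T.Good) {K : Subgroup G} (hK : T.G1 ≤ Subgroup.normalizer (K : Set G))
    (h : ∀ i, P.XJ (T.orb i) ⊓ T.Fix ≤ K) : T.G1 ≤ K := by
  refine iSup_le fun i => sup_le (h i) fun g hg => ?_
  obtain ⟨n, hn, h'⟩ := hT.exists_n_orb i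
  have h1 := T.G1_le_Fix hn.2
  have := conj_mem_of_mem_normalizer (hK hn.2) (h i ⟨h'.conj_mem_X' (fun r hr => by
    rw [Φ.w0J_inv]
    exact ⟨Φ.w0J_pos_of_neg hr.1 hr.2, (Φ.inJ_act (Φ.w0J_mem _)).2 hr.2⟩) hg.1,
      mul_mem (mul_mem (T.Fix.inv_mem h1) hg.2) h1⟩)
  simpa [mul_assoc] using this

theorem Good.perfect_of (hT : T.Good) (h : ∀ i, P.XJ (T.orb i) ⊓ T.Fix ≤ ⁅T.G1, T.G1⁆) : commutator T.G1 = ⊤ :=
  commutator_eq_top_of_le' (hT.G1_le_of_XJ (Subgroup.normalizer_commutator_ge_left _ _) h)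

end Twist

end

theorem MatRel.y_mem_commutator {D : ChevalleyDatum} {F : Type*} [Field F] (hM : MatRel D F)
    {Φ : RootSys (Fin D.rank) (Fin D.nroots)} (L : Link D Φ) (T : Tab D) {r s k : ℕ} {ε : ℤ}
    (h : r < D.nroots ∧ s < D.nroots ∧ s ≠ r ∧ r + s + 1 ≠ D.nroots ∧ cT T.N T.P r s = [(k, ε, 1, 1)])
    {K : Subgroup (hM.GG L)} {t u : F} (hr : (hM.gr L).y r t ∈ K) (hs : (hM.gr L).y s u ∈ K) :
    (hM.gr L).y k (-(ε * t * u)) ∈ ⁅K, K⁆ := by
  have := Subgroup.commutator_mem_commutator (inv_mem hs) (inv_mem hr)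
  rw [commutatorElement_def, inv_inv, inv_inv, mul_assoc, hM.gr_comm L T h] at this
  simpa [DRel.val, mul_assoc] using this

theorem exists_unit_sq_ne_one {K : Type*} [Field K] [Fintype K] (h : 3 < Fintype.card K) :
    ∃ c : Kˣ, c ^ 2 ≠ 1 := by
  classical
  by_contra hc
  push Not at hc
  have h1 := card_pow_eq_one (K := K) 2
  rw [Nat.card_congr (Equiv.subtypeUnivEquiv hc), Nat.card_eq_fintype_card, Fintype.card_units] at h1
  have := Nat.gcd_le_right (Fintype.card K - 1) two_pos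
  omega

theorem prod_ndE6 {M : Type*} [CommMonoid M] (f : Fin chevE6.rank → M) :
    ∏ i, f i = f (ndE6 0) * f (ndE6 1) * f (ndE6 2) * f (ndE6 3) * f (ndE6 4) * f (ndE6 5) := Fin.prod_univ_six f

theorem prod_ndD4 {M : Type*} [CommMonoid M] (f : Fin chevD4.rank → M) :
    ∏ i, f i = f (ndD4 0) * f (ndD4 1) * f (ndD4 2) * f (ndD4 3) := Fin.prod_univ_four f

variable {K : Type*} [Field K] [Fintype K]

theorem map_sq_ne_one (ψ : K ≃+* K) {c : Kˣ} (hc : c ^ 2 ≠ 1) : Units.map (ψ : K →* K) c ^ 2 ≠ 1 := fun h =>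
  hc (Units.map_injective (f := (ψ : K →* K)) ψ.injective (by rw [map_pow, h, map_one]))

theorem perfectE6 {ψ : K ≃+* K} (hψ : ∀ t, ψ (ψ t) = t) (hK : 3 < Fintype.card K) :
    commutator (twE6 ψ).G1 = ⊤ := by
  obtain ⟨c, hc⟩ := exists_unit_sq_ne_one hK
  have hc' := map_sq_ne_one ψ hc
  have h47 : ∀ t, (PE6 K).x ⟨47, by decide⟩ t ∈ (twE6 ψ).Fix →
      (PE6 K).x ⟨47, by decide⟩ t ∈ ⁅(twE6 ψ).G1, (twE6 ψ).G1⁆ := fun t ht => by
    have h1 : ψ t = t := ((mE6 K).st_faithful linkE6).x_injective ⟨47, by decide⟩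
      ((twE6_y' ψ (r := 47) (by decide +kernel) t).symm.trans ht)
    change (YE6 K).y 47 t ∈ _
    simpa using (mE6 K).y_mem_commutator linkE6 tabE6 (r := e6p2) (s := e6p4) (k := 47) (ε := -1) (t := t) (u := 1)
      (by decide +kernel) ((twE6 ψ).XJ_inf_le_G1 (ndE6 1) ((fixE6p1 _).2 ⟨⟨t, h1⟩, by simp⟩))
      ((twE6 ψ).XJ_inf_le_G1 (ndE6 3) ((fixE6p3 _).2 ⟨⟨1, map_one ψ⟩, by simp⟩))
  have key : ∀ (i : Fin chevE6.rank) (s : Fin chevE6.nroots), (wdE6 i).foldr rsE6.refl ⟨47, by decide⟩ = s →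
      ∀ t, (YE6 K).word [(s, t)] ∈ (twE6 ψ).Fix → (YE6 K).word [(s, t)] ∈ ⁅(twE6 ψ).G1, (twE6 ψ).G1⁆ := by
    intro i s hs t
    simp only [DRel.word_cons, DRel.word_nil, mul_one]
    exact (goodE6 hψ).x_mem_of_act (Subgroup.normalizer_commutator_ge_left _ _) (symE6.w0J_orb_mem i)
      (by rw [w0JE6, RootSys.act_word, hs]) h47
  refine (goodE6 hψ).perfect_of fun i => ?_
  rw [twE6_sym]
  rcases orbE6_cases i with h | h | h | h <;> rw [h.1]
  · refine (goodE6 hψ).XJ_le_commutator (i := ndE6 0) (hTE6_mem hψ ((mem_CTE6 hψ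
      (c := fun i => [c, 1, 1, 1, 1, Units.map (ψ : K →* K) c].getD i 1)).2
      ⟨rfl, map_one ψ, map_one ψ, map_one ψ⟩)) fun r h1 h2 => ?_
    have : ∀ r : Fin chevE6.nroots, r.1 ∈ [e6p1, e6p6] → (rsE6.pair (rsE6.simple (ndE6 0)) r,
      rsE6.pair (rsE6.simple (ndE6 5)) r) ∈ [(2, 0), (0, 2)] := by decide +kernel
    have := this r ((lstE6p0.mem r).2 ⟨h1, h2⟩)
    simp only [List.mem_cons, Prod.mk.injEq, List.not_mem_nil, or_false] at this
    rw [chi, prod_ndE6]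
    rcases this with h | h <;> rw [h.1, h.2] <;> simpa [ndE6, zpow_ofNat]
  · intro g hg
    obtain ⟨t, rfl⟩ := (fixE6p1 g).1 hg
    exact key (ndE6 3) ⟨e6p2, by decide⟩ (by decide +kernel) _ hg.2
  · refine (goodE6 hψ).XJ_le_commutator (i := ndE6 2) (hTE6_mem hψ ((mem_CTE6 hψ
      (c := fun i => [1, 1, c, 1, Units.map (ψ : K →* K) c, 1].getD i 1)).2
      ⟨map_one ψ, map_one ψ, rfl, map_one ψ⟩)) fun r h1 h2 => ?_
    have : ∀ r : Fin chevE6.nroots, r.1 ∈ [e6p3, e6p5] → (rsE6.pair (rsE6.simple (ndE6 2)) r,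
      rsE6.pair (rsE6.simple (ndE6 4)) r) ∈ [(2, 0), (0, 2)] := by decide +kernel
    have := this r ((lstE6p2.mem r).2 ⟨h1, h2⟩)
    simp only [List.mem_cons, Prod.mk.injEq, List.not_mem_nil, or_false] at this
    rw [chi, prod_ndE6]
    rcases this with h | h <;> rw [h.1, h.2] <;> simpa [ndE6, zpow_ofNat]
  · intro g hg
    obtain ⟨t, rfl⟩ := (fixE6p3 g).1 hg
    exact key (ndE6 1) ⟨e6p4, by decide⟩ (by decide +kernel) _ hg.2

theorem perfectD4 {ψ : K ≃+* K} (hψ : ∀ t, ψ (ψ (ψ t)) = t) (hK : 3 < Fintype.card K) :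
    commutator (twD4 ψ).G1 = ⊤ := by
  obtain ⟨c, hc⟩ := exists_unit_sq_ne_one hK
  have hc' := map_sq_ne_one ψ hc
  have hc'' := map_sq_ne_one ψ hc'
  have h23 : ∀ t, (PD4 K).x ⟨23, by decide⟩ t ∈ (twD4 ψ).Fix →
      (PD4 K).x ⟨23, by decide⟩ t ∈ ⁅(twD4 ψ).G1, (twD4 ψ).G1⁆ := fun t ht => by
    have h1 : ψ t = t := ((mD4 K).st_faithful linkD4).x_injective ⟨23, by decide⟩
      ((twD4_y' ψ (r := 23) (by decide +kernel) t).symm.trans ht)
    change (YD4 K).y 23 t ∈ _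
    simpa using (mD4 K).y_mem_commutator linkD4 tabD4 (r := d4p2) (s := 22) (k := 23) (ε := 1) (t := t) (u := -1)
      (by decide +kernel) ((twD4 ψ).XJ_inf_le_G1 (ndD4 1) ((fixD4p1 _).2 ⟨⟨t, h1⟩, by simp⟩))
      ((goodD4 hψ).U_inf_Fix_le ⟨(PD4 K).x_mem_U (r := ⟨22, by decide⟩)
        ((rsD4.isPos_iff_neg_lt _).2 (by decide +kernel)) _,
        (twD4_y' ψ (r := 22) (s := 22) (by decide +kernel) _).trans (by simp)⟩)
  refine (goodD4 hψ).perfect_of fun i => ?_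
  rw [twD4_sym]
  rcases orbD4_cases i with h | h <;> rw [h.1]
  · refine (goodD4 hψ).XJ_le_commutator (i := ndD4 0) (hTD4_mem hψ ((mem_CTD4 hψ
      (c := fun i => [c, 1, Units.map (ψ : K →* K) c, Units.map (ψ : K →* K) (Units.map (ψ : K →* K) c)].getD i 1)).2
      ⟨rfl, map_one ψ, rfl⟩)) fun r h1 h2 => ?_
    have : ∀ r : Fin chevD4.nroots, r.1 ∈ [d4p1, d4p3, d4p4] → (rsD4.pair (rsD4.simple (ndD4 0)) r,
      rsD4.pair (rsD4.simple (ndD4 2)) r, rsD4.pair (rsD4.simple (ndD4 3)) r) ∈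
        [(2, 0, 0), (0, 2, 0), (0, 0, 2)] := by decide +kernel
    have := this r ((lstD4p0.mem r).2 ⟨h1, h2⟩)
    simp only [List.mem_cons, Prod.mk.injEq, List.not_mem_nil, or_false] at this
    rw [chi, prod_ndD4]
    rcases this with h | h | h <;> rw [h.1, h.2.1, h.2.2] <;> simpa [ndD4, zpow_ofNat]
  · intro g hg
    obtain ⟨t, rfl⟩ := (fixD4p1 g).1 hg
    simp only [DRel.word_cons, DRel.word_nil, mul_one] at hg ⊢
    exact (goodD4 hψ).x_mem_of_act (s := ⟨d4p2, by decide⟩) (Subgroup.normalizer_commutator_ge_left _ _)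
      (mul_mem (symD4.w0J_orb_mem (ndD4 0)) (symD4.w0J_orb_mem (ndD4 1)))
      (by rw [RootSys.act_mul, w0JD4, w0JD4, RootSys.act_word, RootSys.act_word]; decide +kernel) h23 hg.2

omit [Fintype K] in
theorem TwTheta.θu_injective {p e : ℕ} (Θ : TwTheta K p e) : Function.Injective Θ.θu :=
  Units.map_injective Θ.θ.injective

theorem perfectF4 {e : ℕ} (Θ : TwTheta K 2 e) (hK : 3 < Fintype.card K) : commutator (twF4 Θ).G1 = ⊤ := by
  obtain ⟨a, ha⟩ := exists_unit_sq_ne_one hK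
  have h0 : a ≠ 1 := by rintro rfl; simp at ha
  have h1 : Θ.θu a ≠ 1 := by rwa [Ne, map_eq_one_iff _ Θ.θu_injective]
  have h2 : Θ.θu a ^ 2 ≠ 1 := by rwa [← map_pow, Ne, map_eq_one_iff _ Θ.θu_injective]
  have h3 : Θ.θu a * a ≠ 1 := fun h4 => by
    have h5 : Θ.θu (Θ.θu a) = a := by
      have := congrArg Θ.θu h4
      rw [map_mul, map_one, ← h4, mul_comm] at this
      exact mul_left_cancel this
    have := Θ.θu_θu a
    rw [h5, sq, mul_eq_left] at this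
    exact h0 this
  have h4 : Θ.θu a ^ 2 * a ≠ 1 := fun h => h3 (by
    have := congrArg Θ.θu h
    rwa [map_mul, map_pow, Θ.θu_θu, map_one, mul_comm] at this)
  refine (goodF4 Θ).perfect_of fun i => (goodF4 Θ).XJ_le_commutator (torF4_mem Θ a 1) fun r hr hJ => ?_
  rw [twF4_sym] at hJ
  have : ∀ r : Fin chevF4.nroots, r.1 ∈ [f4p1, f4p4] ∨ r.1 ∈ [f4a, f4b, f4ab, f4aab] →
      (rsF4.pair (rsF4.simple (ndF4 0)) r, rsF4.pair (rsF4.simple (ndF4 3)) r) ∈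
        [(2, 0), (0, 2), (-1, 0), (0, -1), (-1, -1), (-2, -1)] := by decide +kernel
  have := this r (by
    rcases orbF4_cases i with h | h <;> rw [h.1] at hJ
    exacts [Or.inl ((lstF4p0.mem r).2 ⟨hr, hJ⟩), Or.inr ((lstF4p1.mem r).2 ⟨hr, hJ⟩)])
  simp only [List.mem_cons, Prod.mk.injEq, List.not_mem_nil, or_false] at this
  rw [chi, prod_ndF4]
  rcases this with h | h | h | h | h | h <;> rw [h.1, h.2] <;>
    simpa [ndF4, torF4, zpow_ofNat, ← mul_inv, -mul_inv_rev]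

theorem perfectG2 {e : ℕ} (Θ : TwTheta K 3 e) (hK : 3 < Fintype.card K) : commutator (twG2 Θ).G1 = ⊤ := by
  obtain ⟨a, ha⟩ := exists_unit_sq_ne_one hK
  have h0 : a ≠ 1 := by rintro rfl; simp at ha
  have h1 : Θ.θu a ≠ 1 := by rwa [Ne, map_eq_one_iff _ Θ.θu_injective]
  have h2 : Θ.θu a ≠ a := fun h => ha (by
    have := Θ.θu_θu a
    rwa [h, h, pow_succ, mul_eq_right] at this)
  have h3 : Θ.θu a ^ 2 ≠ a := fun h => h1 (by
    have h4 := congrArg (fun x => Θ.θu x ^ 3) h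
    simp only [map_pow] at h4
    rw [← pow_mul, mul_comm, pow_mul, Θ.θu_θu] at h4
    nth_rw 1 [← h] at h4
    rwa [← pow_mul, pow_succ, mul_eq_left] at h4)
  have h4 : Θ.θu a ^ 3 ≠ a := fun h => h2 (by
    have h4 := congrArg Θ.θu h
    rw [map_pow, Θ.θu_θu] at h4
    exact h4.symm)
  have h5 : Θ.θu a ^ 3 ≠ a ^ 2 := fun h => h3 (by
    have h4 := congrArg Θ.θu h
    rw [map_pow, map_pow, Θ.θu_θu] at h4
    exact h4.symm)
  refine (goodG2 Θ).perfect_of fun i => (goodG2 Θ).XJ_le_commutator (torG2_mem Θ a) fun r hr hJ => ?_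
  have : ∀ r : Fin chevG2.nroots, r.1 ∈ [g2a, g2b, g2ab, g2aab, g2aaab, g2aaabb] →
      (rsG2.pair (rsG2.simple (ndG2 0)) r, rsG2.pair (rsG2.simple (ndG2 1)) r) ∈
        [(2, -1), (-3, 2), (-1, 1), (1, 0), (3, -1), (0, 1)] := by decide +kernel
  have := this r ((lstG2p.mem r).2 ⟨hr, rsG2.inJ_univ r⟩)
  simp only [List.mem_cons, Prod.mk.injEq, List.not_mem_nil, or_false] at this
  rw [chi, prod_ndG2]
  rcases this with h | h | h | h | h | h <;> rw [h.1, h.2] <;>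
    simpa [ndG2, torG2, zpow_ofNat, mul_inv_eq_one, inv_mul_eq_one]

end Cfsg.Agent.Chev
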