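/-
Group theory for the Tits group: octagon relations, subgroups of index two.
-/
import Cfsg.Agent.Chev.StBasic

set_option autoImplicit false

namespace Cfsg.Agent.Chev

open Subgroup

section
variable {G : Type*} [Group G]

theorem isSimpleGroup_of_index_two {T : Subgroup G} (hT : T.index = 2)
    (h : ∀ K : Subgroup G, K.Normal → K = ⊥ ∨ T ≤ K) (hsq : ¬ IsSquare (Nat.card T)) : IsSimpleGroup T := by
  have := normal_of_index_eq_two hT
  have : Nontrivial T := by
    by_contra h1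
    rw [not_nontrivial_iff_subsingleton] at h1
    exact hsq (by rw [Nat.card_of_subsingleton 1]; exact IsSquare.one)
  obtain ⟨b, hb⟩ : ∃ b, b ∉ T := by
    by_contra h1
    push Not at h1
    rw [(eq_top_iff' T).2 h1, index_top] at hT
    omega
  refine ⟨fun M hM => ?_⟩
  let M' := M.comap (MulAut.conjNormal b : MulAut T).toMonoidHom
  have hM' : M'.Normal := hM.comap _
  have key : ∀ L : Subgroup T, L.Normal → (∀ g ∉ T, ∀ x ∈ L, MulAut.conjNormal g x ∈ L) → L = ⊥ ∨ L = ⊤ := by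
    intro L hL h1
    rcases h (L.map T.subtype) ⟨by
      rintro _ ⟨x, hx, rfl⟩ g
      by_cases hg : g ∈ T
      exacts [⟨_, hL.conj_mem x hx ⟨g, hg⟩, rfl⟩, ⟨_, h1 g hg x hx, rfl⟩]⟩ with h2 | h2
    · exact Or.inl ((map_eq_bot_iff_of_injective _ T.subtype_injective).1 h2)
    · refine Or.inr (eq_top_iff.2 fun x _ => ?_)
      obtain ⟨y, hy, e⟩ := h2 x.2
      exact Subtype.ext e ▸ hy
  have hA : ∀ g ∉ T, ∀ x ∈ M', MulAut.conjNormal g x ∈ M := fun g hg x hx => by
    convert hM.conj_mem _ hx ⟨g * b⁻¹, (mul_mem_iff_of_index_two hT).2 (by simp [hg, hb])⟩ using 1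
    ext; simp [mul_assoc]
  have hB : ∀ g ∉ T, ∀ x ∈ M, MulAut.conjNormal g x ∈ M' := fun g hg x hx => by
    have := hM.conj_mem _ hx ⟨b * g, (mul_mem_iff_of_index_two hT).2 (by simp [hg, hb])⟩
    rw [mem_comap]
    convert this using 1
    ext; simp [mul_assoc]
  rcases key (M ⊓ M') inferInstance (fun g hg x hx => ⟨hA g hg x hx.2, hB g hg x hx.1⟩) with h1 | h1
  · rcases key (M ⊔ M') inferInstance (fun g hg => (sup_le (fun x hx => mem_sup_right (hB g hg x hx))
      (fun x hx => mem_sup_left (hA g hg x hx)) :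
        M ⊔ M' ≤ (M ⊔ M').comap (MulAut.conjNormal g : MulAut T).toMonoidHom)) with h2 | h2
    · exact Or.inl (sup_eq_bot_iff.1 h2).1
    · refine absurd ⟨Nat.card M, ?_⟩ hsq
      have h3 := (isComplement'_of_disjoint_and_mul_eq_univ (disjoint_iff.2 h1)
        (by rw [← mul_normal, h2, coe_top])).card_mul_card
      rw [← h3, ← card_map_of_injective (K := M') (f := (MulAut.conjNormal b : MulAut T).toMonoidHom)
        (MulEquiv.injective _), map_comap_eq_self_of_surjective (MulEquiv.surjective _)]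
  · exact Or.inr (inf_eq_top_iff.1 h1).1

theorem commutator_le_ker_of_nilpotent {b : G} (h : ∀ g, g ∈ commutator G ∨ g * b ∈ commutator G)
    {P : Type*} [Group P] [Group.IsNilpotent P] (f : G →* P) : commutator G ≤ f.ker := by
  have h1 : commutator G ≤ ⁅commutator G, ⊤⁆ := commutator_le.2 fun x _ y _ => by
    rcases h x with hx | hx
    · exact commutator_mem_commutator hx (mem_top y)
    rw [commutator_comm]
    rcases h y with hy | hy
    · exact commutator_mem_commutator (mem_top x) hy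
    · convert commutator_mem_commutator (mem_top x) (mul_mem hy (inv_mem hx)) using 1
      simp only [commutatorElement_def]; group
  have h2 : ∀ n, commutator G ≤ (⊤ : Subgroup G).lowerCentralSeries n := fun n => by
    induction n with
    | zero => exact le_top
    | succ n ih => exact h1.trans (commutator_mono ih le_rfl)
  obtain ⟨n, hn⟩ := Subgroup.nilpotent_iff_lowerCentralSeries.1 ‹Group.IsNilpotent P›
  rw [← Subgroup.map_eq_bot_iff, eq_bot_iff, ← hn]
  exact (map_mono (h2 n)).trans ((map_lowerCentralSeries _ f n).le.trans (lowerCentralSeries_mono n le_top))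

theorem index_commutator_eq_two {b : G} (h : ∀ g, g ∈ commutator G ∨ g * b ∈ commutator G)
    (χ : G →* Multiplicative (ZMod 2)) (hb : χ b ≠ 1) : (commutator G).index = 2 := by
  have h1 := Abelianization.commutator_subset_ker χ
  refine index_eq_two_iff.2 ⟨b, fun g => ?_⟩
  by_cases hg : g ∈ commutator G
  · exact Or.inr ⟨hg, fun h2 => hb (h1 ((mul_mem_cancel_left hg).1 h2))⟩
  · exact Or.inl ⟨(h g).resolve_left hg, hg⟩

end

section
variable {M : Type*} [Group M] (g : ℕ → M)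

/-- value of a word -/
def octW (l : List ℕ) : M := (l.map g).prod

/-- subgroup generated by some of the generators -/
def octU (S : Set ℕ) : Subgroup M := closure (g '' S)

variable {g}

theorem octW_append (l l' : List ℕ) : octW g (l ++ l') = octW g l * octW g l' := by simp [octW]

theorem mem_octU {S : Set ℕ} {k : ℕ} (h : k ∈ S) : g k ∈ octU g S := subset_closure ⟨k, h, rfl⟩

theorem octW_mem {S : Set ℕ} {l : List ℕ} (h : ∀ k ∈ l, k ∈ S) : octW g l ∈ octU g S :=
  list_prod_mem (by simpa using fun k hk => mem_octU (h k hk))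

theorem octU_le {S : Set ℕ} {H : Subgroup M} (h : ∀ k ∈ S, g k ∈ H) : octU g S ≤ H :=
  (closure_le _).2 (by rintro _ ⟨k, hk, rfl⟩; exact h k hk)

theorem octU_conj {S : Set ℕ} {H : Subgroup M} {x : M} (h : ∀ k ∈ S, x * g k * x⁻¹ ∈ H) {y : M}
    (hy : y ∈ octU g S) : x * y * x⁻¹ ∈ H := octU_le (H := H.comap (MulAut.conj x).toMonoidHom) h hy

theorem octU_insert (S : Set ℕ) (k : ℕ) : octU g (insert k S) = octU g S ⊔ zpowers (g k) := by
  rw [octU, Set.image_insert_eq, Set.insert_eq, Subgroup.closure_union, zpowers_eq_closure, sup_comm, octU]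

theorem octU_norm [Finite M] {S : Set ℕ} {x : M} (h : ∀ k ∈ S, ∃ l : List ℕ, (∀ j ∈ l, j ∈ S) ∧ x * g k = octW g l * x) :
    zpowers x ≤ normalizer (octU g S : Set M) :=
  zpowers_le.2 (mem_normalizer_fintype fun _ => octU_conj fun k hk => by
    obtain ⟨l, h1, h2⟩ := h k hk
    rw [h2, mul_inv_cancel_right]
    exact octW_mem h1)

variable (g) in
/-- the relations for one of the two simple roots -/
structure OctS (s r c : ℕ) : Prop where
  lt : r < 8
  c8 : ∀ k < 16, (c - (k + 8) % 16) % 16 = ((c - k) % 16 + 8) % 16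
  cr : (c - r) % 16 = r + 8
  cp : ∀ k < 8, k ≠ r → (c - k) % 16 < 8
  sq : g s * g s = 1
  conj : ∀ k < 16, g s * g k * g s = g ((c - k) % 16)
  pow : g r ^ 4 = 1
  norm : ∀ k < 8, k ≠ r → ∃ l : List ℕ, (∀ j ∈ l, j < 8 ∧ j ≠ r) ∧ g r * g k = octW g l * g r
  rel : ∀ e < 4, g r ^ e = 1 ∨ ∃ a b : ℕ, g s * g r ^ e * g s = g r ^ a * g s * g r ^ b

theorem OctS.inv {s r c : ℕ} (h : OctS g s r c) : (g s)⁻¹ = g s := inv_eq_of_mul_eq_one_right h.sq

theorem oct_conj {r c r' c' : ℕ} (h : OctS g 16 r c) (h' : OctS g 17 r' c') {m : M} (hm : m ∈ octU g {16, 17})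
    {k : ℕ} (hk : k < 8) : m * g k * m⁻¹ ∈ octU g (Set.Iio 8) ∨ m * g (k + 8) * m⁻¹ ∈ octU g (Set.Iio 8) := by
  have : ∃ j < 16, m * g k * m⁻¹ = g j ∧ m * g (k + 8) * m⁻¹ = g ((j + 8) % 16) := by
    have key : ∀ {s r c : ℕ}, OctS g s r c → ∀ m : M, (∃ j < 16, m * g k * m⁻¹ = g j ∧
        m * g (k + 8) * m⁻¹ = g ((j + 8) % 16)) → ∃ j < 16, (g s * m) * g k * (g s * m)⁻¹ = g j ∧
        (g s * m) * g (k + 8) * (g s * m)⁻¹ = g ((j + 8) % 16) := by
      rintro s r c h m ⟨j, hj, h1, h2⟩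
      refine ⟨(c - j) % 16, by omega, ?_, ?_⟩
      · rw [← h.conj j hj, ← h1, mul_inv_rev, h.inv]; group
      · rw [← h.c8 j hj, ← h.conj _ (by omega), ← h2, mul_inv_rev, h.inv]; group
    induction hm using closure_induction_left with
    | one => exact ⟨k, by omega, by simp, by rw [Nat.mod_eq_of_lt (by omega)]; simp⟩
    | mul_left x hx y _ ih =>
      obtain ⟨s, rfl | rfl, rfl⟩ := hx
      exacts [key h y ih, key h' y ih]
    | inv_mul_cancel x hx y _ ih =>
      obtain ⟨s, rfl | rfl, rfl⟩ := hx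
      exacts [h.inv.symm ▸ key h y ih, h'.inv.symm ▸ key h' y ih]
  obtain ⟨j, hj, h1, h2⟩ := this
  rw [h1, h2]
  by_cases h3 : j < 8
  exacts [Or.inl (mem_octU h3), Or.inr (mem_octU (show (j + 8) % 16 < 8 by omega))]

theorem oct_bruhat [Finite M] {r c r' c' : ℕ} (h : OctS g 16 r c) (h' : OctS g 17 r' c') {x : M}
    (hx : x ∈ octU g (Set.Iio 8 ∪ {16, 17})) :
    ∃ u ∈ octU g (Set.Iio 8), ∃ m ∈ octU g {16, 17}, ∃ u' ∈ octU g (Set.Iio 8), x = u * m * u' := by
  have key : ∀ {s r c : ℕ}, OctS g s r c → s ∈ ({16, 17} : Set ℕ) → ∀ x : M,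
      (∃ u ∈ octU g (Set.Iio 8), ∃ m ∈ octU g {16, 17}, ∃ u' ∈ octU g (Set.Iio 8), x = u * m * u') →
      ∃ u ∈ octU g (Set.Iio 8), ∃ m ∈ octU g {16, 17}, ∃ u' ∈ octU g (Set.Iio 8), x * g s = u * m * u' := by
    rintro s r c h1 hs _ ⟨u, hu, m, hm, u', hu', rfl⟩
    have hr : ∀ a : ℕ, g r ^ a ∈ octU g (Set.Iio 8) := fun a => pow_mem (mem_octU (S := Set.Iio 8) h1.lt) a
    have hn := mem_octU (g := g) hs
    rw [show Set.Iio 8 = insert r {j | j < 8 ∧ j ≠ r} by have := h1.lt; ext; simp; omega, octU_insert] at hu'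
    obtain ⟨k, hk, y, hy, e⟩ := exists_mul_of_mem_sup (octU_norm fun k hk => h1.norm k hk.1 hk.2) (inv_mem hu')
    have hk' : g s * k⁻¹ * g s ∈ octU g (Set.Iio 8) := by
      nth_rw 2 [← h1.inv]
      exact octU_conj (fun j hj => by rw [h1.inv, h1.conj j (by have := hj.1; omega)]; exact mem_octU (h1.cp j hj.1 hj.2))
        (inv_mem hk)
    obtain ⟨a, ha⟩ := mem_powers_iff_mem_zpowers.2 (inv_mem hy)
    have e1 : u * m * u' * g s = u * (m * g r ^ (a % 4) * g s) * (g s * k⁻¹ * g s) := by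
      rw [← pow_eq_pow_mod a h1.pow, ← inv_inv u', e, show g r ^ a = y⁻¹ from ha]
      simp only [mul_assoc, ← mul_assoc (g s) (g s), h1.sq, one_mul, mul_inv_rev]
    have hp : ∀ {z : M}, m * z * m⁻¹ ∈ octU g (Set.Iio 8) → ∀ a : ℕ, m * z ^ a * m⁻¹ ∈ octU g (Set.Iio 8) :=
      fun hz a => by rw [← conj_pow]; exact pow_mem hz a
    rw [e1]
    rcases oct_conj h h' hm h1.lt with h2 | h2
    · exact ⟨_, mul_mem hu (hp h2 (a % 4)), _, mul_mem hm hn, _, hk', by group⟩
    rcases h1.rel (a % 4) (Nat.mod_lt _ four_pos) with h3 | ⟨a1, a2, h3⟩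
    · exact ⟨u, hu, _, mul_mem hm hn, _, hk', by rw [h3, mul_one]⟩
    · refine ⟨_, mul_mem hu (hp h2 a1), m, hm, _, mul_mem (hr a2) hk', ?_⟩
      rw [← h1.cr, ← h1.conj r (by have := h1.lt; omega)]
      nth_rw 5 [← h1.inv]
      rw [conj_pow, h1.inv]
      calc _ = u * (m * (g s * (g s * g r ^ (a % 4) * g s))) * (g s * k⁻¹ * g s) := by
            simp only [← mul_assoc (g s), h1.sq, one_mul, mul_assoc m]
        _ = _ := by rw [h3]; group
  induction hx using closure_induction_right with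
  | one => exact ⟨1, one_mem _, 1, one_mem _, 1, one_mem _, by simp⟩
  | mul_right x _ y hy ih =>
    obtain ⟨s, hs | rfl | rfl, rfl⟩ := hy
    · obtain ⟨u, hu, m, hm, u', hu', rfl⟩ := ih
      exact ⟨u, hu, m, hm, _, mul_mem hu' (mem_octU hs), mul_assoc _ _ _⟩
    exacts [key h (by simp) x ih, key h' (by simp) x ih]
  | mul_inv_cancel x _ y hy ih =>
    obtain ⟨s, hs | rfl | rfl, rfl⟩ := hy
    · obtain ⟨u, hu, m, hm, u', hu', rfl⟩ := ih
      exact ⟨u, hu, m, hm, _, mul_mem hu' (inv_mem (mem_octU hs)), mul_assoc _ _ _⟩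
    exacts [h.inv.symm ▸ key h (by simp) x ih, h'.inv.symm ▸ key h' (by simp) x ih]

theorem oct_card [Finite M] {o : ℕ → ℕ} (ho : ∀ i < 8, 0 < o i ∧ g i ^ o i = 1)
    (h : ∀ i k, i < k → k < 8 → ∃ l : List ℕ, (∀ j ∈ l, i < j ∧ j < 8) ∧ g i * g k = octW g l * g i) :
    Nat.card (octU g (Set.Iio 8)) ≤ ∏ i ∈ Finset.range 8, o (7 - i) := by
  have key : ∀ n ≤ 8, Nat.card (octU g (Set.Ico (8 - n) 8)) ≤ ∏ i ∈ Finset.range n, o (7 - i) := by
    intro n hn
    induction n with
    | zero => simp [octU]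
    | succ n ih =>
      rw [show Set.Ico (8 - (n + 1)) 8 = insert (7 - n) (Set.Ico (8 - n) 8) by ext; simp; omega, octU_insert,
        Finset.prod_range_succ, ← SetLike.coe_sort_coe, coe_mul_of_right_le_normalizer_left _ _
          (octU_norm fun k hk => by
            obtain ⟨l, h1, h2⟩ := h (7 - n) k (by have := hk.1; omega) hk.2
            exact ⟨l, fun j hj => ⟨by have := (h1 j hj).1; omega, (h1 j hj).2⟩, h2⟩)]
      refine Set.natCard_mul_le.trans (Nat.mul_le_mul (ih (by omega)) ?_)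
      have := ho (7 - n) (by omega)
      exact (Nat.card_zpowers _).trans_le (orderOf_le_of_pow_eq_one this.1 this.2)
  rw [show Set.Iio 8 = Set.Ico (8 - 8) 8 by ext; simp]
  exact key 8 le_rfl

end

end Cfsg.Agent.Chev
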