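/-
The Tits group.
-/
import Cfsg.Agent.Chev.TwHG2
import Cfsg.Agent.Chev.TwTitsA
import Cfsg.Agent.Chev.StAll
import Cfsg.Agent.Cl.Congr

set_option autoImplicit false

namespace Cfsg.Agent.Chev

open Cfsg.Lie

theorem Tits.eq_bot_or_surj {G W : Type*} [Group G] [Group W] {T : Tits G W} (K : Subgroup G) (hK : T.B ⊔ T.N = K)
    (hirr : ∀ J ⊆ T.S, J.Nonempty → (T.S \ J).Nonempty → ∃ s ∈ J, ∃ t ∈ T.S \ J, s * t ≠ t * s)
    (hcore : (T.B.subgroupOf K).normalCore = ⊥) (L : Subgroup K) [hL : L.Normal] :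
    L = ⊥ ∨ ∃ φ : T.B →* K ⧸ L, Function.Surjective φ := by
  subst hK
  rcases Tits.normal_dichotomy hirr (L := L.map (T.B ⊔ T.N).subtype) (Subgroup.map_subtype_le _)
    (by
      rintro g hg _ ⟨x, hx, rfl⟩
      exact ⟨_, hL.conj_mem x hx ⟨g, hg⟩, rfl⟩) with h | h
  · left
    rw [eq_bot_iff, ← hcore]
    exact Subgroup.normal_le_normalCore.2 fun x hx => h ⟨x, hx, rfl⟩
  · refine Or.inr ⟨(QuotientGroup.mk' L).comp (Subgroup.inclusion le_sup_left), fun q => ?_⟩
    obtain ⟨⟨g, hg⟩, rfl⟩ := QuotientGroup.mk'_surjective L q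
    obtain ⟨_, ⟨x, hx, rfl⟩, b, hb, rfl⟩ := exists_mul_of_mem_sup (fun b hb => Subgroup.mem_normalizer_iff.2 fun y =>
      ⟨by rintro ⟨x, hx, rfl⟩; exact ⟨_, hL.conj_mem x hx ⟨b, Subgroup.mem_sup_left hb⟩, rfl⟩, by
        rintro ⟨x, hx, e⟩
        exact ⟨_, hL.conj_mem' x hx ⟨b, Subgroup.mem_sup_left hb⟩, by simp [show (x : G) = _ from e, mul_assoc]⟩⟩) (h hg)
    refine ⟨⟨b, hb⟩, ?_⟩
    have : (⟨_, hg⟩ : ↥(T.B ⊔ T.N)) = x * ⟨b, Subgroup.mem_sup_left hb⟩ := rfl
    rw [this, map_mul, QuotientGroup.mk'_apply L x, (QuotientGroup.eq_one_iff x).2 hx, one_mul]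
    rfl

theorem octW_map {M M' : Type*} [Group M] [Group M'] (f : M →* M') (g : ℕ → M) (l : List ℕ) :
    f (octW g l) = octW (fun k => f (g k)) l := by
  rw [octW, map_list_prod, List.map_map]; rfl

/-- the twisting data over the field with two elements -/
def titsΘ : TwTheta (ZMod 2) 2 1 := ⟨.refl _, .refl _, by decide, by decide, fun _ => rfl, rfl⟩

/-- the generators of the sixteen root groups and the two reflections -/
def titsR (k : ℕ) : List ℕ := [[33, 24], [34, 26, 36], [38, 43], [29, 41, 44], [39, 45], [35, 31, 40], [37, 32],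
  [27, 25, 28], [14, 23], [13, 21, 11], [9, 4], [18, 6, 3], [8, 2], [12, 16, 7], [10, 15], [20, 22, 19],
  [33, 14, 33, 24, 23, 24], [27, 20, 27, 28, 19, 28]].getD k []

/-- words in the generators as words in root elements -/
def titsZ (l : List ℕ) : List (ℕ × ℤ) := l.flatMap fun k => (titsR k).map fun r => (r, 1)

/-- the generators as group elements -/
noncomputable def titsG (k : ℕ) : (mF4 (ZMod 2)).GG linkF4 := (YF4 (ZMod 2)).word (castW _ (titsZ [k]))

/-- the labels -/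
def titsL (k : ℕ) : Multiplicative (ZMod 2) := .ofAdd (if k < 16 then k else 0)

theorem octW_titsG (l : List ℕ) : octW titsG l = (YF4 (ZMod 2)).word (castW _ (titsZ l)) := by
  induction l with
  | nil => rfl
  | cons k l ih =>
    rw [← List.singleton_append, octW_append, ih, titsZ, titsZ, List.flatMap_append, castW_append, DRel.word_append]
    simp [octW, titsG, titsZ]

/-- comparison of a word in root elements with a word in the generators -/
noncomputable def titsP (w : List (ℕ × ZMod 2)) (l : List ℕ) : Bool :=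
  Nat.beq (engF4.mat (w.map fun p => (p.1, p.2.val))) (engF4.mat (titsZ l))

theorem titsP_eq {w : List (ℕ × ZMod 2)} {l : List ℕ} (h : titsP w l = true) :
    (YF4 (ZMod 2)).word w = octW titsG l := by
  rw [octW_titsG, ← engF4_ok.word_eq (digF4 (ZMod 2) rfl) linkF4 h]
  simp [castW, Function.comp_def]

/-- comparison of two words in the generators -/
noncomputable def titsQ (l l' : List ℕ) : Bool :=
  Nat.beq (engF4.mat (titsZ l)) (engF4.mat (titsZ l')) && decide (octW titsL l = octW titsL l')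

theorem titsQ_eq {l l' : List ℕ} (h : titsQ l l' = true) : octW titsG l = octW titsG l' := by
  rw [octW_titsG, octW_titsG]
  exact engF4_ok.word_eq (digF4 (ZMod 2) rfl) linkF4 (Bool.and_eq_true_iff.1 h).1

theorem titsC1 : ∀ k < 16, titsQ [16, k, 16] [(24 - k) % 16] = true ∧ titsQ [17, k, 17] [(22 - k) % 16] = true := by
  decide +kernel

theorem titsC2 : (∀ t, titsP (f4PairWord 1 f4p1 f4p4 t) (.replicate t.val 0) = true ∧
    titsP (f4PairWord 1 f4m1 f4m4 t) (.replicate t.val 8) = true) ∧ ∀ t u,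
    titsP (b2ClassWord 1 f4a f4b f4ab f4aab t u) (.replicate (t.val + 2 * u.val) 7) = true ∧
    titsP (b2ClassWord 1 f4ma f4mb f4mab f4maab t u) (.replicate (t.val + 2 * u.val) 15) = true := by
  decide +kernel

theorem titsC3 : titsQ [16] [0, 8, 0] = true ∧ titsQ [17] [7, 15, 15, 7, 7, 7] = true ∧
    titsQ [5, 7] [6, 7, 5] = true ∧ titsQ [0, 3] [1, 1, 3, 0] = true := by decide +kernel

theorem titsG_mem (k : ℕ) : titsG k ∈ (twF4 titsΘ).G1 := by
  have h0 : titsG 0 ∈ (twF4 titsΘ).G1 := (twF4 _).XJ_inf_le_G1 (ndF4 0) ((fixF4p0 _ _).2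
    ⟨1, by simpa [octW, ZMod.val_one] using (titsP_eq (titsC2.1 1).1).symm⟩)
  have h8 : titsG 8 ∈ (twF4 titsΘ).G1 := (twF4 _).YJ_inf_le_G1 (ndF4 0) ((fixF4m0 _ _).2
    ⟨1, by simpa [octW, ZMod.val_one] using (titsP_eq (titsC2.1 1).2).symm⟩)
  have h7 : titsG 7 ∈ (twF4 titsΘ).G1 := (twF4 _).XJ_inf_le_G1 (ndF4 1) ((fixF4p1 _ _).2
    ⟨(1, 0), by simpa [octW, ZMod.val_one] using (titsP_eq (titsC2.2 1 0).1).symm⟩)
  have h15 : titsG 15 ∈ (twF4 titsΘ).G1 := (twF4 _).YJ_inf_le_G1 (ndF4 1) ((fixF4m1 _ _).2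
    ⟨(1, 0), by simpa [octW, ZMod.val_one] using (titsP_eq (titsC2.2 1 0).2).symm⟩)
  have key : ∀ {k l}, titsQ [k] l = true ∨ titsQ l [k] = true → (∀ j ∈ l, titsG j ∈ (twF4 titsΘ).G1) →
      titsG k ∈ (twF4 titsΘ).G1 := fun {k l} h h' => by
    have : titsG k = octW titsG l := by
      rcases h with h | h
      exacts [by simpa [octW] using titsQ_eq h, by simpa [octW] using (titsQ_eq h).symm]
    exact this ▸ list_prod_mem (by simpa using h')
  have h16 := key (.inl titsC3.1) (by simp [h0, h8])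
  have h17 := key (.inl titsC3.2.1) (by simp [h7, h15])
  have s : ∀ {k j}, titsG k ∈ (twF4 titsΘ).G1 → k < 16 ∧ (24 - k) % 16 = j → titsG j ∈ (twF4 titsΘ).G1 :=
    fun h hk => key (.inr (hk.2 ▸ (titsC1 _ hk.1).1)) (by simp [h, h16])
  have t : ∀ {k j}, titsG k ∈ (twF4 titsΘ).G1 → k < 16 ∧ (22 - k) % 16 = j → titsG j ∈ (twF4 titsΘ).G1 :=
    fun h hk => key (.inr (hk.2 ▸ (titsC1 _ hk.1).2)) (by simp [h, h17])
  by_cases hk : k < 18
  · have h1 := s (j := 1) h7 (by decide)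
    have h6 := t (j := 6) h0 (by decide)
    have h9 := s (j := 9) h15 (by decide)
    have h14 := t (j := 14) h8 (by decide)
    have h2 := s (j := 2) h6 (by decide)
    have h5 := t (j := 5) h1 (by decide)
    have h10 := s (j := 10) h14 (by decide)
    have h13 := t (j := 13) h9 (by decide)
    have h3 := s (j := 3) h5 (by decide)
    have h4 := t (j := 4) h2 (by decide)
    have h11 := s (j := 11) h13 (by decide)
    have h12 := t (j := 12) h10 (by decide)
    interval_cases k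
    exacts [h0, h1, h2, h3, h4, h5, h6, h7, h8, h9, h10, h11, h12, h13, h14, h15, h16, h17]
  · rw [titsG, titsZ, List.flatMap_singleton, titsR, List.getD_eq_default _ _ (by simpa using hk)]
    exact one_mem _

/-- the labelled generators -/
noncomputable def titsM (k : ℕ) : (twF4 titsΘ).G1 × Multiplicative (ZMod 2) := (⟨_, titsG_mem k⟩, titsL k)

theorem titsQ_eq' {l l' : List ℕ} (h : titsQ l l' = true) : octW titsM l = octW titsM l' := by
  have h1 : ∀ l, ((octW titsM l).1 : (mF4 (ZMod 2)).GG linkF4) = octW titsG l :=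
    octW_map ((twF4 titsΘ).G1.subtype.comp (.fst _ (Multiplicative (ZMod 2)))) _
  have h2 : ∀ l, (octW titsM l).2 = octW titsL l := octW_map (.snd (twF4 titsΘ).G1 _) titsM
  exact Prod.ext (Subtype.ext (by rw [h1, h1, titsQ_eq h]))
    (by rw [h2, h2, of_decide_eq_true (Bool.and_eq_true_iff.1 h).2])

theorem titsS {s r c : ℕ} (tab : List (List ℕ)) (f' f : List ℕ) (h : r < 8 ∧
    (∀ k < 16, (c - (k + 8) % 16) % 16 = ((c - k) % 16 + 8) % 16) ∧ (c - r) % 16 = r + 8 ∧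
    (∀ k < 8, k ≠ r → (c - k) % 16 < 8) ∧ titsQ [s, s] [] = true ∧ titsQ (.replicate 4 r) [] = true ∧
    (∀ k < 8, k ≠ r → (∀ j ∈ tab.getD k [], j < 8 ∧ j ≠ r) ∧ titsQ [r, k] (tab.getD k [] ++ [r]) = true) ∧
    ∀ e < 4, titsQ (.replicate e r) [] = true ∨
      titsQ ([s] ++ .replicate e r ++ [s]) (.replicate (f'.getD e 0) r ++ [s] ++ .replicate (f.getD e 0) r) = true)
    (h' : ∀ k < 16, titsQ [s, k, s] [(c - k) % 16] = true) : OctS titsM s r c := by
  obtain ⟨h1, h2, h3, h4, h5, h6, h7, h8⟩ := h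
  refine ⟨h1, h2, h3, h4, by simpa [octW] using titsQ_eq' h5, fun k hk => ?_,
    by simpa only [octW, List.map_replicate, List.prod_replicate, List.map_nil, List.prod_nil] using titsQ_eq' h6,
    fun k hk hr => ⟨_, (h7 k hk hr).1, by simpa [octW] using titsQ_eq' (h7 k hk hr).2⟩,
    fun e he => (h8 e he).imp (fun h => by simpa [octW] using titsQ_eq' h) fun h => ⟨f'.getD e 0, f.getD e 0, ?_⟩⟩
  · simpa [octW, mul_assoc] using titsQ_eq' (h' k hk)
  · simpa [octW, mul_assoc] using titsQ_eq' h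

theorem titsS0 : OctS titsM 16 0 24 := titsS [[], [1], [2], [1, 1, 3], [4], [1, 1, 2, 5], [2, 4, 6],
  [1, 2, 3, 3, 4, 5, 5, 5, 6, 7]] [0, 1, 0, 1] [0, 1, 0, 1] (by decide +kernel) fun k hk => (titsC1 k hk).1

theorem titsS7 : OctS titsM 17 7 22 := titsS [[0, 1, 2, 3, 3, 4, 5, 5, 5, 6], [1, 2, 3, 3, 3, 5], [2, 3, 3, 4],
  [3], [4, 5, 5], [5, 6], [6]] [0, 1, 3, 2] [0, 2, 1, 3] (by decide +kernel) fun k hk => (titsC1 k hk).2

/-- the commutator relations -/
def titsA (i k : ℕ) : List ℕ := ([[[], [1], [2], [1, 1, 3], [4], [1, 1, 2, 5], [2, 4, 6],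
  [1, 2, 3, 3, 4, 5, 5, 5, 6, 7]], [[], [], [2], [2, 3], [3, 3, 4], [5], [4, 5, 5, 6], [3, 4, 5, 5, 5, 7]],
  [[], [], [], [3], [4], [3, 3, 5], [6], [3, 3, 4, 7]], [[], [], [], [], [4], [4, 5], [5, 5, 6], [7]],
  [[], [], [], [], [], [5], [6], [5, 5, 7]], [[], [], [], [], [], [], [6], [6, 7]],
  [[], [], [], [], [], [], [], [7]]].getD i []).getD k []

theorem titsC4 : (∀ k < 8, ∀ i < k, (∀ j ∈ titsA i k, i < j ∧ j < 8) ∧ titsQ [i, k] (titsA i k ++ [i]) = true) ∧
    ∀ i < 8, titsQ (.replicate (2 * (i % 2 + 1)) i) [] = true := by decide +kernel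

theorem tits_card_le : Nat.card (octU titsM (Set.Iio 8)) ≤ 2 ^ 12 :=
  oct_card (o := fun i => 2 * (i % 2 + 1)) (fun i hi => ⟨by omega, by simpa [octW] using titsQ_eq' (titsC4.2 i hi)⟩)
    fun i k h1 h2 => ⟨_, (titsC4.1 k h2 i h1).1, by simpa [octW] using titsQ_eq' (titsC4.1 k h2 i h1).2⟩

theorem tits_gen {H : Subgroup (twF4 titsΘ).G1} (h : ∀ k ∈ [0, 7, 8, 15], (titsM k).1 ∈ H) : H = ⊤ := by
  have key : ∀ k ∈ [0, 7, 8, 15], ∀ {w n}, titsP w (.replicate n k) = true →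
      (YF4 (ZMod 2)).word w ∈ H.map (twF4 titsΘ).G1.subtype := fun k hk w n hw => by
    rw [titsP_eq hw]
    rw [octW, List.map_replicate, List.prod_replicate]
    exact pow_mem (Subgroup.mem_map_of_mem (twF4 titsΘ).G1.subtype (h k hk)) n
  have : (twF4 titsΘ).G1 ≤ H.map (twF4 titsΘ).G1.subtype := iSup_le fun i => by
    rw [twF4_sym]
    rcases orbF4_cases i with h | h <;> rw [h.1] <;> refine sup_le (fun g hg => ?_) fun g hg => ?_
    · obtain ⟨t, rfl⟩ := (fixF4p0 _ g).1 hg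
      exact key 0 (by simp) (titsC2.1 t).1
    · obtain ⟨t, rfl⟩ := (fixF4m0 _ g).1 hg
      exact key 8 (by simp) (titsC2.1 t).2
    · obtain ⟨t, rfl⟩ := (fixF4p1 _ g).1 hg
      exact key 7 (by simp) (titsC2.2 _ _).1
    · obtain ⟨t, rfl⟩ := (fixF4m1 _ g).1 hg
      exact key 15 (by simp) (titsC2.2 _ _).2
  refine eq_top_iff.2 fun g _ => ?_
  obtain ⟨x, hx, e⟩ := this g.2
  exact Subtype.ext e ▸ hx

theorem tits_n_mem {r s : ℕ} (hr : r < chevF4.nroots) (h : (rsF4.neg ⟨r, hr⟩).1 = s) :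
    (YF4 (ZMod 2)).word [(r, 1), (s, 1), (r, 1)] ∈ (PF4 (ZMod 2)).N := by
  have := (PF4 (ZMod 2)).n_mem_N ⟨r, hr⟩ one_ne_zero
  rw [St0.n, MatRel.st_x_eq _ _ h, MatRel.st_x_mk, inv_one, show (-1 : ZMod 2) = 1 from rfl] at this
  simpa [mul_assoc] using this

theorem exists_tits_hom : ∃ χ : (twF4 titsΘ).G1 →* Multiplicative (ZMod 2), χ (titsM 7).1 ≠ 1 := by
  let p := (twF4 titsΘ).G1.subtype.comp (.fst _ (Multiplicative (ZMod 2)))
  have hU : octU titsM (Set.Iio 8) ≤ (PF4 (ZMod 2)).U.comap p := octU_le fun k hk =>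
    (mF4 _).word_mem_X linkF4 (by
      simp only [Set.mem_ofPred, RootSys.isPos_iff_neg_lt]
      rw [Set.mem_Iio] at hk
      revert k; decide +kernel)
  have hN : octU titsM {16, 17} ≤ (PF4 (ZMod 2)).N.comap p ⊓ (MonoidHom.snd _ _).ker := octU_le (by
    rintro _ (rfl | rfl) <;> refine ⟨?_, rfl⟩
    · exact mul_mem (tits_n_mem (r := 33) (s := 14) (by decide) (by decide +kernel))
        (tits_n_mem (r := 24) (s := 23) (by decide) (by decide +kernel)) |> (by simp [p, titsM, titsG, titsZ, titsR, castW, mul_assoc] : _ = p (titsM 16)).subst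
    · exact mul_mem (tits_n_mem (r := 27) (s := 20) (by decide) (by decide +kernel))
        (tits_n_mem (r := 28) (s := 19) (by decide) (by decide +kernel)) |> (by simp [p, titsM, titsG, titsZ, titsR, castW, mul_assoc] : _ = p (titsM 17)).subst)
  have hmem : ∀ k ∈ [0, 7, 8, 15], titsM k ∈ octU titsM (Set.Iio 8 ∪ {16, 17}) := by
    have h : ∀ k, k < 8 ∨ k = 16 ∨ k = 17 → titsM k ∈ octU titsM (Set.Iio 8 ∪ {16, 17}) := fun k hk => mem_octU hk
    simp only [List.forall_mem_cons, List.not_mem_nil, false_imp_iff, implies_true, and_true]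
    exact ⟨h 0 (by simp), h 7 (by simp),
      titsS0.conj 0 (by decide) ▸ mul_mem (mul_mem (h 16 (by simp)) (h 0 (by simp))) (h 16 (by simp)),
      titsS7.conj 7 (by decide) ▸ mul_mem (mul_mem (h 17 (by simp)) (h 7 (by simp))) (h 17 (by simp))⟩
  have htop : (octU titsM (Set.Iio 8 ∪ {16, 17})).map (.fst _ _) = ⊤ :=
    tits_gen fun k hk => Subgroup.mem_map_of_mem _ (hmem k hk)
  have key : ∀ x ∈ octU titsM (Set.Iio 8 ∪ {16, 17}), p x ∈ (PF4 (ZMod 2)).U → x ∈ octU titsM (Set.Iio 8) := by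
    intro x hx h
    obtain ⟨u, hu, m, hm, u', hu', rfl⟩ := oct_bruhat titsS0 titsS7 hx
    rw [map_mul, map_mul, mul_mem_cancel_right (Subgroup.mem_comap.1 (hU hu')),
      mul_mem_cancel_left (Subgroup.mem_comap.1 (hU hu))] at h
    have : m = 1 := Prod.ext (Subtype.ext (((mF4 _).st_faithful linkF4).U_inf_N.le ⟨h, (hN hm).1⟩)) (hN hm).2
    rw [this, mul_one]
    exact mul_mem hu hu'
  have hle : (PF4 (ZMod 2)).U ⊓ (twF4 titsΘ).Fix ≤ (p.comp (octU titsM (Set.Iio 8)).subtype).range := fun g hg => by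
    obtain ⟨x, hx, e⟩ := htop.ge (Subgroup.mem_top ⟨g, (goodF4 _).U_inf_Fix_le hg⟩)
    have e' : p x = g := congrArg Subtype.val e
    exact ⟨⟨x, key x hx (e' ▸ hg.1)⟩, e'⟩
  have hinj : Function.Injective (p.comp (octU titsM (Set.Iio 8)).subtype).rangeRestrict :=
    ((MonoidHom.rangeRestrict_surjective _).bijective_of_nat_card_le (by
      have := Subgroup.card_le_of_le hle
      rw [cardUF4, ZMod.card] at this
      exact tits_card_le.trans this)).1
  have h2 : ∀ z, (1, z) ∈ octU titsM (Set.Iio 8 ∪ {16, 17}) → z = 1 := fun z hz =>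
    congrArg (fun x => x.1.2) (hinj (a₁ := ⟨(1, z), key _ hz (one_mem _)⟩) (a₂ := 1) rfl)
  obtain ⟨χ, hχ⟩ := Cl.exists_hom_of_graph _ htop h2
  refine ⟨χ, fun h => absurd (h2 (titsL 7) ?_) (by decide)⟩
  have := mul_mem (inv_mem (hχ (titsM 7).1)) (hmem 7 (by simp))
  rwa [h, ← Prod.mk.eta (p := titsM 7), Prod.inv_mk, Prod.mk_mul_mk, inv_mul_cancel, inv_one, one_mul] at this

theorem tits_abel (g : (twF4 titsΘ).G1) :
    g ∈ commutator (twF4 titsΘ).G1 ∨ g * (titsM 7).1 ∈ commutator (twF4 titsΘ).G1 := by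
  let ψ := (Abelianization.of (G := (twF4 titsΘ).G1)).comp (.fst _ (Multiplicative (ZMod 2)))
  have key : ∀ {s r c}, OctS titsM s r c → ∀ k < 16, ψ (titsM ((c - k) % 16)) = ψ (titsM k) := fun h k hk => by
    rw [← h.conj k hk, map_mul, map_mul, mul_right_comm, ← map_mul, h.sq, map_one, one_mul]
  have h6 : ψ (titsM 6) = 1 := by
    simpa [octW, mul_comm (ψ (titsM 5))] using (congrArg ψ (titsQ_eq' titsC3.2.2.1)).symm
  have h1 : ψ (titsM 1) * ψ (titsM 1) = 1 := by
    simpa [octW, mul_comm (ψ (titsM 0)), ← mul_assoc] using (congrArg ψ (titsQ_eq' titsC3.2.2.2)).symm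
  have h0 : ψ (titsM 0) = 1 := (key titsS7 0 (by decide)).symm.trans h6
  rw [show ψ (titsM 1) = ψ (titsM 7) from key titsS0 7 (by decide)] at h1
  have : (Subgroup.zpowers (ψ (titsM 7))).comap Abelianization.of = ⊤ := tits_gen (by
    simp only [List.forall_mem_cons, List.not_mem_nil, false_imp_iff, implies_true, and_true]
    have h8 : ψ (titsM 8) = 1 := (key titsS0 0 (by decide)).trans h0
    have h15 : ψ (titsM 15) = ψ (titsM 7) := key titsS7 7 (by decide)
    exact ⟨⟨0, h0.symm⟩, Subgroup.mem_zpowers _, ⟨0, h8.symm⟩, ⟨1, (zpow_one _).trans h15.symm⟩⟩)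
  obtain ⟨j, hj⟩ := this.ge (Subgroup.mem_top g)
  simp only [← Abelianization.ker_of, MonoidHom.mem_ker, map_mul, ← hj]
  rcases Int.even_or_odd' j with ⟨i, rfl | rfl⟩
  · left; rw [zpow_mul, zpow_two, h1, one_zpow]
  · right; rw [zpow_add, zpow_mul, zpow_two, h1, one_zpow, one_mul, zpow_one]; exact h1

theorem tits_main : (commutator (twF4 titsΘ).G1).index = 2 ∧ IsSimpleGroup (commutator (twF4 titsΘ).G1) ∧
    Nat.card (commutator (twF4 titsΘ).G1) = 2 ^ 11 * 3 ^ 3 * 5 ^ 2 * 13 := by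
  obtain ⟨χ, hχ⟩ := exists_tits_hom
  have h1 := index_commutator_eq_two tits_abel χ hχ
  have h2 : Nat.card (commutator (twF4 titsΘ).G1) = 2 ^ 11 * 3 ^ 3 * 5 ^ 2 * 13 := by
    have := (commutator (twF4 titsΘ).G1).index_mul_card
    rw [h1, cardGF4, cardHF4, ZMod.card, show polF4 2 = 8775 by decide] at this
    omega
  refine ⟨h1, isSimpleGroup_of_index_two h1 (fun K hK => ?_) (by rw [h2]; norm_num), h2⟩
  refine (Tits.eq_bot_or_surj (T := (goodF4 titsΘ).tits1) _ (goodF4 _).B1_sup_N1 (symF4.irreducible connF4)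
    ((goodF4 _).normalCore_eq_bot (hposF4 _) ((mF4 _).st_adj linkF4)) K).imp_right fun ⟨φ, hφ⟩ => ?_
  have : Group.IsNilpotent (goodF4 titsΘ).tits1.B := (IsPGroup.of_card (p := 2) (n := 12) (by
    refine (goodF4 titsΘ).card_B1.trans ?_
    rw [cardUF4, cardHF4, ZMod.card]; rfl)).isNilpotent
  have := Group.nilpotent_of_surjective φ hφ
  exact (commutator_le_ker_of_nilpotent tits_abel (QuotientGroup.mk' K)).trans (QuotientGroup.ker_mk' K).le

end Cfsg.Agent.Chev
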