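/-
Orders of Coxeter elements from the encoded tables.
-/
import Cfsg.Agent.Chev.RootTab

set_option autoImplicit false

namespace Cfsg.Agent.Chev

namespace Enc

variable (E : Enc)

/-- action of a word in the simple reflections on root indices -/
def wordAct (L : List ℕ) (r : ℕ) : ℕ := L.foldr E.rf r

/-- iterate -/
def iterAct (L : List ℕ) (m r : ℕ) : ℕ := Nat.rec r (fun _ ih => E.wordAct L ih) m

theorem act_word (h : E.OK) (M : CoxeterMatrix (Fin E.l)) (hM : Compat M fun i j => E.A i j)
    (L : List (Fin E.l)) (r : Fin E.n) :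
    ((E.rootSys h M hM).act (L.map (E.rootSys h M hM).s).prod r).1 = E.wordAct (L.map Fin.val) r := by
  induction L with
  | nil => simp [wordAct]
  | cons i L ih =>
    rw [List.map_cons, List.prod_cons, RootSys.act_mul, RootSys.act_simple]
    show E.rf i _ = _
    rw [ih]; rfl

theorem act_word_pow (h : E.OK) (M : CoxeterMatrix (Fin E.l)) (hM : Compat M fun i j => E.A i j)
    (L : List (Fin E.l)) (m : ℕ) (r : Fin E.n) :
    ((E.rootSys h M hM).act ((L.map (E.rootSys h M hM).s).prod ^ m) r).1 =
      E.iterAct (L.map Fin.val) m r := by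
  induction m with
  | zero => simp [iterAct]
  | succ m ih =>
    rw [pow_succ', RootSys.act_mul, act_word, ih]; rfl

/-- check for the order of a word -/
def chkOrder (L : List ℕ) (o : ℕ) : Bool :=
  Nat.blt 0 o && (allLT E.l fun i => Nat.beq (E.iterAct L o (E.sm i)) (E.sm i)) &&
    allLT o fun m => Nat.beq m 0 || anyLT E.l fun i => !Nat.beq (E.iterAct L m (E.sm i)) (E.sm i)

theorem orderOf_word (h : E.OK) (M : CoxeterMatrix (Fin E.l)) (hM : Compat M fun i j => E.A i j)
    (L : List (Fin E.l)) (o : ℕ) (hc : E.chkOrder (L.map Fin.val) o = true) :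
    orderOf (L.map (E.rootSys h M hM).s).prod = o := by
  simp only [chkOrder, Bool.and_eq_true, Nat.blt_eq, allLT_iff, Nat.beq_eq, Bool.or_eq_true, anyLT_iff,
    Bool.not_eq_true'] at hc
  rw [orderOf_eq_iff hc.1.1]
  constructor
  · apply (E.rootSys h M hM).eq_of_act_simple_eq
    intro i
    apply Fin.ext
    rw [act_word_pow, RootSys.act_one]
    exact hc.1.2 i i.2
  · intro m hm h0 e
    rcases hc.2 m hm with h1 | ⟨i, hi, h1⟩
    · omega
    · have := E.act_word_pow h M hM L m ((E.rootSys h M hM).simple ⟨i, hi⟩)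
      rw [e, RootSys.act_one] at this
      have h2 : E.iterAct (L.map Fin.val) m (E.sm i) = E.sm i := this.symm
      rw [h2] at h1
      simp at h1

end Enc

end Cfsg.Agent.Chev
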