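/-
The Poincare polynomial of the Weyl group of type B2.
-/
import Cfsg.Agent.Chev.WPoin
import Cfsg.Agent.Chev.RootB2

set_option autoImplicit false

namespace Cfsg.Agent.Chev

open Cfsg.Lie

theorem poinB2_step0 {S : Type*} [CommSemiring S] (q : S) :
    rsB2.poin {j | j.1 ∈ (List.range chevB2.rank : List ℕ)} q = evalP [1, 1, 1, 1] q * rsB2.poin {j | j.1 ∈ ([1] : List ℕ)} q :=
  poin_step_list rsB2 encB2.A (fun _ _ => rfl) _ _ [35072, 38657, 30978, 34563] _ 35072 (by decide +kernel) q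

theorem poinB2_step1 {S : Type*} [CommSemiring S] (q : S) :
    rsB2.poin {j | j.1 ∈ ([1] : List ℕ)} q = evalP [1, 1] q * rsB2.poin {j | j.1 ∈ ([] : List ℕ)} q :=
  poin_step_list rsB2 encB2.A (fun _ _ => rfl) _ _ [38912, 31233] _ 38912 (by decide +kernel) q

theorem poinB2 {S : Type*} [CommRing S] (q : S) :
    (q - 1) ^ 2 * rsB2.poin Set.univ q = (q ^ 2 - 1) * (q ^ 4 - 1) := by
  rw [poin_univ_list, poinB2_step0, poinB2_step1, poin_nil_list]
  simp only [evalP]
  push_cast
  ring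

theorem card_WB2 : Nat.card rsB2.W = 8 := by
  rw [RootSys.card_W, poin_univ_list, poinB2_step0, poinB2_step1, poin_nil_list]
  decide +kernel

end Cfsg.Agent.Chev
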