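/-
The Poincare polynomial of the Weyl group of type D4.
-/
import Cfsg.Agent.Chev.WPoin
import Cfsg.Agent.Chev.RootD4

set_option autoImplicit false

namespace Cfsg.Agent.Chev

open Cfsg.Lie

theorem poinD4_step0 {S : Type*} [CommSemiring S] (q : S) :
    rsD4.poin {j | j.1 ∈ (List.range chevD4.rank : List ℕ)} q = evalP [1, 1, 1, 2, 1, 1, 1] q * rsD4.poin {j | j.1 ∈ ([1, 2, 3] : List ℕ)} q :=
  poin_step_list rsD4 encD4.A (fun _ _ => rfl) _ _ [8947968, 8951553, 10057730, 9930755, 7964675, 7837700, 8943877, 8947462] _ 8947968 (by decide +kernel) q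

theorem poinD4_step1 {S : Type*} [CommSemiring S] (q : S) :
    rsD4.poin {j | j.1 ∈ ([1, 2, 3] : List ℕ)} q = evalP [1, 1, 1, 1] q * rsD4.poin {j | j.1 ∈ ([1, 3] : List ℕ)} q :=
  poin_step_list rsD4 encD4.A (fun _ _ => rfl) _ _ [9013248, 8886273, 9992450, 7899395] _ 9013248 (by decide +kernel) q

theorem poinD4_step2 {S : Type*} [CommSemiring S] (q : S) :
    rsD4.poin {j | j.1 ∈ ([1, 3] : List ℕ)} q = evalP [1, 1, 1] q * rsD4.poin {j | j.1 ∈ ([3] : List ℕ)} q :=
  poin_step_list rsD4 encD4.A (fun _ _ => rfl) _ _ [8951808, 10057985, 7964930] _ 8951808 (by decide +kernel) q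

theorem poinD4_step3 {S : Type*} [CommSemiring S] (q : S) :
    rsD4.poin {j | j.1 ∈ ([3] : List ℕ)} q = evalP [1, 1] q * rsD4.poin {j | j.1 ∈ ([] : List ℕ)} q :=
  poin_step_list rsD4 encD4.A (fun _ _ => rfl) _ _ [9996288, 7903233] _ 9996288 (by decide +kernel) q

theorem poinD4 {S : Type*} [CommRing S] (q : S) :
    (q - 1) ^ 4 * rsD4.poin Set.univ q = (q ^ 2 - 1) * (q ^ 4 - 1) * (q ^ 4 - 1) * (q ^ 6 - 1) := by
  rw [poin_univ_list, poinD4_step0, poinD4_step1, poinD4_step2, poinD4_step3, poin_nil_list]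
  simp only [evalP]
  push_cast
  ring

theorem card_WD4 : Nat.card rsD4.W = 192 := by
  rw [RootSys.card_W, poin_univ_list, poinD4_step0, poinD4_step1, poinD4_step2, poinD4_step3, poin_nil_list]
  decide +kernel

end Cfsg.Agent.Chev
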