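/-
The Poincare polynomial of the Weyl group of type E6.
-/
import Cfsg.Agent.Chev.WPoin
import Cfsg.Agent.Chev.RootE6

set_option autoImplicit false

namespace Cfsg.Agent.Chev

open Cfsg.Lie

theorem poinE6_step0 {S : Type*} [CommSemiring S] (q : S) :
    rsE6.poin {j | j.1 ∈ (List.range chevE6.rank : List ℕ)} q = evalP [1, 1, 1, 1, 2, 2, 2, 2, 3, 2, 2, 2, 2, 1, 1, 1, 1] q * rsE6.poin {j | j.1 ∈ ([1, 2, 3, 4, 5] : List ℕ)} q :=
  poin_step_list rsE6 encE6.A (fun _ _ => rfl) _ _ [2290649344, 2290714369, 2291632130, 2306381827, 2307422212, 2542311428, 2543351813, 2022217733, 2558101510, 2023258118, 2559019271, 2038007815, 2559084296, 2038925576, 2273937416, 2038990601, 2274855177, 2274920202, 2289604874, 2289669899, 2290645259, 2290710284, 2290587660, 2291628045, 2306377742, 2542307343, 2022213648] _ 2290649344 (by decide +kernel) q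

theorem poinE6_step1 {S : Type*} [CommSemiring S] (q : S) :
    rsE6.poin {j | j.1 ∈ ([1, 2, 3, 4, 5] : List ℕ)} q = evalP [1, 1, 1, 1, 2, 1, 1, 1, 1] q * rsE6.poin {j | j.1 ∈ ([1, 2, 3, 4] : List ℕ)} q :=
  poin_step_list rsE6 encE6.A (fun _ _ => rfl) _ _ [2559084544, 2038990849, 2274920450, 2289670147, 2290710532, 2290587908, 2291628293, 2306377990, 2542307591, 2022213896] _ 2559084544 (by decide +kernel) q

theorem poinE6_step2 {S : Type*} [CommSemiring S] (q : S) :
    rsE6.poin {j | j.1 ∈ ([1, 2, 3, 4] : List ℕ)} q = evalP [1, 1, 1, 2, 1, 1, 1] q * rsE6.poin {j | j.1 ∈ ([2, 3, 4] : List ℕ)} q :=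
  poin_step_list rsE6 encE6.A (fun _ _ => rfl) _ _ [2290653184, 2291693569, 2306443266, 2307361027, 2542372867, 2543290628, 2558040325, 2559080710] _ 2290653184 (by decide +kernel) q

theorem poinE6_step3 {S : Type*} [CommSemiring S] (q : S) :
    rsE6.poin {j | j.1 ∈ ([2, 3, 4] : List ℕ)} q = evalP [1, 1, 1, 1] q * rsE6.poin {j | j.1 ∈ ([3, 4] : List ℕ)} q :=
  poin_step_list rsE6 encE6.A (fun _ _ => rfl) _ _ [2290714624, 2291632385, 2306382082, 2542311683] _ 2290714624 (by decide +kernel) q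

theorem poinE6_step4 {S : Type*} [CommSemiring S] (q : S) :
    rsE6.poin {j | j.1 ∈ ([3, 4] : List ℕ)} q = evalP [1, 1, 1] q * rsE6.poin {j | j.1 ∈ ([4] : List ℕ)} q :=
  poin_step_list rsE6 encE6.A (fun _ _ => rfl) _ _ [2291697664, 2306447361, 2542376962] _ 2291697664 (by decide +kernel) q

theorem poinE6_step5 {S : Type*} [CommSemiring S] (q : S) :
    rsE6.poin {j | j.1 ∈ ([4] : List ℕ)} q = evalP [1, 1] q * rsE6.poin {j | j.1 ∈ ([] : List ℕ)} q :=
  poin_step_list rsE6 encE6.A (fun _ _ => rfl) _ _ [2307426304, 2543355905] _ 2307426304 (by decide +kernel) q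

theorem poinE6 {S : Type*} [CommRing S] (q : S) :
    (q - 1) ^ 6 * rsE6.poin Set.univ q = (q ^ 2 - 1) * (q ^ 5 - 1) * (q ^ 6 - 1) * (q ^ 8 - 1) * (q ^ 9 - 1) * (q ^ 12 - 1) := by
  rw [poin_univ_list, poinE6_step0, poinE6_step1, poinE6_step2, poinE6_step3, poinE6_step4, poinE6_step5, poin_nil_list]
  simp only [evalP]
  push_cast
  ring

theorem card_WE6 : Nat.card rsE6.W = 51840 := by
  rw [RootSys.card_W, poin_univ_list, poinE6_step0, poinE6_step1, poinE6_step2, poinE6_step3, poinE6_step4, poinE6_step5, poin_nil_list]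
  decide +kernel

end Cfsg.Agent.Chev
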