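/-
The Poincare polynomial of the Weyl group of type F4.
-/
import Cfsg.Agent.Chev.WPoin
import Cfsg.Agent.Chev.RootF4

set_option autoImplicit false

namespace Cfsg.Agent.Chev

open Cfsg.Lie

theorem poinF4_step0 {S : Type*} [CommSemiring S] (q : S) :
    rsF4.poin {j | j.1 ∈ (List.range chevF4.rank : List ℕ)} q = evalP [1, 1, 1, 1, 2, 2, 2, 2, 2, 2, 2, 2, 1, 1, 1, 1] q * rsF4.poin {j | j.1 ∈ ([1, 2, 3] : List ℕ)} q :=
  poin_step_list rsF4 encF4.A (fun _ _ => rfl) _ _ [8947968, 8951553, 9009154, 9934851, 9992452, 7903236, 9996037, 7960837, 7964422, 8886534, 8890119, 8944135, 9005320, 8951304, 9008905, 9931017, 9934602, 7899402, 9992203, 7902987, 7960588, 8886285, 8943886, 8947471] _ 8947968 (by decide +kernel) q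

theorem poinF4_step1 {S : Type*} [CommSemiring S] (q : S) :
    rsF4.poin {j | j.1 ∈ ([1, 2, 3] : List ℕ)} q = evalP [1, 1, 1, 1, 1, 1] q * rsF4.poin {j | j.1 ∈ ([1, 2] : List ℕ)} q :=
  poin_step_list rsF4 encF4.A (fun _ _ => rfl) _ _ [9996288, 7964673, 8890370, 9005571, 9931268, 7899653] _ 9996288 (by decide +kernel) q

theorem poinF4_step2 {S : Type*} [CommSemiring S] (q : S) :
    rsF4.poin {j | j.1 ∈ ([1, 2] : List ℕ)} q = evalP [1, 1, 1, 1] q * rsF4.poin {j | j.1 ∈ ([2] : List ℕ)} q :=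
  poin_step_list rsF4 encF4.A (fun _ _ => rfl) _ _ [8951808, 9009409, 9935106, 9992707] _ 8951808 (by decide +kernel) q

theorem poinF4_step3 {S : Type*} [CommSemiring S] (q : S) :
    rsF4.poin {j | j.1 ∈ ([2] : List ℕ)} q = evalP [1, 1] q * rsF4.poin {j | j.1 ∈ ([] : List ℕ)} q :=
  poin_step_list rsF4 encF4.A (fun _ _ => rfl) _ _ [9013248, 9938945] _ 9013248 (by decide +kernel) q

theorem poinF4 {S : Type*} [CommRing S] (q : S) :
    (q - 1) ^ 4 * rsF4.poin Set.univ q = (q ^ 2 - 1) * (q ^ 6 - 1) * (q ^ 8 - 1) * (q ^ 12 - 1) := by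
  rw [poin_univ_list, poinF4_step0, poinF4_step1, poinF4_step2, poinF4_step3, poin_nil_list]
  simp only [evalP]
  push_cast
  ring

theorem card_WF4 : Nat.card rsF4.W = 1152 := by
  rw [RootSys.card_W, poin_univ_list, poinF4_step0, poinF4_step1, poinF4_step2, poinF4_step3, poin_nil_list]
  decide +kernel

end Cfsg.Agent.Chev
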